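import Mathlib
import Cfsg.Agent.Lib.Helper82.SecHeight2
import Cfsg.Agent.Lib.Helper82.SecRow
import Cfsg.Agent.Lib.Helper75.NumMinMax

/-!
# Diagonal contributions of a major subsection: valuation and positivity

Piece [V] of S4715 (helper79's split, board #1360).

* `major_val`: for a block `b` of `C_G(x)`, `x` a `p`-element, inducing the block `B` of `G`, and
  `χ ∈ B`: `p ^ d * mm χ χ = p ^ h(χ) * ρ` with `ρ` in the local ring.
* `major_diag`: the same together with positivity of `mm χ χ` when `b` and `B` have the same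
  defect.
-/

set_option autoImplicit false

namespace Cfsg.Agent.Lib.Helper41.MajorDiag

open Cfsg Cfsg.Agent.Lib.Helper77.LocalRing
  Cfsg.Agent.Lib.Helper75.Section Cfsg.Agent.Lib.Helper75.Section2
  Cfsg.Agent.Lib.Helper75.Section3 Cfsg.Agent.Lib.Helper75.BlockRank
  Cfsg.Agent.Lib.Helper82.SecSq Cfsg.Agent.Lib.Helper82.SecLocal
  Cfsg.Agent.Lib.Helper82.SecCong Cfsg.Agent.Lib.Helper80.Contrib
  Cfsg.Agent.Lib.Helper82.SecHeight
open scoped ComplexConjugate
open Finset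

universe u

/-- The scaled diagonal contribution of a subsection `(x, b)` lies in `p ^ h(χ)` times the local
ring (no defect hypothesis needed). -/
theorem major_val {G : Type u} [Group G] [Fintype G] (p : ℕ) [Fact p.Prime] (M : Ideal AlgInt)
    (hM : IsPModular p M) (B : Set (IrrCharacter G)) (x : G) (hx : ∃ k : ℕ, orderOf x = p ^ k)
    [Fintype (Subgroup.centralizer ({x} : Set G))]
    [Fintype (IrrCharacter (Subgroup.centralizer ({x} : Set G)))]
    (b : Set (IrrCharacter (Subgroup.centralizer ({x} : Set G)))) [DecidablePred (· ∈ b)]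
    (hind : IsInducedBlock M (Subgroup.centralizer ({x} : Set G)) b B)
    (χ : IrrCharacter G) (hχ : χ ∈ B) :
    ∃ ρ : ℂ, MemLocalRing M ρ ∧
      (p : ℂ) ^ blockDefect p B
          * mm p b (fun c : Subgroup.centralizer ({x} : Set G) => (χ : G → ℂ) (x * c))
            (fun c : Subgroup.centralizer ({x} : Set G) => (χ : G → ℂ) (x * c))
        = (p : ℂ) ^ blockHeight p B (χ : G → ℂ) * ρ := by
  classical
  have hpp : p.Prime := Fact.out
  have hMp : M.IsPrime := isPrime_of_isPModular hM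
  have hb : IsPBlock M b := hind.1
  have hB : IsPBlock M B := hind.2.1
  obtain ⟨k, hk⟩ := hx
  have hx : ∃ k : ℕ, orderOf x = p ^ k := ⟨k, hk⟩
  -- the central element
  have hxC : x ∈ Subgroup.centralizer ({x} : Set G) := by
    rw [Subgroup.mem_centralizer_iff]
    intro h hh'
    rw [Set.mem_singleton_iff] at hh'
    rw [hh']
  obtain ⟨z, hzdef⟩ : ∃ z : Subgroup.centralizer ({x} : Set G), z = ⟨x, hxC⟩ := ⟨_, rfl⟩
  have hzval : (z : G) = x := by rw [hzdef]
  have hz : ∀ h : Subgroup.centralizer ({x} : Set G), z * h = h * z := by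
    intro h
    apply Subtype.ext
    rw [Subgroup.coe_mul, Subgroup.coe_mul, hzval]
    exact Subgroup.mem_centralizer_iff.1 h.2 x rfl
  have hzk : z ^ (p ^ k) = 1 := by
    apply Subtype.ext
    rw [Subgroup.coe_pow, hzval, ← hk, pow_orderOf_eq_one]
    rfl
  -- the restrictions
  have hres : ∀ χ' : IrrCharacter G, ∃ n : IrrCharacter (Subgroup.centralizer ({x} : Set G)) → ℕ,
      (fun y : Subgroup.centralizer ({x} : Set G) => (χ' : G → ℂ) y)
        = ∑ η : IrrCharacter (Subgroup.centralizer ({x} : Set G)), (n η : ℂ) • (η : Subgroup.centralizer ({x} : Set G) → ℂ) := by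
    intro χ'
    obtain ⟨n, -, hn⟩ := Cfsg.Agent.Lib.CT.NormOne.exists_mult_sum
      (Cfsg.Agent.Lib.CT.Ops.isCharacter_restrict (Subgroup.centralizer ({x} : Set G))
        (Cfsg.Agent.Lib.CT.Wedderburn.isCharacter_of_irr χ'.2))
    exact ⟨n, hn⟩
  choose nn hnn using hres
  have hshift : ∀ χ' : IrrCharacter G,
      (fun c : Subgroup.centralizer ({x} : Set G) => (χ' : G → ℂ) (x * c))
      = fun h : Subgroup.centralizer ({x} : Set G) => (fun y : Subgroup.centralizer ({x} : Set G) => (χ' : G → ℂ) y) (z ^ 1 * h) := by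
    intro χ'
    funext h
    show (χ' : G → ℂ) (x * h) = (χ' : G → ℂ) ((z ^ 1 * h : Subgroup.centralizer ({x} : Set G)) : G)
    rw [pow_one, Subgroup.coe_mul, hzval]
  obtain ⟨lam, hlam⟩ : ∃ lam : IrrCharacter (Subgroup.centralizer ({x} : Set G)) → ℂ,
      ∀ η, lam η = (η : Subgroup.centralizer ({x} : Set G) → ℂ) z / (η : Subgroup.centralizer ({x} : Set G) → ℂ) 1 := ⟨_, fun _ => rfl⟩
  have hlamk : ∀ η, lam η ^ (p ^ k) = 1 := fun η => by
    rw [hlam]
    exact lam_pow _ η.2 z hz _ hzk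
  have hconjI : ∀ η, MemLocalIdeal M (conj (lam η) - 1) := by
    intro η
    apply Cfsg.Agent.Lib.Helper16.PSection.memLocalIdeal_sub_one_of_pow_eq_one hM _ k
    rw [← map_pow, hlamk, map_one]
  have hconjR : ∀ η, MemLocalRing M (conj (lam η)) :=
    fun η => memLocalRing_of_sub_one hMp (hconjI η)
  have hcoef : ∀ (ψ : IrrCharacter G) (η' : IrrCharacter (Subgroup.centralizer ({x} : Set G))),
      classInner (fun c : Subgroup.centralizer ({x} : Set G) => (ψ : G → ℂ) (x * c)) (η' : Subgroup.centralizer ({x} : Set G) → ℂ)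
        = (nn ψ η' : ℂ) * lam η' := by
    intro ψ η'
    rw [hshift ψ, classInner_shift _ (nn ψ) (hnn ψ) z hz 1 η', pow_one, hlam]
  -- the scaled coefficients
  obtain ⟨T, hT⟩ : ∃ T : IrrCharacter G → IrrCharacter (Subgroup.centralizer ({x} : Set G)) → ℂ, ∀ χ' ξ,
      T χ' ξ = classInner (secRes p x (χ' : G → ℂ)) (ξ : Subgroup.centralizer ({x} : Set G) → ℂ) * (Nat.card G : ℂ)
        / (χ' : G → ℂ) 1 := ⟨_, fun _ _ => rfl⟩
  obtain ⟨E, hE⟩ : ∃ E : IrrCharacter G → IrrCharacter G → ℂ, ∀ χ' ψ,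
      E χ' ψ = ∑ η' ∈ univ.filter (· ∈ b), T χ' η' * ((nn ψ η' : ℂ) * conj (lam η')) :=
    ⟨_, fun _ _ => rfl⟩
  have hTR : ∀ χ' ξ, MemLocalRing M (T χ' ξ) := fun χ' ξ => by
    rw [hT]
    exact secCoeff_mem p M hM x hx ξ χ'
  have hER : ∀ χ' ψ, MemLocalRing M (E χ' ψ) := by
    intro χ' ψ
    rw [hE]
    exact memLocalRing_sum hMp _ _ fun η' _ => memLocalRing_mul hMp (hTR χ' η')
      (memLocalRing_mul hMp (memLocalRing_natCast hMp _) (hconjR η'))
  have hEcong : ∀ χ' ∈ B, ∀ χ'' ∈ B, ∀ ψ, MemLocalIdeal M (E χ' ψ - E χ'' ψ) := by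
    intro χ' hχ' χ'' hχ'' ψ
    rw [hE, hE, ← sum_sub_distrib]
    refine memLocalIdeal_sum hMp _ _ fun η' _ => ?_
    rw [← sub_mul]
    refine memLocalIdeal_mul_right hMp ?_
      (memLocalRing_mul hMp (memLocalRing_natCast hMp _) (hconjR η'))
    rw [hT, hT]
    exact secCoeff_cong p M hM x hx η' χ' χ''
      (Cfsg.Agent.Lib.Helper82.Contrib.sameBlock_of_mem hMp hB hχ' hχ'')
  -- the scaled contributions
  obtain ⟨Mm, hMm⟩ : ∃ Mm : IrrCharacter G → IrrCharacter G → ℂ, ∀ χ' ψ,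
      Mm χ' ψ = (p : ℂ) ^ blockDefect p B
        * mm p b (fun c : Subgroup.centralizer ({x} : Set G) => (χ' : G → ℂ) (x * c)) (fun c : Subgroup.centralizer ({x} : Set G) => (ψ : G → ℂ) (x * c)) :=
    ⟨_, fun _ _ => rfl⟩
  have hform : ∀ χ' ∈ B, ∀ ψ : IrrCharacter G, Mm χ' ψ
      = (p : ℂ) ^ blockHeight p B (χ' : G → ℂ)
        * (Cfsg.Agent.Lib.Helper82.Contrib.uu p (χ' : G → ℂ) * E χ' ψ) := by
    intro χ' hχ' ψ
    rw [hMm, mm_eq_sum_trunc_left p M hM b hb _ _
      (isClassFunction_shift x (Cfsg.Agent.Lib.CT.Orth.irr_isClassFunction χ')), hE, mul_sum,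
      mul_sum, mul_sum]
    refine sum_congr rfl fun η' _ => ?_
    rw [hcoef ψ η', map_mul, Complex.conj_natCast]
    have h1 := sec_height p B x η' χ' hχ'
    have h2 : classInner (pRegularPart p (fun c : Subgroup.centralizer ({x} : Set G) => (χ' : G → ℂ) (x * c))) (η' : Subgroup.centralizer ({x} : Set G) → ℂ)
        = classInner (secRes p x (χ' : G → ℂ)) (η' : Subgroup.centralizer ({x} : Set G) → ℂ) := rfl
    rw [h2, hT]
    linear_combination ((nn ψ η' : ℂ) * conj (lam η')) * h1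
  have huR := fun χ' : IrrCharacter G => Cfsg.Agent.Lib.Helper82.Contrib.memLocalRing_uu p hM χ'
  exact ⟨Cfsg.Agent.Lib.Helper82.Contrib.uu p (χ : G → ℂ) * E χ χ,
    memLocalRing_mul hMp (huR χ) (hER χ χ), by rw [← hMm]; exact hform χ hχ χ⟩

/-- **Piece [V] of S4715.**  Valuation and positivity of the diagonal contribution of a major
subsection. -/
theorem major_diag {G : Type u} [Group G] [Fintype G] (p : ℕ) [Fact p.Prime] (M : Ideal AlgInt) (hM : IsPModular p M) (B : Set (IrrCharacter G)) (x : G) (hx : ∃ k : ℕ, orderOf x = p ^ k) (C : Subgroup G) (hC : C = Subgroup.centralizer ({x} : Set G)) [Fintype C] [Fintype (IrrCharacter C)] (b : Set (IrrCharacter C)) [DecidablePred (· ∈ b)] (hind : IsInducedBlock M C b B) (hd : blockDefect p b = blockDefect p B) (χ : IrrCharacter G) (hχ : χ ∈ B) : (∃ ρ : ℂ, MemLocalRing M ρ ∧ (p : ℂ) ^ blockDefect p B * mm p b (fun c : C => (χ : G → ℂ) (x * c)) (fun c : C => (χ : G → ℂ) (x * c)) = (p : ℂ) ^ blockHeight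 p B (χ : G → ℂ) * ρ) ∧ (∃ r : ℝ, 0 < r ∧ mm p b (fun c : C => (χ : G → ℂ) (x * c)) (fun c : C => (χ : G → ℂ) (x * c)) = (r : ℂ)) := by
  classical
  subst hC
  refine ⟨major_val p M hM B x hx b hind χ hχ, ?_⟩
  have hMp : M.IsPrime := isPrime_of_isPModular hM
  have hB : IsPBlock M B := hind.2.1
  obtain ⟨e, hae, -, χ₀, hχ₀, hχ₀e⟩ := Cfsg.Agent.Lib.Helper75.NumMinMax.exists_defect_data p B
    (Cfsg.Agent.Lib.CT.DefectZeroBlock.isPBlock_nonempty hMp hB)
  have hfc := factorization_charDegree p B χ₀ hχ₀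
  have h0 : blockHeight p B (χ₀ : G → ℂ) = 0 := by omega
  have hne := Cfsg.Agent.Lib.Helper82.SecHeight2.mm_ne_zero p M hM B x hx b hind hd χ χ₀ hχ hχ₀
    (Or.inr h0)
  have hfinI : Finite (IrrCharacter G) := Cfsg.Agent.Lib.CT.Wedderburn.finite_irrCharacter G
  let _ : Fintype (IrrCharacter G) := Fintype.ofFinite _
  have hrow := Cfsg.Agent.Lib.Helper82.SecRow.row_sq p M hM B x hx _ rfl b hind χ
  refine ⟨∑ ψ ∈ univ.filter (· ∈ B), Complex.normSq
    (mm p b (fun c : Subgroup.centralizer ({x} : Set G) => (χ : G → ℂ) (x * c))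
      (fun c : Subgroup.centralizer ({x} : Set G) => (ψ : G → ℂ) (x * c))), ?_, ?_⟩
  · apply Finset.sum_pos' (fun ψ _ => Complex.normSq_nonneg _)
    exact ⟨χ₀, mem_filter.2 ⟨mem_univ _, hχ₀⟩, Complex.normSq_pos.2 hne⟩
  · rw [← hrow]
    push_cast
    refine sum_congr rfl fun ψ _ => ?_
    rw [Complex.mul_conj]

end Cfsg.Agent.Lib.Helper41.MajorDiag
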