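import Mathlib
import Cfsg.Prelude.Def_ClassicalGeometry
import Cfsg.Prelude.Def_GeometricClasses
import Cfsg.Agent.Lib.Helper40.SympConj

/-!
# S5975 (field-extension subgroups `Sp_{2d/k}(q^k)` of `Sp_{2d}(q)`): piece statements

Notation: `Mat d F` is the `2d × 2d` matrix algebra indexed by `Fin d ⊕ Fin d`; `sadj` is the
symplectic adjoint of helper40 (`Cfsg.Agent.Lib.Helper40.SympConj.sadj`), so `sadj x * x = 1`
means `x` is in `Sp_{2d}(F)` (`Helper40.FExt.mem_spGL_iff`), and `sadj a = a` means `a` is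
self-adjoint for `Cfsg.sympForm d F` (`Helper40.SympConj.adjoint_rel`, `Helper40.FExt.adj_eq_sadj`).
`K` is a subalgebra of `Mat d F` which is a field of degree `k` over `F`
(`Cfsg.Geo.IsFieldSubalgebra k K`).

Each `def X : Prop` below is one piece; prove it as
`theorem main : Cfsg.Agent.Lib.Helper41.SpFStmt.X.{u}` in `Cfsg/Agent/Lib/<Seat>/SpF<PIECE>.lean`.
-/

set_option autoImplicit false

namespace Cfsg.Agent.Lib.Helper41.SpFStmt

open Matrix Polynomial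
open Cfsg.Agent.Lib.Helper40.SympConj (sadj)

universe u

/-- The `2d × 2d` matrices indexed by `Fin d ⊕ Fin d`. -/
abbrev Mat (d : ℕ) (F : Type u) := Matrix (Fin d ⊕ Fin d) (Fin d ⊕ Fin d) F

/-! ## Part B: the direction `⇒` (derangements) -/

/-- RANKTRICK. An element `y` of the normalizer of the field `K` with `2 rank (y - 1) < 2d`
centralizes `K`.  Proof: for `a ∈ K` put `a' = y a y⁻¹ ∈ K`; then
`(y - 1) a - a' (y - 1) = a' - a ∈ K` has rank `≤ 2 rank (y - 1) < 2d`, so it is not invertible,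
so it is `0` (every non-zero element of `K` is invertible). -/
def RankTrick : Prop :=
  ∀ {F : Type u} [Field F] (d k : ℕ) (K : Subalgebra F (Mat d F)),
    Cfsg.Geo.IsFieldSubalgebra k K → ∀ y : GL (Fin d ⊕ Fin d) F,
    y ∈ Cfsg.Geo.subalgebraNormalizer K → 2 * (y.val - 1).rank < 2 * d →
    ∀ a ∈ K, y.val * a = a * y.val

/-- KDIM. A `K`-invariant `F`-subspace has dimension divisible by `k = [K : F]` (it is a vector
space over the field `K`). -/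
def KDim : Prop :=
  ∀ {F : Type u} [Field F] (d k : ℕ) (K : Subalgebra F (Mat d F)),
    Cfsg.Geo.IsFieldSubalgebra k K → ∀ U : Submodule F (Fin d ⊕ Fin d → F),
    (∀ a ∈ K, ∀ u ∈ U, a *ᵥ u ∈ U) → k ∣ Module.finrank F U

/-- TRANSV. A symplectic transvection: order `p`, non-scalar, `rank (t - 1) = 1`
(cf. `Helper40.FExtOdd.transv_witness`, `Cfsg.sympTransvection`). -/
def Transv : Prop :=
  ∀ {F : Type u} [Field F] (p : ℕ) [Fact p.Prime] [CharP F p] (d : ℕ), 1 ≤ d →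
    ∃ t : Mat d F, sadj t * t = 1 ∧ t ^ p = 1 ∧ (∀ z : F, t ≠ z • 1) ∧ (t - 1).rank = 1

/-- INVELT. In odd characteristic, an involution of `Sp_{2d}` with `(-1)`-eigenspace a
hyperbolic plane: the diagonal matrix with `-1` at `inl 0`, `inr 0` and `1` elsewhere. -/
def InvElt : Prop :=
  ∀ {F : Type u} [Field F] (d : ℕ), 2 ≤ d → (2 : F) ≠ 0 →
    ∃ x : Mat d F, sadj x * x = 1 ∧ x * x = 1 ∧ (∀ z : F, x ≠ z • 1) ∧ (x - 1).rank = 2

/-- PLANE. If an involution `y ∈ Sp_{2d}` (odd characteristic) with `rank (y - 1) = 2`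
centralizes a field `K` of self-adjoint matrices, then `K = F` (`k = 1`).
Proof: `U = im (y - 1) = ker (y + 1)` is a plane, `V = ker (y - 1) ⊥ U`, so the form is
non-degenerate on `U`; pick `u, v ∈ U` with `f u v ≠ 0`.  `a ∈ K` preserves `U`;
`f (a u) u = 0` (self-adjoint + alternating + `2 ≠ 0`) gives `a u = α u`, likewise `a v = δ v`,
and `f (a u) v = f u (a v)` gives `α = δ`.  So `a - α • 1 ∈ K` kills `u ≠ 0`, hence is not
invertible, hence `a = α • 1`.  So `K ≤ F • 1` and `finrank F K ≤ 1`. -/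
def Plane : Prop :=
  ∀ {F : Type u} [Field F] (d k : ℕ) (K : Subalgebra F (Mat d F)), (2 : F) ≠ 0 →
    Cfsg.Geo.IsFieldSubalgebra k K → (∀ a ∈ K, sadj a = a) →
    ∀ y : Mat d F, sadj y * y = 1 → y * y = 1 → (y - 1).rank = 2 →
    (∀ a ∈ K, y * a = a * y) → k = 1

/-- ELT. Minimal-support element of odd prime order `r ≠ p` of `Sp_{2d}(q)`; `i` is the order
of `q` mod `r`.  Its characteristic polynomial is `(X - 1)^(2d - c) * S` with `c = i` (`i` even,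
`S = P` irreducible self-reciprocal of degree `i`) or `c = 2i` (`i` odd, `S = P * P^*`).
Adapt `Helper40.FExtOdd.odd_witness` (it builds exactly these elements with
`cyclo_star_facts`, `adm_mk`, `exists_elt`; only its case split `4 ∣ i` has to be relaxed to
`Even i`), and keep the characteristic polynomial. -/
def Elt : Prop :=
  ∀ {F : Type u} [Field F] [Fintype F] (p : ℕ) [Fact p.Prime] [CharP F p] (q : ℕ),
    Fintype.card F = q → ∀ (d : ℕ), 1 ≤ d → ∀ (r : ℕ) [Fact r.Prime], r ≠ 2 → r ≠ p →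
    ∀ i : ℕ, i = orderOf (q : ZMod r) → ((Odd i ∧ i ≤ d) ∨ (Even i ∧ i ≤ 2 * d)) →
    ∃ (x : Mat d F) (P R S : F[X]) (c : ℕ), sadj x * x = 1 ∧ x ^ r = 1 ∧ (∀ z : F, x ≠ z • 1) ∧
      Irreducible P ∧ P.Monic ∧ P.natDegree = i ∧ x.charpoly = P * R ∧ ¬ P ∣ R ∧
      c = (if Even i then i else 2 * i) ∧ c ≤ 2 * d ∧
      x.charpoly = (X - C 1) ^ (2 * d - c) * S ∧ S.eval 1 ≠ 0

/-- RK. For a semisimple `x` (`x ^ N = 1`, `N ≠ 0` in `F`) the rank of `x - 1` is `2d` minus the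
multiplicity of `X - 1` in the characteristic polynomial
(`finrank (ker (x - 1)) = rootMultiplicity 1 charpoly` for semisimple `x`). -/
def Rk : Prop :=
  ∀ {F : Type u} [Field F] (d : ℕ) (x : Mat d F) (N : ℕ), (N : F) ≠ 0 → x ^ N = 1 →
    ∀ (a : ℕ) (S : F[X]), x.charpoly = (X - C 1) ^ a * S → S.eval 1 ≠ 0 →
    (x - 1).rank + a = 2 * d

/-- AUT. An element `y` of the normalizer of `K` (a field of prime degree `k` over the finite
field `F`) with `y ^ r = 1`, `r` a prime `≠ k`, centralizes `K`: conjugation by `y` is an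
`F`-automorphism of `K` of order dividing `r`, and `Aut(K/F)` is cyclic of order `k`
(generated by `a ↦ a ^ q`). -/
def Aut : Prop :=
  ∀ {F : Type u} [Field F] [Fintype F] (d k : ℕ) (K : Subalgebra F (Mat d F)), k.Prime →
    Cfsg.Geo.IsFieldSubalgebra k K → ∀ y : GL (Fin d ⊕ Fin d) F,
    y ∈ Cfsg.Geo.subalgebraNormalizer K → ∀ r : ℕ, r.Prime → r ≠ k → y.val ^ r = 1 →
    ∀ a ∈ K, y.val * a = a * y.val

/-- QUADGEN. A field subalgebra of degree 2 over the finite field `F` (`|F| = q`) is `F[J]`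
with `J² = a J + b`, `t² - a t - b` without roots in `F`, discriminant `a² + 4b ≠ 0`,
`J ^ q = a - J` (the Frobenius conjugate), and `a = 0` can be arranged when `2 ≠ 0`
(cf. `Helper37.QuadGen.exists_gen`, stated there for `Fin n`). -/
def QuadGen : Prop :=
  ∀ {F : Type u} [Field F] [Fintype F] (q : ℕ), Fintype.card F = q → ∀ (d : ℕ), 1 ≤ d →
    ∀ K : Subalgebra F (Mat d F), Cfsg.Geo.IsFieldSubalgebra 2 K →
    ∃ (J : Mat d F) (a b : F), J ∈ K ∧ J * J = a • J + b • 1 ∧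
      (∀ k, k ∈ K ↔ ∃ α β : F, k = α • 1 + β • J) ∧ (∀ t : F, t * t ≠ a * t + b) ∧
      a * a + 4 * b ≠ 0 ∧ J ^ q = a • 1 - J ∧ ((2 : F) ≠ 0 → a = 0)

/-- NOCOMM2. Adapt `Helper40.FExtOdd.no_comm_four` (there: `J` skew-adjoint, `Q = q^(2m')`;
here: `J` self-adjoint, `Q = q ^ e` with `e` odd, so `J ^ Q = a - J`).  With `E` the idempotent
projecting on `ker P(x)` and `Nm = J * E ∈ F[x]`: `sadj Nm = Nm ^ Q = (a - J) * E` and
`sadj Nm = E * J = Nm`, so `(2 J - a) * E = 0`, and `(2 J - a)² = (a² + 4 b) • 1` is invertible: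
`E = 0`, contradiction. -/
def NoComm2 : Prop :=
  ∀ {F : Type u} [Field F] [Fintype F] (q : ℕ), Fintype.card F = q → ∀ (d : ℕ) (x : Mat d F),
    sadj x * x = 1 → ∀ N : ℕ, (N : F) ≠ 0 → x ^ N = 1 → ∀ P R : F[X], Irreducible P → P.Monic →
    x.charpoly = P * R → ¬ P ∣ R → ∀ e : ℕ, Odd e → x ^ (q ^ e + 1) = 1 →
    ∀ (J : Mat d F) (a b : F), J * J = a • J + b • 1 → a * a + 4 * b ≠ 0 → J ^ q = a • 1 - J →
    sadj J = J → x * J = J * x → False

/-- LFIELD. The field `K` as an abstract finite field `L` with an injective `F`-algebra map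
onto `K` (`L := ↥K` with the field structure from `IsFieldSubalgebra`, `φ := K.val`). -/
def LField : Prop :=
  ∀ {F : Type u} [Field F] [Fintype F] (d k : ℕ), 1 ≤ d → ∀ (K : Subalgebra F (Mat d F)),
    Cfsg.Geo.IsFieldSubalgebra k K →
    ∃ (L : Type u) (_ : Field L) (_ : Fintype L) (_ : Algebra F L) (φ : L →ₐ[F] Mat d F),
      Function.Injective φ ∧ (∀ a, a ∈ K ↔ ∃ c, φ c = a) ∧ Module.finrank F L = k

/-- KB. Symplectic `L`-basis.  `L` acts on `V = F^(2d)` through `φ` by self-adjoint matrices with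
`f (φ c v) v = 0`.  Then there are `m'`, vectors `b j` (`j : Fin m' ⊕ Fin m'`) and a linear
functional `τ : L → F` such that `c ↦ ∑ j, φ (c j) (b j)` is a bijection `L^(2m') → V` and the
form `f = sympForm d F` becomes `τ ∘ sympForm m' L` in these coordinates.
Proof: make `V` an `L`-module (`c • v = φ c *ᵥ v`); fix any non-zero `F`-linear `τ : L → F`
(then `(a, b) ↦ τ (a * b)` is non-degenerate, `L` a field); for `u v` let `B u v ∈ L` be the
element with `τ (c * B u v) = f (φ c u) v` for all `c`; `B` is `L`-bilinear, alternating and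
non-degenerate, and `f = τ ∘ B`; take a symplectic basis of `B`
(`Cfsg.Agent.S0752.result`, with `k = 0` by non-degeneracy), ordered/signed to match
`sympForm m' L`. -/
def KB : Prop :=
  ∀ {F : Type u} [Field F] (d : ℕ) {L : Type u} [Field L] [Algebra F L]
    (φ : L →ₐ[F] Mat d F), Function.Injective φ → (∀ c : L, sadj (φ c) = φ c) →
    (∀ (c : L) (v : Fin d ⊕ Fin d → F), Cfsg.sympForm d F (φ c *ᵥ v) v = 0) →
    ∃ (m' : ℕ) (b : Fin m' ⊕ Fin m' → (Fin d ⊕ Fin d → F)) (τ : L →ₗ[F] F),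
      Function.Bijective (fun c : Fin m' ⊕ Fin m' → L => ∑ j, φ (c j) *ᵥ b j) ∧
      ∀ c c' : Fin m' ⊕ Fin m' → L,
        Cfsg.sympForm d F (∑ j, φ (c j) *ᵥ b j) (∑ j, φ (c' j) *ᵥ b j) =
          τ (Cfsg.sympForm m' L c c')

/-- EMB. From a symplectic `L`-basis, the embedding `Sp_{2m'}(L) → Sp_{2d}(F) ∩ C(φ L)`:
with `E c = ∑ j, φ (c j) (b j)` (an `F`-linear bijection), `Ψ M = E ∘ (M *ᵥ ·) ∘ E⁻¹`. -/
def Emb : Prop :=
  ∀ {F : Type u} [Field F] (d : ℕ) {L : Type u} [Field L] [Algebra F L]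
    (φ : L →ₐ[F] Mat d F) (m' : ℕ) (b : Fin m' ⊕ Fin m' → (Fin d ⊕ Fin d → F)) (τ : L →ₗ[F] F),
    Function.Bijective (fun c : Fin m' ⊕ Fin m' → L => ∑ j, φ (c j) *ᵥ b j) →
    (∀ c c' : Fin m' ⊕ Fin m' → L,
        Cfsg.sympForm d F (∑ j, φ (c j) *ᵥ b j) (∑ j, φ (c' j) *ᵥ b j) =
          τ (Cfsg.sympForm m' L c c')) →
    ∃ Ψ : ↥(Cfsg.spGL m' L) →* GL (Fin d ⊕ Fin d) F, Function.Injective Ψ ∧
      ∀ M, Ψ M ∈ Cfsg.spGL d F ∧ ∀ c : L, (Ψ M).val * φ c = φ c * (Ψ M).val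

/-- IDXARITH. `A = |Sp_{2d}(q)|`, `B = |Sp_{2m'}(q^k)|`, `d = k m'`.  If `k` divides the order
`e` of `q²` mod `r`, then `v_r(A) = v_r(B)` (`r ∣ q^(2j) - 1` iff `e ∣ j`, and then `k ∣ j`), so
`r ∤ A / N` whenever `B ∣ N ∣ A`. -/
def IdxArith : Prop :=
  ∀ (q d k m' r : ℕ), 2 ≤ q → r.Prime → ¬ r ∣ q → 1 ≤ k → d = k * m' →
    k ∣ orderOf ((q : ZMod r) ^ 2) → ∀ N : ℕ,
    ((q ^ k) ^ (m' ^ 2) * ∏ j ∈ Finset.range m', ((q ^ k) ^ (2 * (j + 1)) - 1)) ∣ N →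
    N ∣ (q ^ (d ^ 2) * ∏ j ∈ Finset.range d, (q ^ (2 * (j + 1)) - 1)) →
    ¬ r ∣ (q ^ (d ^ 2) * ∏ j ∈ Finset.range d, (q ^ (2 * (j + 1)) - 1)) / N

/-- ORDCASE. `r ∣ |Sp_{2d}(q)|`, `r ∤ q`: the order `i` of `q` mod `r` divides some `2(j+1)`,
`j < d`. -/
def OrdCase : Prop :=
  ∀ (q d r i : ℕ), 2 ≤ q → r.Prime → ¬ r ∣ q → i = orderOf (q : ZMod r) →
    r ∣ (q ^ (d ^ 2) * ∏ j ∈ Finset.range d, (q ^ (2 * (j + 1)) - 1)) →
    (Odd i ∧ i ≤ d) ∨ (Even i ∧ i ≤ 2 * d)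

/-- ORD2. If the order `i` of `q` mod `r` is even and the order `i/2` of `q²` is odd, then
`q ^ (i/2) = -1` mod `r`. -/
def Ord2 : Prop :=
  ∀ (q r : ℕ), r.Prime → ¬ r ∣ q → 2 ∣ orderOf (q : ZMod r) →
    ¬ 2 ∣ orderOf ((q : ZMod r) ^ 2) → ∃ e, Odd e ∧ r ∣ q ^ e + 1

/-- ORDSQ. `orderOf (x²) = orderOf x / gcd (orderOf x) 2`, so an odd prime dividing the order of
`q` divides the order of `q²`. -/
def OrdSq : Prop :=
  ∀ (q r k : ℕ), r.Prime → ¬ r ∣ q → k.Prime → k ≠ 2 → k ∣ orderOf (q : ZMod r) →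
    k ∣ orderOf ((q : ZMod r) ^ 2)

/-- ORDK. The order `i` of `q` mod an odd prime `r` divides `r - 1`, and `2 i ∣ r - 1` when `i`
is odd. -/
def OrdK : Prop :=
  ∀ (q r i : ℕ), r.Prime → r ≠ 2 → ¬ r ∣ q → i = orderOf (q : ZMod r) →
    (if Even i then i else 2 * i) ≤ r - 1

/-! ## Part A: the direction `⇐` (`Sp_4(q)`, `q` odd, `K = F[J]`, `J² = l` a non-square) -/

/-- INV4P. `x ∈ Sp_4`, `x² = 1`, `x ≠ ±1`: `V = V₊ ⊥ V₋` with both planes non-degenerate; take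
`e₁, f₁ ∈ V₊`, `e₂, f₂ ∈ V₋` with `f e₁ f₁ = f e₂ f₂ = 1` and
`J' e₁ = e₂, J' e₂ = l e₁, J' f₁ = l f₂, J' f₂ = f₁`
(cf. `Helper37.SympInv.exists_pair_one`). -/
def Inv4P : Prop :=
  ∀ {F : Type u} [Field F] [Fintype F], (2 : F) ≠ 0 → ∀ l : F, ¬ IsSquare l →
    ∀ x : Mat 2 F, sadj x * x = 1 → x * x = 1 → x ≠ 1 → x ≠ -1 →
    ∃ J' : Mat 2 F, J' * J' = l • 1 ∧ sadj J' = J' ∧ x * J' = -(J' * x)

/-- INV4NS. `x ∈ Sp_4`, `x² = -1`, `-1 = ι²` a square: the eigenspaces `V_ι`, `V_{-ι}` are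
totally isotropic planes in duality; with `e₁, e₂ ∈ V_ι` and the dual basis `f₁, f₂ ∈ V_{-ι}`
(`f eᵢ fⱼ = δᵢⱼ`) put `J' e₁ = e₂, J' e₂ = l e₁, J' f₁ = l f₂, J' f₂ = f₁`. -/
def Inv4NS : Prop :=
  ∀ {F : Type u} [Field F] [Fintype F], (2 : F) ≠ 0 → ∀ l : F, ¬ IsSquare l →
    IsSquare (-1 : F) → ∀ x : Mat 2 F, sadj x * x = 1 → x * x = -1 →
    ∃ J' : Mat 2 F, J' * J' = l • 1 ∧ sadj J' = J' ∧ x * J' = J' * x

/-- INV4NN. `x ∈ Sp_4`, `x² = -1`, `-1` a non-square.  `h u v = f (x u) v` is symmetric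
non-degenerate; take `u₁` with `α₁ = f u₁ (x u₁) ≠ 0`, `P₁ = ⟨u₁, x u₁⟩`, and `u₂ ∈ P₁^⊥` with
`α₂ = f u₂ (x u₂) ≠ 0`.  Choose `g₀, g₁ : F` with `g₀² + g₁² = l α₁ / α₂`
(every element of a finite field is a sum of two squares) and let `J'` be the `F[x]`-linear map
with `J' u₁ = (g₀ + g₁ x) u₂`, `J' u₂ = (α₂/α₁) (g₀ - g₁ x) u₁`. -/
def Inv4NN : Prop :=
  ∀ {F : Type u} [Field F] [Fintype F], (2 : F) ≠ 0 → ∀ l : F, ¬ IsSquare l →
    ¬ IsSquare (-1 : F) → ∀ x : Mat 2 F, sadj x * x = 1 → x * x = -1 →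
    ∃ J' : Mat 2 F, J' * J' = l • 1 ∧ sadj J' = J' ∧ x * J' = J' * x

/-- TRANS4. `Sp_4` is transitive on self-adjoint `J` with `J² = l` (non-square), `2 ≠ 0`:
for `v ≠ 0` choose `w` with `f v w = 1`, `f (J v) w = 0`; in the basis `v, J v, w, J w` the Gram
matrix of `f` is fixed (`f v (J v) = 0`, `f (J v) (J w) = l`, `f v (J w) = 0`, `f w (J w) = 0`);
map the basis for `J'` to the basis for `J`. -/
def Trans4 : Prop :=
  ∀ {F : Type u} [Field F], (2 : F) ≠ 0 → ∀ l : F, ¬ IsSquare l →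
    ∀ J J' : Mat 2 F, J * J = l • 1 → J' * J' = l • 1 → sadj J = J → sadj J' = J' →
    ∃ g : Mat 2 F, sadj g * g = 1 ∧ g * J' = J * g

end Cfsg.Agent.Lib.Helper41.SpFStmt
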