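import Mathlib
import Cfsg.Prelude.Def_ClassicalGeometry
import Cfsg.Prelude.Def_GeometricClasses
import Cfsg.Agent.Lib.Helper41.SpFStmt
import Cfsg.Agent.Lib.Helper37.OrtStmt

/-!
# S5977 (`Ω⁺_{2d}(q)`, `q` odd, and the field-extension subgroups `O_d(q²)`): piece statements

Matrix level.  `Mat d F` = matrices on `Fin d ⊕ Fin d`; `S0 d F = [[0, 1], [1, 0]]` is the Gram
matrix of the polar form of `Q = Cfsg.quadFormPlus d F` (`polar Q u v = u ⬝ᵥ S0 *ᵥ v`,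
`Q v = (1/2) v ⬝ᵥ S0 *ᵥ v`).  `g` is an isometry iff `gᵀ * S0 * g = S0` (OBR); `a` is
self-adjoint iff `S0 * a = aᵀ * S0` (SABR).  `K = F[J]`, `J * J = l • 1`, `l` a non-square.
`OGrp G` is helper37's isometry group of a Gram matrix (`Helper37.OrtStmt.OGrp`).

Each `def X : Prop` is one piece: prove `theorem main : Cfsg.Agent.Lib.Helper41.OFStmt.X.{u}`
in `Cfsg/Agent/Lib/<Seat>/OF<PIECE>.lean`.
-/

set_option autoImplicit false

namespace Cfsg.Agent.Lib.Helper41.OFStmt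

open Matrix Polynomial
open Cfsg.Agent.Lib.Helper41.SpFStmt (Mat)
open Cfsg.Agent.Lib.Helper37.OrtStmt (OGrp)

universe u

/-- The Gram matrix of the polar form of `quadFormPlus d F`. -/
def S0 (d : ℕ) (F : Type u) [Field F] : Mat d F := Matrix.fromBlocks 0 1 1 0

/-- `L`-coordinates: `c ↦ ∑ j, φ (c j) (b j)`. -/
def Coord {F : Type u} [Field F] {d : ℕ} {L : Type u} [Field L] [Algebra F L]
    (φ : L →ₐ[F] Mat d F) {m' : ℕ} (b : Fin m' → (Fin d ⊕ Fin d → F)) (c : Fin m' → L) :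
    Fin d ⊕ Fin d → F := ∑ j, φ (c j) *ᵥ b j

/-- `b` is an `L`-basis of `F^(2d)` (for the `L`-structure `φ`) in which the polar form is
`τ ∘ (c, c') ↦ c ⬝ᵥ G *ᵥ c'` with `G` symmetric invertible over `L`. -/
def IsLFrame {F : Type u} [Field F] {d : ℕ} {L : Type u} [Field L] [Algebra F L]
    (φ : L →ₐ[F] Mat d F) (τ : L →ₗ[F] F) {m' : ℕ} (b : Fin m' → (Fin d ⊕ Fin d → F))
    (G : Matrix (Fin m') (Fin m') L) : Prop :=
  Gᵀ = G ∧ G.det ≠ 0 ∧ Function.Bijective (Coord φ b) ∧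
    ∀ c c' : Fin m' → L, Coord φ b c ⬝ᵥ (S0 d F *ᵥ Coord φ b c') = τ (c ⬝ᵥ (G *ᵥ c'))

/-- `|O⁺_{2d}(q)|` (`Helper45.OrthCard.card_plus` with `k = d - 1`). -/
def Aq (q d : ℕ) : ℕ :=
  2 * q ^ (d * (d - 1)) * (q ^ d - 1) * ∏ j ∈ Finset.range (d - 1), (q ^ (2 * (j + 1)) - 1)

/-- `|O⁺_d(q²)|` (`d` even) resp. `|O_d(q²)|` (`d` odd). -/
def Bq (q d : ℕ) : ℕ :=
  if Even d then
    2 * (q ^ 2) ^ ((d / 2) * (d / 2 - 1)) * ((q ^ 2) ^ (d / 2) - 1) *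
      ∏ j ∈ Finset.range (d / 2 - 1), ((q ^ 2) ^ (2 * (j + 1)) - 1)
  else
    2 * (q ^ 2) ^ (((d - 1) / 2) ^ 2) * ∏ j ∈ Finset.range ((d - 1) / 2), ((q ^ 2) ^ (2 * (j + 1)) - 1)

/-! ## Bridges to the Prelude definitions -/

/-- OBR. Isometries of `quadFormPlus` in matrix terms (`2 ≠ 0`). -/
def OBr : Prop :=
  ∀ {F : Type u} [Field F], (2 : F) ≠ 0 → ∀ (d : ℕ) (g : GL (Fin d ⊕ Fin d) F),
    g ∈ Cfsg.isometryGroup F (Cfsg.quadFormPlus d F) ↔ g.valᵀ * S0 d F * g.val = S0 d F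

/-- SABR. Self-adjointness for the polar form in matrix terms. -/
def SaBr : Prop :=
  ∀ {F : Type u} [Field F] (d : ℕ) (K : Subalgebra F (Mat d F)),
    Cfsg.Geo.IsSelfAdjointFor (QuadraticMap.polar (Cfsg.quadFormPlus d F)) K →
    ∀ a ∈ K, S0 d F * a = aᵀ * S0 d F

/-- DETS0. -/
def DetS0 : Prop := ∀ {F : Type u} [Field F] (d : ℕ), (S0 d F).det = (-1) ^ d

/-- SQOM. Squares of isometries lie in `Ω` (`Ω = [O, O]`; `O` is generated by reflections,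
Cartan–Dieudonné `Helper44.Omega2.cdp_of_two_ne_zero`, and the abelianisation kills squares of
reflections; bridges matrix ↔ abstract in `Helper44.OMat`, `Helper44.ODet`). -/
def SqOm : Prop :=
  ∀ {F : Type u} [Field F] [Fintype F], (2 : F) ≠ 0 → ∀ (d : ℕ), 1 ≤ d →
    ∀ g ∈ Cfsg.isometryGroup F (Cfsg.quadFormPlus d F),
      g * g ∈ Cfsg.Geo.omegaGL (Cfsg.quadFormPlus d F)

/-- OMDET. Elements of `Ω` (products of commutators) have determinant `1`. -/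
def OmDet : Prop :=
  ∀ {F : Type u} [Field F] (d : ℕ), ∀ g ∈ Cfsg.Geo.omegaGL (Cfsg.quadFormPlus d F),
    g.val.det = 1

/-- OMV. A non-singular vector `v` with `B(v, J v) = 0` (`d ≥ 2`).  Sketch: (a) `S0 * J` is
symmetric invertible of size `2d ≥ 3`, so it has an isotropic vector `e ≠ 0`
(`e ⬝ᵥ (S0 * J) *ᵥ e = 0`): by `Helper97.OrtCONG.main` (after reindexing to `Fin (2 * d)`) it is
congruent to `diagonal (1, -1, 1, …, 1, δ)`, which has the isotropic vector `(1, 1, 0, …)`.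
(b) If `e ⬝ᵥ S0 *ᵥ e ≠ 0` take `v = e`.  Otherwise `e, J e` are independent (`J` has no
eigenvector, `l` is not a square) and span a plane totally isotropic for `S0` and `S0 * J`;
take `f` with `e ⬝ᵥ S0 *ᵥ f = 1`, `(J e) ⬝ᵥ S0 *ᵥ f = 0` and `v = f + x • e + y • J e`:
`v ⬝ᵥ S0 *ᵥ v = f ⬝ᵥ S0 *ᵥ f + 2 x`, `v ⬝ᵥ S0 *ᵥ J v = f ⬝ᵥ S0 *ᵥ J f + 2 l y`. -/
def OmV : Prop :=
  ∀ {F : Type u} [Field F] [Fintype F], (2 : F) ≠ 0 → ∀ (d : ℕ), 2 ≤ d → ∀ l : F,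
    ¬ IsSquare l → ∀ J : Mat d F, J * J = l • 1 → S0 d F * J = Jᵀ * S0 d F →
    ∃ v : Fin d ⊕ Fin d → F, v ⬝ᵥ (S0 d F *ᵥ v) ≠ 0 ∧ v ⬝ᵥ (S0 d F *ᵥ (J *ᵥ v)) = 0

/-- OMFIX. Spinor-norm correction inside the centralizer of `J`: every isometry `g₀` of
determinant `1` becomes an element of `Ω` after multiplying by an isometry `n` commuting with
`J`.  Proof: if `g₀ ∈ Ω` take `n = 1`.  Otherwise `n = r_v r_{Jv}` (`= -1` on `⟨v, J v⟩`, `1` on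
the orthogonal complement; as a matrix `1 - c • (vecMulVec v (S0 *ᵥ v) + l⁻¹ • vecMulVec (J *ᵥ v)
(S0 *ᵥ J *ᵥ v))`, `c = 2 / (v ⬝ᵥ S0 *ᵥ v)`): it commutes with `J`, and `Q v * Q (J v) = l * (Q v)²`
is a non-square.  By Cartan–Dieudonné (`Helper44.Omega2.cdp_of_two_ne_zero`) `g₀` is a product
of reflections, of even length since `det g₀ = 1`; by the spinor norm criterion
`Helper44.Spinor.mem_commutator_iff` (bridges matrix ↔ abstract in `Helper44.OMat`,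
`Helper44.ODet`) a product of an even number of reflections lies in `Ω` iff the product of the
`Q`-values is a square; the product of two non-squares of a finite field is a square. -/
def OmFix : Prop :=
  ∀ {F : Type u} [Field F] [Fintype F], (2 : F) ≠ 0 → ∀ (d : ℕ), 2 ≤ d → ∀ l : F,
    ¬ IsSquare l → ∀ J : Mat d F, J * J = l • 1 → S0 d F * J = Jᵀ * S0 d F →
    ∀ v : Fin d ⊕ Fin d → F, v ⬝ᵥ (S0 d F *ᵥ v) ≠ 0 → v ⬝ᵥ (S0 d F *ᵥ (J *ᵥ v)) = 0 →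
    ∀ g₀ ∈ Cfsg.isometryGroup F (Cfsg.quadFormPlus d F), g₀.val.det = 1 →
    ∃ n ∈ Cfsg.isometryGroup F (Cfsg.quadFormPlus d F), n.val * J = J * n.val ∧
      g₀ * n ∈ Cfsg.Geo.omegaGL (Cfsg.quadFormPlus d F)

/-! ## Direction `⇐` (`r = 2`) -/

/-- SAJ. Every non-degenerate symmetric form of even dimension over a finite field of odd
characteristic has a self-adjoint `J` with `J² = l`.  Sketch: on `Fin k ⊕ Fin k` take
`S' = fromBlocks (diagonal a) (diagonal b) (diagonal b) (l • diagonal a)` and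
`J' = fromBlocks 0 (l • 1) 1 0`: `J' * J' = l • 1`, `S' * J'` is symmetric and
`det S' = ∏ j, (l * a j ^ 2 - b j ^ 2)`; `x² - l y²` represents every element of `F`
(`Helper97.OrtCONG.exists_binary`), so `a, b` can be chosen with `det S' = det S`; reindex to
`Fin (2 * k)`, `Helper97.OrtCONG.main` gives `Pᵀ * S * P = S'`, and `J = P * J' * P⁻¹`. -/
def SaJ : Prop :=
  ∀ {F : Type u} [Field F] [Fintype F], (2 : F) ≠ 0 → ∀ l : F, ¬ IsSquare l → ∀ (k : ℕ)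
    (S : Matrix (Fin (2 * k)) (Fin (2 * k)) F), Sᵀ = S → S.det ≠ 0 →
    ∃ J : Matrix (Fin (2 * k)) (Fin (2 * k)) F, J * J = l • 1 ∧ S * J = Jᵀ * S

/-- EIG1. Eigenspace decomposition of an involution `x ∈ SO`: `F^(2d) = V₊ ⊕ V₋`
(`v = (v + x v)/2 + (v - x v)/2`), `V₊ ⊥ V₋` (`B(u, w) = B(x u, x w) = -B(u, w)`),
`det x = (-1) ^ dim V₋`, so both dimensions are even; `P` = a basis of `V₊` followed by a basis
of `V₋`, `S₁, S₂` the Gram matrices. -/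
def Eig1 : Prop :=
  ∀ {F : Type u} [Field F], (2 : F) ≠ 0 → ∀ (d : ℕ) (x : Mat d F),
    xᵀ * S0 d F * x = S0 d F → x * x = 1 → x.det = 1 →
    ∃ (k₁ k₂ : ℕ) (P : Matrix (Fin d ⊕ Fin d) (Fin (2 * k₁) ⊕ Fin (2 * k₂)) F)
      (P' : Matrix (Fin (2 * k₁) ⊕ Fin (2 * k₂)) (Fin d ⊕ Fin d) F)
      (S₁ : Matrix (Fin (2 * k₁)) (Fin (2 * k₁)) F) (S₂ : Matrix (Fin (2 * k₂)) (Fin (2 * k₂)) F),
      k₁ + k₂ = d ∧ P * P' = 1 ∧ P' * P = 1 ∧ S₁ᵀ = S₁ ∧ S₁.det ≠ 0 ∧ S₂ᵀ = S₂ ∧ S₂.det ≠ 0 ∧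
      Pᵀ * S0 d F * P = Matrix.fromBlocks S₁ 0 0 S₂ ∧
      x * P = P * Matrix.fromBlocks 1 0 0 (-1)

/-- REFLS. A reflection: `v` with `v ⬝ᵥ S *ᵥ v ≠ 0` exists (`S ≠ 0` symmetric, `2 ≠ 0`);
`t = 1 - (2 / (v ⬝ᵥ S *ᵥ v)) • vecMulVec v (S *ᵥ v)`. -/
def ReflS : Prop :=
  ∀ {F : Type u} [Field F], (2 : F) ≠ 0 → ∀ (n : ℕ), 1 ≤ n → ∀ S : Matrix (Fin n) (Fin n) F,
    Sᵀ = S → S.det ≠ 0 →
    ∃ t : Matrix (Fin n) (Fin n) F, tᵀ * S * t = S ∧ t * t = 1 ∧ t.det = -1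

/-- PL1 (piece: `SaJ → Eig1 → ReflS → PL1`).  With `P, S₁, S₂` from EIG1 and `J₁, J₂` from SAJ:
`J' = P * fromBlocks J₁ 0 0 J₂ * P'`; `t = P * fromBlocks t₁ 0 0 1 * P'` with `t₁` from REFLS
(or `fromBlocks 1 0 0 t₂` if `k₁ = 0`). -/
def PL1 : Prop :=
  ∀ {F : Type u} [Field F] [Fintype F], (2 : F) ≠ 0 → ∀ (d : ℕ), 1 ≤ d → ∀ l : F,
    ¬ IsSquare l → ∀ x : Mat d F, xᵀ * S0 d F * x = S0 d F → x * x = 1 → x.det = 1 →
    ∃ J' t : Mat d F, J' * J' = l • 1 ∧ S0 d F * J' = J'ᵀ * S0 d F ∧ x * J' = J' * x ∧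
      tᵀ * S0 d F * t = S0 d F ∧ t * t = 1 ∧ t.det = -1 ∧ t * x = x * t

/-- EIGM. `x` an isometry with `x² = -1`: for `B(u, u) ≠ 0` the plane `⟨u, x u⟩` is
`x`-invariant and non-degenerate with orthogonal basis `u, x u`
(`B(u, x u) = B(x u, x x u) = -B(x u, u)`, `B(x u, x u) = B(u, u)`); peel such planes off by
induction on `x`-invariant non-degenerate subspaces.  Column `inl j` of `P` is `u j`, column
`inr j` is `x (u j)`. -/
def EigM : Prop :=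
  ∀ {F : Type u} [Field F], (2 : F) ≠ 0 → ∀ (d : ℕ) (x : Mat d F),
    xᵀ * S0 d F * x = S0 d F → x * x = -1 →
    ∃ (P P' : Mat d F) (D : Fin d → F), P * P' = 1 ∧ P' * P = 1 ∧ (∀ j, D j ≠ 0) ∧
      Pᵀ * S0 d F * P = Matrix.fromBlocks (Matrix.diagonal D) 0 0 (Matrix.diagonal D) ∧
      x * P = P * Matrix.fromBlocks 0 (-1) 1 0

/-- PLM (piece: `EigM → PLM`).  With `P, D` from EIGM and `s² + t² = l`
(`Helper97.OrtCONG.exists_binary`): for every `ε : Fin d → F` with `ε j ^ 2 = 1` the matrix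
`J_ε = P * fromBlocks (s • 1) (diagonal (t • ε)) (diagonal (t • ε)) (-(s • 1)) * P'` is
self-adjoint, `J_ε² = l`, `x J_ε = -J_ε x`.  `J' = J_1`, `t = P * fromBlocks (diagonal δ) 0 0 1
* P'` with `δ = (-1, 1, …, 1)` (the reflection in `u 0`), and `t * J' * t = J_δ`. -/
def PLM : Prop :=
  ∀ {F : Type u} [Field F] [Fintype F], (2 : F) ≠ 0 → ∀ (d : ℕ), 1 ≤ d → ∀ l : F,
    ¬ IsSquare l → ∀ x : Mat d F, xᵀ * S0 d F * x = S0 d F → x * x = -1 →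
    ∃ J' t : Mat d F, J' * J' = l • 1 ∧ S0 d F * J' = J'ᵀ * S0 d F ∧ x * J' = -(J' * x) ∧
      tᵀ * S0 d F * t = S0 d F ∧ t * t = 1 ∧ t.det = -1 ∧
      x * (t * J' * t) = -(t * J' * t * x)

/-- LJ. The quadratic extension `L = F(√l)` as an abstract field with `j₀² = l`
(e.g. `AdjoinRoot (X ^ 2 - C l)`), and for every matrix `J` with `J² = l` the embedding
`a + b j₀ ↦ a + b J`.  `-1` is a square in `L` (`-1 = s²` or `-1 = l s²` with `s ∈ F`). -/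
def LJ : Prop :=
  ∀ {F : Type u} [Field F] [Fintype F], (2 : F) ≠ 0 → ∀ l : F, ¬ IsSquare l →
    ∃ (L : Type u) (_ : Field L) (_ : Fintype L) (_ : Algebra F L) (j₀ : L),
      j₀ * j₀ = algebraMap F L l ∧ Fintype.card L = Fintype.card F ^ 2 ∧ (2 : L) ≠ 0 ∧
      IsSquare (-1 : L) ∧ (∃ τ : L →ₗ[F] F, τ ≠ 0) ∧
      ∀ (d : ℕ), 1 ≤ d → ∀ J : Mat d F, J * J = l • 1 →
        ∃ φ : L →ₐ[F] Mat d F, Function.Injective φ ∧ φ j₀ = J ∧
          ∀ c : L, ∃ a b : F, φ c = a • 1 + b • J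

/-- LSTR. An `L`-frame exists: make `V = F^(2d)` an `L`-space through `φ` (self-adjoint
matrices), let `B_L u v ∈ L` be defined by `τ (c * B_L u v) = (φ c u) ⬝ᵥ S0 *ᵥ v` for all `c`
(`τ ≠ 0`, so `(a, b) ↦ τ (a b)` is non-degenerate); `B_L` is `L`-bilinear, symmetric,
non-degenerate; take any `L`-basis `b` and its Gram matrix `G`. -/
def LStr : Prop :=
  ∀ {F : Type u} [Field F] [Fintype F], (2 : F) ≠ 0 → ∀ (d : ℕ) {L : Type u} [Field L]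
    [Fintype L] [Algebra F L] (φ : L →ₐ[F] Mat d F), Function.Injective φ →
    (∀ c : L, S0 d F * φ c = (φ c)ᵀ * S0 d F) → ∀ τ : L →ₗ[F] F, τ ≠ 0 →
    ∃ (m' : ℕ) (b : Fin m' → (Fin d ⊕ Fin d → F)) (G : Matrix (Fin m') (Fin m') L),
      IsLFrame φ τ b G

/-- LDISC0. Discriminant transfer.  With `ω` an `F`-basis of `L` and `T = (τ (ω_a ω_b))`,
`t = det T ≠ 0`: the Gram matrix of the polar form in the `F`-basis `φ (ω_a) (b j)` is
`(T ⊗ 1) * [G]_F`, of determinant `t ^ m' * N_{L/F}(det G)` (`LinearMap.det_restrictScalars`),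
and it equals `Pᵀ S0 P`, of determinant `(det P)² det S0`. -/
def LDisc0 : Prop :=
  ∀ {F : Type u} [Field F] [Fintype F], (2 : F) ≠ 0 → ∀ {L : Type u} [Field L] [Fintype L]
    [Algebra F L] (τ : L →ₗ[F] F), τ ≠ 0 →
    ∃ t : F, t ≠ 0 ∧ ∀ (d m' : ℕ) (φ : L →ₐ[F] Mat d F) (b : Fin m' → (Fin d ⊕ Fin d → F))
      (G : Matrix (Fin m') (Fin m') L), IsLFrame φ τ b G →
      ∃ ν : F, ν ≠ 0 ∧ Algebra.norm F G.det * t ^ m' = ν ^ 2 * (S0 d F).det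

/-- NORMSQ. Finite fields, odd characteristic: an element whose norm is a square is a square
(`x ^ ((|L| - 1) / 2) = N(x) ^ ((q - 1) / 2)`). -/
def NormSq : Prop :=
  ∀ {F : Type u} [Field F] [Fintype F], (2 : F) ≠ 0 → ∀ {L : Type u} [Field L] [Fintype L]
    [Algebra F L] (x : L), x ≠ 0 → IsSquare (Algebra.norm F x) → IsSquare x

/-- GLUE. Two `L`-frames with congruent Gram matrices give an isometry intertwining the two
`L`-structures: `h = E ∘ (P *ᵥ ·) ∘ E'⁻¹` with `E = Coord φ b`, `E' = Coord φ' b'`. -/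
def Glue : Prop :=
  ∀ {F : Type u} [Field F] (d : ℕ) {L : Type u} [Field L] [Algebra F L]
    (φ φ' : L →ₐ[F] Mat d F) (τ : L →ₗ[F] F) (m' : ℕ) (b b' : Fin m' → (Fin d ⊕ Fin d → F))
    (G G' P : Matrix (Fin m') (Fin m') L), IsLFrame φ τ b G → IsLFrame φ' τ b' G' →
    P.det ≠ 0 → Pᵀ * G * P = G' →
    ∃ h : Mat d F, hᵀ * S0 d F * h = S0 d F ∧ ∀ c : L, h * φ' c = φ c * h

/-! ## Direction `⇒` (derangements of odd prime order) -/

/-- SIEGEL. Odd characteristic `p`: a Siegel element `ρ_{a,w}` (`a` singular, `w ⊥ a`,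
`Q w ≠ 0`), `x ↦ x + B(x,w) a - B(x,a) w - Q(w) B(x,a) a`: it lies in `Ω`
(`Helper94.OrthSiegel.sg`, `sg_mem_omega`), has order `p`, `rank (u - 1) = 2` and
`rank ((u - 1)²) = 1`. -/
def Siegel : Prop :=
  ∀ {F : Type u} [Field F] [Fintype F] (p : ℕ) [Fact p.Prime] [CharP F p], p ≠ 2 →
    ∀ (d : ℕ), 3 ≤ d → ∃ u : GL (Fin d ⊕ Fin d) F,
      u ∈ Cfsg.Geo.omegaGL (Cfsg.quadFormPlus d F) ∧ u.val ^ p = 1 ∧ (∀ z : F, u.val ≠ z • 1) ∧
      (u.val - 1).rank = 2 ∧ ((u.val - 1) * (u.val - 1)).rank = 1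

/-- EMBO. From an `L`-frame, the embedding `O(G) → O(S0) ∩ C(φ L)`,
`Ψ M = E ∘ (M *ᵥ ·) ∘ E⁻¹` (as `Helper43.SpFEMB`, with `OGrp G` instead of `spGL`). -/
def EmbO : Prop :=
  ∀ {F : Type u} [Field F] (d : ℕ) {L : Type u} [Field L] [Algebra F L]
    (φ : L →ₐ[F] Mat d F) (τ : L →ₗ[F] F) (m' : ℕ) (b : Fin m' → (Fin d ⊕ Fin d → F))
    (G : Matrix (Fin m') (Fin m') L), IsLFrame φ τ b G →
    ∃ Ψ : ↥(OGrp G) →* GL (Fin d ⊕ Fin d) F, Function.Injective Ψ ∧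
      ∀ M, (Ψ M).valᵀ * S0 d F * (Ψ M).val = S0 d F ∧ ∀ c : L, (Ψ M).val * φ c = φ c * (Ψ M).val

/-- CARDO. Order of the isometry group of a symmetric invertible `G` over a finite field `L` of
odd characteristic: odd size — `|O_{m'}|` (scale `G` to the discriminant of `quadFormOdd`, then
`Helper93.OrtOCONG.main Helper97.OrtCONG.main` and `Helper45.OrthCard.card_odd`); even size
with `det G = (-1)^(m'/2) μ²` — `|O⁺_{m'}|` (`Helper45.OrthCard.card_plus`). -/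
def CardO : Prop :=
  ∀ {L : Type u} [Field L] [Fintype L], (2 : L) ≠ 0 → ∀ (m' : ℕ), 1 ≤ m' →
    ∀ G : Matrix (Fin m') (Fin m') L, Gᵀ = G → G.det ≠ 0 →
    (Odd m' → Nat.card ↥(OGrp G) =
      2 * Fintype.card L ^ (((m' - 1) / 2) ^ 2) *
        ∏ j ∈ Finset.range ((m' - 1) / 2), (Fintype.card L ^ (2 * (j + 1)) - 1)) ∧
    (Even m' → (∃ μ : L, G.det = (-1) ^ (m' / 2) * μ ^ 2) → Nat.card ↥(OGrp G) =
      2 * Fintype.card L ^ ((m' / 2) * (m' / 2 - 1)) * (Fintype.card L ^ (m' / 2) - 1) *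
        ∏ j ∈ Finset.range (m' / 2 - 1), (Fintype.card L ^ (2 * (j + 1)) - 1))

/-- SQIDX. If all squares of elements of `H` lie in `Ω`, then `H ⊓ Ω` contains the Sylow
`r`-subgroups of `H` for odd `r` (an element `x` of odd order is `(x ^ ((o+1)/2))²`). -/
def SqIdx : Prop :=
  ∀ {G : Type u} [Group G] [Finite G] (H Ω : Subgroup G), (∀ h ∈ H, h * h ∈ Ω) →
    ∀ r : ℕ, r.Prime → r ≠ 2 → ∀ k : ℕ, r ^ k ∣ Nat.card ↥H → r ^ k ∣ Nat.card ↥(H ⊓ Ω)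

/-- IDXOARITH. `v_r(Aq) - v_r(Bq)` is `∑ v_r(q^(2j) - 1)` over odd `j < d` (`d` even), resp.
`v_r(q^d - 1) + ∑` over odd `j ≤ d - 2` (`d` odd).  If it is positive then the order `e` of
`q²` mod `r` is odd, and for the order `i ∈ {e, 2e}` of `q`: `i` odd, `i ≤ d`, or `i = 2e`,
`e ≤ d - 1`. -/
def IdxOArith : Prop :=
  ∀ (q d r i : ℕ), 2 ≤ q → 1 ≤ d → r.Prime → r ≠ 2 → ¬ r ∣ q → i = orderOf (q : ZMod r) →
    ∀ N Ωc : ℕ, r ^ padicValNat r (Bq q d) ∣ N → N ∣ Ωc → Ωc ∣ Aq q d → r ∣ Ωc / N →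
    Odd (orderOf ((q : ZMod r) ^ 2)) ∧ ((Odd i ∧ i ≤ d) ∨ (Even i ∧ i + 2 ≤ 2 * d))

/-- ELTODD. `i = ord_r(q)` odd, `i ≤ d`: `x = diag(A, A⁻ᵀ)` (`Helper60.S8GLEMB.psi`) with
`A ∈ GL_d(q)` of order `r` and characteristic polynomial `P (X - 1)^(d - i)`, `P` irreducible of
degree `i` (e.g. multiplication by an `r`-th root of unity on `F_{q^i}`, plus an identity block).
`P ≠ P^*`, so `P` has multiplicity one in the characteristic polynomial of `x`. -/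
def EltOdd : Prop :=
  ∀ {F : Type u} [Field F] [Fintype F] (p : ℕ) [Fact p.Prime] [CharP F p] (q : ℕ),
    Fintype.card F = q → ∀ (d : ℕ) (r : ℕ) [Fact r.Prime], r ≠ 2 → r ≠ p →
    ∀ i : ℕ, i = orderOf (q : ZMod r) → Odd i → i ≤ d →
    ∃ (x : GL (Fin d ⊕ Fin d) F) (P R : F[X]),
      x ∈ Cfsg.isometryGroup F (Cfsg.quadFormPlus d F) ∧ x.val ^ r = 1 ∧
      (∀ z : F, x.val ≠ z • 1) ∧ Irreducible P ∧ P.Monic ∧ x.val.charpoly = P * R ∧ ¬ P ∣ R ∧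
      Odd P.natDegree

/-- ELTEVEN1. `i = ord_r(q)` even, `i + 2 ≤ 2d`: from helper38's `SingerC`
(`Helper38.OrtSINGERC.main`: `c ∈ GL_i(F)` of `r`-power order preserving a symmetric `N`) take
`c₁ = c ^ (r ^ (a - 1))` of order `r`; its characteristic polynomial is irreducible of degree
`i`.  `x₁ = diag(c₁, 1)`, `S₁ = diag(N, 1, …, 1, δ)` with `δ` chosen so that
`det S₁ = (-1)^d μ²`. -/
def EltEven1 : Prop :=
  ∀ {F : Type u} [Field F] [Fintype F] (p : ℕ) [Fact p.Prime] [CharP F p] (q : ℕ),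
    Fintype.card F = q → (2 : F) ≠ 0 → ∀ (d : ℕ) (r : ℕ) [Fact r.Prime], r ≠ 2 → r ≠ p →
    ∀ i : ℕ, i = orderOf (q : ZMod r) → Even i → i + 2 ≤ 2 * d →
    ∃ (x₁ S₁ : Matrix (Fin (2 * d)) (Fin (2 * d)) F) (P R : F[X]) (μ : F),
      S₁ᵀ = S₁ ∧ μ ≠ 0 ∧ S₁.det = (-1) ^ d * μ ^ 2 ∧ x₁ᵀ * S₁ * x₁ = S₁ ∧ x₁ ^ r = 1 ∧
      (∀ z : F, x₁ ≠ z • 1) ∧ Irreducible P ∧ P.Monic ∧ x₁.charpoly = P * R ∧ ¬ P ∣ R

/-- TRANSPORT. An isometry of a symmetric form of discriminant `(-1)^d` on `Fin (2d)` is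
conjugate to an isometry of `quadFormPlus d F` (reindex `S0`, `Helper97.OrtCONG.main`, `OBr`). -/
def Transport : Prop :=
  ∀ {F : Type u} [Field F] [Fintype F], (2 : F) ≠ 0 → ∀ (d : ℕ)
    (x₁ S₁ : Matrix (Fin (2 * d)) (Fin (2 * d)) F) (μ : F), S₁ᵀ = S₁ → μ ≠ 0 →
    S₁.det = (-1) ^ d * μ ^ 2 → x₁ᵀ * S₁ * x₁ = S₁ →
    ∃ x : GL (Fin d ⊕ Fin d) F, x ∈ Cfsg.isometryGroup F (Cfsg.quadFormPlus d F) ∧
      x.val.charpoly = x₁.charpoly ∧ (∀ n : ℕ, x₁ ^ n = 1 → x.val ^ n = 1) ∧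
      ((∀ z : F, x₁ ≠ z • 1) → ∀ z : F, x.val ≠ z • 1)

/-- NOCOMMO. As `SpFStmt.NoComm2` (`Helper29.SpFNOCOMM2`), with the orthogonal adjoint
`M ↦ S0 * Mᵀ * S0` instead of `sadj`: `x` an isometry, `J` self-adjoint. -/
def NoCommO : Prop :=
  ∀ {F : Type u} [Field F] [Fintype F] (q : ℕ), Fintype.card F = q → ∀ (d : ℕ) (x : Mat d F),
    xᵀ * S0 d F * x = S0 d F → ∀ N : ℕ, (N : F) ≠ 0 → x ^ N = 1 → ∀ P R : F[X],
    Irreducible P → P.Monic → x.charpoly = P * R → ¬ P ∣ R → ∀ e : ℕ, Odd e →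
    x ^ (q ^ e + 1) = 1 → ∀ (J : Mat d F) (a b : F), J * J = a • J + b • 1 →
    a * a + 4 * b ≠ 0 → J ^ q = a • 1 - J → S0 d F * J = Jᵀ * S0 d F → x * J = J * x → False

end Cfsg.Agent.Lib.Helper41.OFStmt
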