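import Mathlib
import Cfsg.Prelude.Def_ClassicalGeometry
import Cfsg.Prelude.Def_GeometricClasses
import Cfsg.Agent.Lib.Helper41.OFStmt

/-!
# S5978 (`Ω⁻_{2d}(q)`, `q` odd, and the field-extension subgroups `O_d(q²)`): piece statements

The proof is the one of S5977 (`Cfsg.Agent.Lib.Helper41.OFStmt`, assembly `OFAsm`), with
`(Fin d ⊕ Fin d, S0 d F)` replaced by an arbitrary index type `ι` and a symmetric invertible
Gram matrix `S : Matrix ι ι F`.  For S5978: `ι = Im d = (Fin (d - 1) ⊕ Fin (d - 1)) ⊕ Fin 2` and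
`S = Gm d a b`, the Gram matrix of the polar form of `Cfsg.quadFormMinus (d - 1) F a b`.

* Pieces `…G` are the S5977 pieces with `S0 d F` replaced by `S` (each docstring names the S5977
  proof to adapt).
* Pieces `M…` are the minus-type versions of the type-specific pieces.

Each `def X : Prop` is one piece: prove `theorem main : Cfsg.Agent.Lib.Helper41.OMStmt.X.{u}`
in `Cfsg/Agent/Lib/<Seat>/OM<PIECE>.lean`.
-/

set_option autoImplicit false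

namespace Cfsg.Agent.Lib.Helper41.OMStmt

open Matrix Polynomial
open Cfsg.Agent.Lib.Helper37.OrtStmt (OGrp)
open Cfsg.Agent.Lib.Helper41.OFStmt (SaJ ReflS)

universe u

/-- The index type of `Cfsg.quadFormMinus (d - 1) F a b`. -/
abbrev Im (d : ℕ) : Type := (Fin (d - 1) ⊕ Fin (d - 1)) ⊕ Fin 2

/-- The Gram matrix of the polar form of `Cfsg.quadFormMinus (d - 1) F a b`. -/
def Gm (d : ℕ) {F : Type u} [Field F] (a b : F) : Matrix (Im d) (Im d) F :=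
  Matrix.fromBlocks (Matrix.fromBlocks 0 1 1 0) 0 0 !![2, a; a, 2 * b]

/-- `L`-coordinates: `c ↦ ∑ j, φ (c j) (b j)` (any index type). -/
def CoordG {F : Type u} [Field F] {ι : Type} [Fintype ι] [DecidableEq ι] {L : Type u} [Field L]
    [Algebra F L] (φ : L →ₐ[F] Matrix ι ι F) {m' : ℕ} (b : Fin m' → (ι → F)) (c : Fin m' → L) :
    ι → F := ∑ j, φ (c j) *ᵥ b j

/-- `b` is an `L`-basis of `ι → F` (for the `L`-structure `φ`) in which the form `S` is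
`τ ∘ (c, c') ↦ c ⬝ᵥ G *ᵥ c'` with `G` symmetric invertible over `L`. -/
def IsLFrameG {F : Type u} [Field F] {ι : Type} [Fintype ι] [DecidableEq ι] (S : Matrix ι ι F)
    {L : Type u} [Field L] [Algebra F L] (φ : L →ₐ[F] Matrix ι ι F) (τ : L →ₗ[F] F) {m' : ℕ}
    (b : Fin m' → (ι → F)) (G : Matrix (Fin m') (Fin m') L) : Prop :=
  Gᵀ = G ∧ G.det ≠ 0 ∧ Function.Bijective (CoordG φ b) ∧
    ∀ c c' : Fin m' → L, CoordG φ b c ⬝ᵥ (S *ᵥ CoordG φ b c') = τ (c ⬝ᵥ (G *ᵥ c'))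

/-- `|O⁻_{2d}(q)|` (`Helper45.OrthCard.card_minus` with `k = d - 1`). -/
def Amq (q d : ℕ) : ℕ :=
  2 * q ^ (d * (d - 1)) * (q ^ d + 1) * ∏ j ∈ Finset.range (d - 1), (q ^ (2 * (j + 1)) - 1)

/-- `|O⁻_d(q²)|` (`d` even) resp. `|O_d(q²)|` (`d` odd). -/
def Bmq (q d : ℕ) : ℕ :=
  if Even d then
    2 * (q ^ 2) ^ ((d / 2) * (d / 2 - 1)) * ((q ^ 2) ^ (d / 2) + 1) *
      ∏ j ∈ Finset.range (d / 2 - 1), ((q ^ 2) ^ (2 * (j + 1)) - 1)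
  else
    2 * (q ^ 2) ^ (((d - 1) / 2) ^ 2) * ∏ j ∈ Finset.range ((d - 1) / 2), ((q ^ 2) ^ (2 * (j + 1)) - 1)

/-! ## Generic pieces (any index type `ι`, any symmetric invertible `S`) -/

/-- RANKTRICKG. Generalize `Helper77.SpFRANKTRICK` (`2 * d` becomes `Fintype.card ι`). -/
def RankTrickG : Prop :=
  ∀ {F : Type u} [Field F] {ι : Type} [Fintype ι] [DecidableEq ι] (k : ℕ)
    (K : Subalgebra F (Matrix ι ι F)), Cfsg.Geo.IsFieldSubalgebra k K → ∀ y : GL ι F,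
    y ∈ Cfsg.Geo.subalgebraNormalizer K → 2 * (y.val - 1).rank < Fintype.card ι →
    ∀ a ∈ K, y.val * a = a * y.val

/-- KDIMG. Generalize `Helper77.SpFKDIM` (`Helper77.SpFField.dvd_finrank` is already general). -/
def KDimG : Prop :=
  ∀ {F : Type u} [Field F] {ι : Type} [Fintype ι] [DecidableEq ι] (k : ℕ)
    (K : Subalgebra F (Matrix ι ι F)), Cfsg.Geo.IsFieldSubalgebra k K →
    ∀ U : Submodule F (ι → F), (∀ a ∈ K, ∀ u ∈ U, a *ᵥ u ∈ U) → k ∣ Module.finrank F U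

/-- AUTG. Generalize `Helper77.SpFAUT`. -/
def AutG : Prop :=
  ∀ {F : Type u} [Field F] [Fintype F] {ι : Type} [Fintype ι] [DecidableEq ι] (k : ℕ)
    (K : Subalgebra F (Matrix ι ι F)), k.Prime → Cfsg.Geo.IsFieldSubalgebra k K →
    ∀ y : GL ι F, y ∈ Cfsg.Geo.subalgebraNormalizer K → ∀ r : ℕ, r.Prime → r ≠ k →
    y.val ^ r = 1 → ∀ a ∈ K, y.val * a = a * y.val

/-- QUADGENG. Generalize `Helper66.SpFQUADGEN` (`exists_gen_idx`, `finish` there are already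
stated for any index type). -/
def QuadGenG : Prop :=
  ∀ {F : Type u} [Field F] [Fintype F] (q : ℕ), Fintype.card F = q →
    ∀ {ι : Type} [Fintype ι] [DecidableEq ι] [Nonempty ι] (K : Subalgebra F (Matrix ι ι F)),
    Cfsg.Geo.IsFieldSubalgebra 2 K →
    ∃ (J : Matrix ι ι F) (a b : F), J ∈ K ∧ J * J = a • J + b • 1 ∧
      (∀ k, k ∈ K ↔ ∃ α β : F, k = α • 1 + β • J) ∧ (∀ t : F, t * t ≠ a * t + b) ∧
      a * a + 4 * b ≠ 0 ∧ J ^ q = a • 1 - J ∧ ((2 : F) ≠ 0 → a = 0)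

/-- LJG. Generalize `Helper13.OFLJ` (or `Helper34.OFLJ`). -/
def LJG : Prop :=
  ∀ {F : Type u} [Field F] [Fintype F], (2 : F) ≠ 0 → ∀ l : F, ¬ IsSquare l →
    ∃ (L : Type u) (_ : Field L) (_ : Fintype L) (_ : Algebra F L) (j₀ : L),
      j₀ * j₀ = algebraMap F L l ∧ Fintype.card L = Fintype.card F ^ 2 ∧ (2 : L) ≠ 0 ∧
      IsSquare (-1 : L) ∧ (∃ τ : L →ₗ[F] F, τ ≠ 0) ∧
      ∀ {ι : Type} [Fintype ι] [DecidableEq ι] [Nonempty ι] (J : Matrix ι ι F), J * J = l • 1 →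
        ∃ φ : L →ₐ[F] Matrix ι ι F, Function.Injective φ ∧ φ j₀ = J ∧
          ∀ c : L, ∃ a b : F, φ c = a • 1 + b • J

/-- EIG1G. Generalize `Helper47.OFEIG1` (the dimension is even by hypothesis). -/
def Eig1G : Prop :=
  ∀ {F : Type u} [Field F], (2 : F) ≠ 0 → ∀ {ι : Type} [Fintype ι] [DecidableEq ι],
    Even (Fintype.card ι) → ∀ (S x : Matrix ι ι F), Sᵀ = S → S.det ≠ 0 →
    xᵀ * S * x = S → x * x = 1 → x.det = 1 →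
    ∃ (k₁ k₂ : ℕ) (P : Matrix ι (Fin (2 * k₁) ⊕ Fin (2 * k₂)) F)
      (P' : Matrix (Fin (2 * k₁) ⊕ Fin (2 * k₂)) ι F)
      (S₁ : Matrix (Fin (2 * k₁)) (Fin (2 * k₁)) F) (S₂ : Matrix (Fin (2 * k₂)) (Fin (2 * k₂)) F),
      2 * k₁ + 2 * k₂ = Fintype.card ι ∧ P * P' = 1 ∧ P' * P = 1 ∧ S₁ᵀ = S₁ ∧ S₁.det ≠ 0 ∧
      S₂ᵀ = S₂ ∧ S₂.det ≠ 0 ∧ Pᵀ * S * P = Matrix.fromBlocks S₁ 0 0 S₂ ∧
      x * P = P * Matrix.fromBlocks 1 0 0 (-1)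

/-- PL1G (piece: `main : SaJ.{u} → Eig1G.{u} → ReflS.{u} → PL1G.{u}`; `SaJ`, `ReflS` are the
S5977 props of `OFStmt`).  Generalize `Helper13.OFPL1`. -/
def PL1G : Prop :=
  ∀ {F : Type u} [Field F] [Fintype F], (2 : F) ≠ 0 →
    ∀ {ι : Type} [Fintype ι] [DecidableEq ι] [Nonempty ι], Even (Fintype.card ι) →
    ∀ (S : Matrix ι ι F), Sᵀ = S → S.det ≠ 0 → ∀ l : F, ¬ IsSquare l → ∀ x : Matrix ι ι F,
    xᵀ * S * x = S → x * x = 1 → x.det = 1 →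
    ∃ J' t : Matrix ι ι F, J' * J' = l • 1 ∧ S * J' = J'ᵀ * S ∧ x * J' = J' * x ∧
      tᵀ * S * t = S ∧ t * t = 1 ∧ t.det = -1 ∧ t * x = x * t

/-- EIGMG. Generalize `Helper10.OFEIGM` (`P` is now rectangular, `ι × (Fin m ⊕ Fin m)`). -/
def EigMG : Prop :=
  ∀ {F : Type u} [Field F], (2 : F) ≠ 0 → ∀ {ι : Type} [Fintype ι] [DecidableEq ι]
    (S x : Matrix ι ι F), Sᵀ = S → S.det ≠ 0 → xᵀ * S * x = S → x * x = -1 →
    ∃ (m : ℕ) (P : Matrix ι (Fin m ⊕ Fin m) F) (P' : Matrix (Fin m ⊕ Fin m) ι F) (D : Fin m → F),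
      P * P' = 1 ∧ P' * P = 1 ∧ (∀ j, D j ≠ 0) ∧
      Pᵀ * S * P = Matrix.fromBlocks (Matrix.diagonal D) 0 0 (Matrix.diagonal D) ∧
      x * P = P * Matrix.fromBlocks 0 (-1) 1 0

/-- PLMG (piece: `main : EigMG.{u} → PLMG.{u}`).  Generalize `Helper13.OFPLM`. -/
def PLMG : Prop :=
  ∀ {F : Type u} [Field F] [Fintype F], (2 : F) ≠ 0 →
    ∀ {ι : Type} [Fintype ι] [DecidableEq ι] [Nonempty ι] (S : Matrix ι ι F), Sᵀ = S →
    S.det ≠ 0 → ∀ l : F, ¬ IsSquare l → ∀ x : Matrix ι ι F, xᵀ * S * x = S → x * x = -1 →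
    ∃ J' t : Matrix ι ι F, J' * J' = l • 1 ∧ S * J' = J'ᵀ * S ∧ x * J' = -(J' * x) ∧
      tᵀ * S * t = S ∧ t * t = 1 ∧ t.det = -1 ∧ x * (t * J' * t) = -(t * J' * t * x)

/-- LSTRG. Generalize `Helper52.OFLSTR`. -/
def LStrG : Prop :=
  ∀ {F : Type u} [Field F] [Fintype F], (2 : F) ≠ 0 → ∀ {ι : Type} [Fintype ι] [DecidableEq ι]
    (S : Matrix ι ι F), Sᵀ = S → S.det ≠ 0 → ∀ {L : Type u} [Field L] [Fintype L] [Algebra F L]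
    (φ : L →ₐ[F] Matrix ι ι F), Function.Injective φ → (∀ c : L, S * φ c = (φ c)ᵀ * S) →
    ∀ τ : L →ₗ[F] F, τ ≠ 0 →
    ∃ (m' : ℕ) (b : Fin m' → (ι → F)) (G : Matrix (Fin m') (Fin m') L), IsLFrameG S φ τ b G

/-- LDISCG. Generalize `Helper41.OFLDISC0` (or `Helper31.OFLDISC0`). -/
def LDiscG : Prop :=
  ∀ {F : Type u} [Field F] [Fintype F], (2 : F) ≠ 0 → ∀ {L : Type u} [Field L] [Fintype L]
    [Algebra F L] (τ : L →ₗ[F] F), τ ≠ 0 →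
    ∃ t : F, t ≠ 0 ∧ ∀ {ι : Type} [Fintype ι] [DecidableEq ι] (S : Matrix ι ι F) (m' : ℕ)
      (φ : L →ₐ[F] Matrix ι ι F) (b : Fin m' → (ι → F)) (G : Matrix (Fin m') (Fin m') L),
      IsLFrameG S φ τ b G → ∃ ν : F, ν ≠ 0 ∧ Algebra.norm F G.det * t ^ m' = ν ^ 2 * S.det

/-- GLUEG. Generalize `Helper13.OFGLUE`. -/
def GlueG : Prop :=
  ∀ {F : Type u} [Field F] {ι : Type} [Fintype ι] [DecidableEq ι] (S : Matrix ι ι F)
    {L : Type u} [Field L] [Algebra F L] (φ φ' : L →ₐ[F] Matrix ι ι F) (τ : L →ₗ[F] F)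
    (m' : ℕ) (b b' : Fin m' → (ι → F)) (G G' P : Matrix (Fin m') (Fin m') L),
    IsLFrameG S φ τ b G → IsLFrameG S φ' τ b' G' → P.det ≠ 0 → Pᵀ * G * P = G' →
    ∃ h : Matrix ι ι F, hᵀ * S * h = S ∧ ∀ c : L, h * φ' c = φ c * h

/-- EMBOG. Generalize `Helper52.OFEMBO`. -/
def EmbOG : Prop :=
  ∀ {F : Type u} [Field F] {ι : Type} [Fintype ι] [DecidableEq ι] (S : Matrix ι ι F)
    {L : Type u} [Field L] [Algebra F L] (φ : L →ₐ[F] Matrix ι ι F) (τ : L →ₗ[F] F) (m' : ℕ)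
    (b : Fin m' → (ι → F)) (G : Matrix (Fin m') (Fin m') L), IsLFrameG S φ τ b G →
    ∃ Ψ : ↥(OGrp G) →* GL ι F, Function.Injective Ψ ∧
      ∀ M, (Ψ M).valᵀ * S * (Ψ M).val = S ∧ ∀ c : L, (Ψ M).val * φ c = φ c * (Ψ M).val

/-- NOCOMMG. Generalize `Helper29.OFNOCOMMO` (adjoint `M ↦ S⁻¹ * Mᵀ * S`). -/
def NoCommG : Prop :=
  ∀ {F : Type u} [Field F] [Fintype F] (q : ℕ), Fintype.card F = q →
    ∀ {ι : Type} [Fintype ι] [DecidableEq ι] (S x : Matrix ι ι F), Sᵀ = S → S.det ≠ 0 →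
    xᵀ * S * x = S → ∀ N : ℕ, (N : F) ≠ 0 → x ^ N = 1 → ∀ P R : F[X], Irreducible P →
    P.Monic → x.charpoly = P * R → ¬ P ∣ R → ∀ e : ℕ, Odd e → x ^ (q ^ e + 1) = 1 →
    ∀ (J : Matrix ι ι F) (a b : F), J * J = a • J + b • 1 → a * a + 4 * b ≠ 0 →
    J ^ q = a • 1 - J → S * J = Jᵀ * S → x * J = J * x → False

/-- OMVG. Generalize `Helper47.OFOMV` (`2 * d ≥ 3` becomes `3 ≤ Fintype.card ι`). -/
def OmVG : Prop :=
  ∀ {F : Type u} [Field F] [Fintype F], (2 : F) ≠ 0 → ∀ {ι : Type} [Fintype ι] [DecidableEq ι],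
    3 ≤ Fintype.card ι → ∀ (S : Matrix ι ι F), Sᵀ = S → S.det ≠ 0 → ∀ l : F, ¬ IsSquare l →
    ∀ J : Matrix ι ι F, J * J = l • 1 → S * J = Jᵀ * S →
    ∃ v : ι → F, v ⬝ᵥ (S *ᵥ v) ≠ 0 ∧ v ⬝ᵥ (S *ᵥ (J *ᵥ v)) = 0

/-- TRANSPORTG. Generalize `Helper10.OFTRANSPORT`: an isometry of a symmetric form on `Fin n`
whose discriminant is that of `S` is conjugate to an isometry of `S`
(reindex `S` to `Fin n`, `Helper97.OrtCONG.main`). -/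
def TransportG : Prop :=
  ∀ {F : Type u} [Field F] [Fintype F], (2 : F) ≠ 0 → ∀ {ι : Type} [Fintype ι] [DecidableEq ι]
    (n : ℕ), Fintype.card ι = n → ∀ (S : Matrix ι ι F), Sᵀ = S → S.det ≠ 0 →
    ∀ (x₁ S₁ : Matrix (Fin n) (Fin n) F) (μ : F), S₁ᵀ = S₁ → μ ≠ 0 →
    S₁.det = S.det * μ ^ 2 → x₁ᵀ * S₁ * x₁ = S₁ →
    ∃ x : GL ι F, x.valᵀ * S * x.val = S ∧ x.val.charpoly = x₁.charpoly ∧
      (∀ k : ℕ, x₁ ^ k = 1 → x.val ^ k = 1) ∧ ((∀ z : F, x₁ ≠ z • 1) → ∀ z : F, x.val ≠ z • 1)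

/-- OMDETG. Generalize `Helper50.OFOMDET` (any form `Q`). -/
def OmDetG : Prop :=
  ∀ {F : Type u} [Field F] {ι : Type} [Fintype ι] [DecidableEq ι] (Q : (ι → F) → F),
    ∀ g ∈ Cfsg.Geo.omegaGL Q, g.val.det = 1

/-! ## Minus-type pieces (`Q = Cfsg.quadFormMinus (d - 1) F a b`, Gram matrix `Gm d a b`) -/

/-- MBR. As `Helper50.OFOBR`, `OFSABR`, `OFDETS0` for `quadFormMinus`:
`polar Q u v = u ⬝ᵥ Gm *ᵥ v` and `Q v = (1/2) v ⬝ᵥ Gm *ᵥ v`. -/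
def MBr : Prop :=
  ∀ {F : Type u} [Field F], (2 : F) ≠ 0 → ∀ (d : ℕ) (a b : F),
    (Gm d a b)ᵀ = Gm d a b ∧ (Gm d a b).det = (-1) ^ (d - 1) * (4 * b - a ^ 2) ∧
    (∀ g : GL (Im d) F, g ∈ Cfsg.isometryGroup F (Cfsg.quadFormMinus (d - 1) F a b) ↔
      g.valᵀ * Gm d a b * g.val = Gm d a b) ∧
    (∀ K : Subalgebra F (Matrix (Im d) (Im d) F),
      Cfsg.Geo.IsSelfAdjointFor (QuadraticMap.polar (Cfsg.quadFormMinus (d - 1) F a b)) K →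
      ∀ k ∈ K, Gm d a b * k = kᵀ * Gm d a b)

/-- MSQOM. As `Helper8.OFSQOM` with `Helper44`'s `minusQ` (`sep_minusQ`). -/
def MSqOm : Prop :=
  ∀ {F : Type u} [Field F] [Fintype F], (2 : F) ≠ 0 → ∀ (d : ℕ), 2 ≤ d → ∀ (a b : F),
    (∀ x y : F, x ^ 2 + a * x * y + b * y ^ 2 = 0 → x = 0 ∧ y = 0) →
    ∀ g ∈ Cfsg.isometryGroup F (Cfsg.quadFormMinus (d - 1) F a b),
      g * g ∈ Cfsg.Geo.omegaGL (Cfsg.quadFormMinus (d - 1) F a b)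

/-- MOMFIX. As `Helper8.OFOMFIX` for `quadFormMinus`. -/
def MOmFix : Prop :=
  ∀ {F : Type u} [Field F] [Fintype F], (2 : F) ≠ 0 → ∀ (d : ℕ), 2 ≤ d → ∀ (a b : F),
    (∀ x y : F, x ^ 2 + a * x * y + b * y ^ 2 = 0 → x = 0 ∧ y = 0) → ∀ l : F, ¬ IsSquare l →
    ∀ J : Matrix (Im d) (Im d) F, J * J = l • 1 → Gm d a b * J = Jᵀ * Gm d a b →
    ∀ v : Im d → F, v ⬝ᵥ (Gm d a b *ᵥ v) ≠ 0 → v ⬝ᵥ (Gm d a b *ᵥ (J *ᵥ v)) = 0 →
    ∀ g₀ ∈ Cfsg.isometryGroup F (Cfsg.quadFormMinus (d - 1) F a b), g₀.val.det = 1 →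
    ∃ n ∈ Cfsg.isometryGroup F (Cfsg.quadFormMinus (d - 1) F a b), n.val * J = J * n.val ∧
      g₀ * n ∈ Cfsg.Geo.omegaGL (Cfsg.quadFormMinus (d - 1) F a b)

/-- MSIEGEL. As `Helper64.OFSIEGEL` for `quadFormMinus` (Witt index `d - 1 ≥ 3`; singular `a`
and `w` inside the hyperbolic part; `Helper43.MiBase` has non-degeneracy). -/
def MSiegel : Prop :=
  ∀ {F : Type u} [Field F] [Fintype F] (p : ℕ) [Fact p.Prime] [CharP F p], p ≠ 2 →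
    ∀ (d : ℕ), 4 ≤ d → ∀ (a b : F),
    (∀ x y : F, x ^ 2 + a * x * y + b * y ^ 2 = 0 → x = 0 ∧ y = 0) →
    ∃ u : GL (Im d) F, u ∈ Cfsg.Geo.omegaGL (Cfsg.quadFormMinus (d - 1) F a b) ∧
      u.val ^ p = 1 ∧ (∀ z : F, u.val ≠ z • 1) ∧ (u.val - 1).rank = 2 ∧
      ((u.val - 1) * (u.val - 1)).rank = 1

/-- MELTODD. As `Helper59.OFELTODD`: `x = diag(A, A⁻ᵀ)` on the hyperbolic part
`Fin (d - 1) ⊕ Fin (d - 1)` and the identity on `Fin 2`; `i ≤ d - 1`. -/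
def MEltOdd : Prop :=
  ∀ {F : Type u} [Field F] [Fintype F] (p : ℕ) [Fact p.Prime] [CharP F p] (q : ℕ),
    Fintype.card F = q → ∀ (d : ℕ) (a b : F) (r : ℕ) [Fact r.Prime], r ≠ 2 → r ≠ p →
    ∀ i : ℕ, i = orderOf (q : ZMod r) → Odd i → i + 1 ≤ d →
    ∃ (x : GL (Im d) F) (P R : F[X]),
      x ∈ Cfsg.isometryGroup F (Cfsg.quadFormMinus (d - 1) F a b) ∧ x.val ^ r = 1 ∧
      (∀ z : F, x.val ≠ z • 1) ∧ Irreducible P ∧ P.Monic ∧ x.val.charpoly = P * R ∧ ¬ P ∣ R ∧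
      Odd P.natDegree

/-- MELTEVEN. As `Helper38.OFELTEVEN1` with discriminant `(-1)^d ν` for a given non-square `ν`
(`δ` is chosen accordingly). -/
def MEltEven : Prop :=
  ∀ {F : Type u} [Field F] [Fintype F] (p : ℕ) [Fact p.Prime] [CharP F p] (q : ℕ),
    Fintype.card F = q → (2 : F) ≠ 0 → ∀ (d : ℕ) (ν : F), ¬ IsSquare ν → ∀ (r : ℕ)
    [Fact r.Prime], r ≠ 2 → r ≠ p → ∀ i : ℕ, i = orderOf (q : ZMod r) → Even i →
    i + 2 ≤ 2 * d →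
    ∃ (x₁ S₁ : Matrix (Fin (2 * d)) (Fin (2 * d)) F) (P R : F[X]) (μ : F),
      S₁ᵀ = S₁ ∧ μ ≠ 0 ∧ S₁.det = (-1) ^ d * ν * μ ^ 2 ∧ x₁ᵀ * S₁ * x₁ = S₁ ∧ x₁ ^ r = 1 ∧
      (∀ z : F, x₁ ≠ z • 1) ∧ Irreducible P ∧ P.Monic ∧ x₁.charpoly = P * R ∧ ¬ P ∣ R

/-- MELTTOP. The case `i = 2 d` (`r` a primitive prime divisor of `q^(2d) - 1`): the Singer
element `c₁` of order `r` of `Helper38.OrtSINGERC` (as in `Helper38.OFELTEVEN1`) with its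
invariant symmetric form `N` on `Fin (2 d)`; its characteristic polynomial is irreducible
(`R = 1`).  `det N` is not `(-1)^d μ²`: otherwise `Helper10.OFTRANSPORT` would put an element
of order `r` in the isometry group of `quadFormPlus d F`, whose order
(`Helper45.OrthCard.card_plus`) `2 q^(d(d-1)) (q^d - 1) ∏_{j<d} (q^(2j) - 1)` is prime to `r`
(`orderOf q = 2 d`).  Hence `det N = (-1)^d ν μ²` (two square classes). -/
def MEltTop : Prop :=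
  ∀ {F : Type u} [Field F] [Fintype F] (p : ℕ) [Fact p.Prime] [CharP F p] (q : ℕ),
    Fintype.card F = q → (2 : F) ≠ 0 → ∀ (d : ℕ), 1 ≤ d → ∀ (ν : F), ¬ IsSquare ν → ∀ (r : ℕ)
    [Fact r.Prime], r ≠ 2 → r ≠ p → 2 * d = orderOf (q : ZMod r) →
    ∃ (x₁ S₁ : Matrix (Fin (2 * d)) (Fin (2 * d)) F) (P R : F[X]) (μ : F),
      S₁ᵀ = S₁ ∧ μ ≠ 0 ∧ S₁.det = (-1) ^ d * ν * μ ^ 2 ∧ x₁ᵀ * S₁ * x₁ = S₁ ∧ x₁ ^ r = 1 ∧
      (∀ z : F, x₁ ≠ z • 1) ∧ Irreducible P ∧ P.Monic ∧ x₁.charpoly = P * R ∧ ¬ P ∣ R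

/-- MIDXARITH. As `Helper31.OFIDXOARITH` for the minus-type orders: `v_r(Amq) - v_r(Bmq)` is
`∑ v_r(q^(2j) - 1)` over odd `j < d` (`d` even), resp. `v_r(q^d + 1) + ∑` over odd `j ≤ d - 2`
(`d` odd). -/
def MIdxArith : Prop :=
  ∀ (q d r i : ℕ), 2 ≤ q → 1 ≤ d → r.Prime → r ≠ 2 → ¬ r ∣ q → i = orderOf (q : ZMod r) →
    ∀ N Ωc : ℕ, r ^ padicValNat r (Bmq q d) ∣ N → N ∣ Ωc → Ωc ∣ Amq q d → r ∣ Ωc / N →
    Odd (orderOf ((q : ZMod r) ^ 2)) ∧ ((Odd i ∧ i + 1 ≤ d) ∨ (Even i ∧ i ≤ 2 * d))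

/-- CARDOM. As `Helper75.OFCARDO`, minus type: even size and `(-1)^(m'/2) det G` a non-square
(`Helper45.OrthCard.card_minus` for `quadFormMinus (m'/2 - 1) L 0 (-ν)`, `ν` a non-square, whose
Gram matrix `Gm` has determinant `(-1)^(m'/2) 4 ν`; `MBr` as a hypothesis if you like: say so). -/
def CardOM : Prop :=
  ∀ {L : Type u} [Field L] [Fintype L], (2 : L) ≠ 0 → ∀ (m' : ℕ), 1 ≤ m' → Even m' →
    ∀ G : Matrix (Fin m') (Fin m') L, Gᵀ = G → G.det ≠ 0 →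
    ¬ IsSquare ((-1) ^ (m' / 2) * G.det) →
    Nat.card ↥(OGrp G) =
      2 * Fintype.card L ^ ((m' / 2) * (m' / 2 - 1)) * (Fintype.card L ^ (m' / 2) + 1) *
        ∏ j ∈ Finset.range (m' / 2 - 1), (Fintype.card L ^ (2 * (j + 1)) - 1)

end Cfsg.Agent.Lib.Helper41.OMStmt
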