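import Mathlib
import Cfsg.Prelude.Def_Classical
import Cfsg.Prelude.Def_GeometricClasses
import Cfsg.Agent.Lib.Helper45.OMiStmt

/-!
# S5987, the `r = 2` block (sub-call by helper41 for helper35's S5987 call): statement pieces

`POmega^-_(2d)(q)`, `q` odd, elements `x` of `Omega^-` with `x ^ 2` scalar, `x` not scalar, and
totally singular `m`-spaces, `m ≤ d - 1`.  Everything is about the standard minus form
`Cfsg.quadFormMinus (d - 1) F a b` on `M d → F`, `M d = (Fin (d - 1) ⊕ Fin (d - 1)) ⊕ Fin 2`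
(helper45's `OMiStmt.M`, `Aniso`, `FxM`, `NDegM`, `StabM`), dimension `2 d` for `1 ≤ d`,
Witt index `d - 1`.  Notation: `Q` the form, `B = polar Q`, `q = card F`.

Result of the block (`TMTwoAsm.two_iff`): every such `x` fixes a totally singular `m`-space iff
`Even d ∨ Even m ∨ q % 8 ≠ 7`.
* `x ^ 2 = 1`: `V = Fx ⊥ Fm`; totally singular subspaces of `Fx` and `Fm` of total finrank
  `≥ d - 1` exist (INVFIX), so every `m ≤ d - 1` is fixed.
* `x ^ 2 = -1` and `x ∈ Omega^-`: `d` odd and `q ≡ 7 (mod 8)` (landed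
  `Helper24.MinusNegSq.main`); invariant totally singular subspaces of every even finrank
  `≤ d - 1` (SQNEG3), none of odd finrank (NOODD); such `x` exist (landed
  `Helper37.OMiNEGSQEXM.main`).
-/

set_option autoImplicit false

universe u

open scoped Matrix

namespace Cfsg.Agent.Lib.Helper41.TMTwoStmt

open Cfsg.Agent.Lib.Helper45.OMiStmt (M Aniso FxM NDegM StabM TopNDM)

/-- the `-1`-eigenspace of a matrix -/
def FmM {F : Type u} [Field F] {d : ℕ} (x : Matrix (M d) (M d) F) : Submodule F (M d → F) :=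
  LinearMap.ker (Matrix.toLin' x + LinearMap.id)

/-- `Q` vanishes on `W` -/
def TSubM (d : ℕ) (F : Type u) [Field F] (a b : F) (W : Submodule F (M d → F)) : Prop :=
  ∀ w ∈ W, Cfsg.quadFormMinus (d - 1) F a b w = 0

/-- `W` contains a totally singular subspace of half its dimension -/
def PlusM (d : ℕ) (F : Type u) [Field F] (a b : F) (W : Submodule F (M d → F)) : Prop :=
  ∃ U : Submodule F (M d → F), U ≤ W ∧ TSubM d F a b U ∧
    2 * Module.finrank F ↥U = Module.finrank F ↥W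

/-- `x` fixes a totally singular `m`-space -/
def FixTSM (d m : ℕ) (F : Type u) [Field F] (a b : F) (x : Matrix (M d) (M d) F) : Prop :=
  ∃ W : Submodule F (M d → F), Module.finrank F ↥W = m ∧ TSubM d F a b W ∧ StabM x W

/-- TSBIG (NEW, EASY-MEDIUM; no nondegeneracy needed): every subspace `A` contains a totally
singular subspace `U` with `finrank A ≤ 2 finrank U + 2`.  Take `U ≤ A` totally singular of
maximal finrank, `P = {v ∈ A | B(u, v) = 0 for all u ∈ U}` (`finrank P ≥ finrank A - finrank U`,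
`U ≤ P`), `C` a complement of `U` in `P`.  A nonzero singular `v ∈ C` would make `U ⊔ span {v}`
totally singular (`Q (u + c v) = Q u + c^2 Q v + c B(u, v)`), so `Q` has no nontrivial zero on
`C`, hence `finrank C ≤ 2` (Chevalley-Warning: a quadratic form in `≥ 3` variables over a finite
field has a nontrivial zero; `Cfsg.Agent.Lib.Helper44.QSpace.exists_singular` or the argument of
`Helper34.CWCore`). -/
def TsBig : Prop :=
  ∀ (F : Type u) [Field F] [Fintype F], Odd (Fintype.card F) → ∀ (d : ℕ) (a b : F),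
    ∀ A : Submodule F (M d → F),
    ∃ U : Submodule F (M d → F), U ≤ A ∧ TSubM d F a b U ∧
      Module.finrank F ↥A ≤ 2 * Module.finrank F ↥U + 2

/-- TSEXT (NEW, EASY-MEDIUM; same argument as TSBIG): a totally singular `U` with
`finrank U + 2 ≤ d` is not maximal.  `P = {v | B(u, v) = 0 for all u ∈ U}` has
`finrank P ≥ 2 d - finrank U` (`finrank (M d → F) = 2 d` for `1 ≤ d`) and contains `U`; a complement
`C` of `U` in `P` has `finrank C ≥ 2 d - 2 finrank U ≥ 4 ≥ 3`, so `Q` has a nonzero zero `v` on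
`C` (Chevalley-Warning as in TSBIG); `v ∉ U` as `C ⊓ U = ⊥`. -/
def TsExt : Prop :=
  ∀ (F : Type u) [Field F] [Fintype F], Odd (Fintype.card F) → ∀ (d : ℕ) (a b : F),
    ∀ U : Submodule F (M d → F), TSubM d F a b U → Module.finrank F ↥U + 2 ≤ d →
    ∃ v : M d → F, v ∉ U ∧ Cfsg.quadFormMinus (d - 1) F a b v = 0 ∧
      ∀ u ∈ U, QuadraticMap.polar (Cfsg.quadFormMinus (d - 1) F a b) u v = 0

/-- INVDEC (main : TopNDM → InvDec; adapt Helper97.TSINVDEC or the S5973 piece TPINVDEC):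
eigenspace decomposition of an involution, `q` odd.  `v = (v + x v)/2 + (v - x v)/2`;
`B(u, v) = B(x u, x v) = - B(u, v)` for `u ∈ Fx`, `v ∈ Fm`; nondegeneracy of `Fx`, `Fm` from the
one of `⊤` (`TopNDM` of helper45's S5991 call, or `Helper44.NegPairs.sep_minusQ`). -/
def InvDec : Prop :=
  ∀ (F : Type u) [Field F] [Fintype F], Odd (Fintype.card F) → ∀ (d : ℕ), 1 ≤ d →
    ∀ (a b : F), Aniso a b →
    ∀ x : Matrix.GeneralLinearGroup (M d) F,
    x ∈ Cfsg.isometryGroup F (Cfsg.quadFormMinus (d - 1) F a b) → x ^ 2 = 1 →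
    NDegM d F a b (FxM (x : Matrix (M d) (M d) F)) ∧
      NDegM d F a b (FmM (x : Matrix (M d) (M d) F)) ∧
      (∀ u ∈ FxM (x : Matrix (M d) (M d) F), ∀ v ∈ FmM (x : Matrix (M d) (M d) F),
        QuadraticMap.polar (Cfsg.quadFormMinus (d - 1) F a b) u v = 0) ∧
      FxM (x : Matrix (M d) (M d) F) ⊓ FmM (x : Matrix (M d) (M d) F) = ⊥ ∧
      Module.finrank F ↥(FxM (x : Matrix (M d) (M d) F)) +
        Module.finrank F ↥(FmM (x : Matrix (M d) (M d) F)) = 2 * d ∧
      FxM (x : Matrix (M d) (M d) F) ⊔ FmM (x : Matrix (M d) (M d) F) = ⊤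

/-- TWOMINUS (NEW, HARD; this is one half of the TYPEMUL piece of helper35's S5987 call - if
that piece is landed, derive this from it): `V = A ⊥ B`, both nondegenerate of even finrank:
`A` or `B` is of plus type.  Otherwise both are of minus type, and then `A ⊥ B` is of plus type,
i.e. contains a totally singular `d`-space, but the minus form has none
(`Helper44.OTyp3.sing_minus` / `OTyp1.card_P`, `card_M`, `NP_ne_NM`).  Routes: (1) counting:
`QClass.exists_hyp_even` on `A` and `B`, level sets `N_ε(c) = q^(2e-1) - ε q^(e-1)` (`c ≠ 0`),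
`QCount.card_plusForm_mul` / `card_hypForm_mul`: the number of singular vectors of `A ⊥ B` is
that of the plus type; (2) discriminants (`q` odd): a nondegenerate `2e`-space is of plus type
iff `(-1)^e det(Gram)` is a square (`Helper41.OMStmt`, `OMLDISCG`-style), Gram of `A ⊥ B` =
block diagonal. -/
def TwoMinus : Prop :=
  ∀ (F : Type u) [Field F] [Fintype F], Odd (Fintype.card F) → ∀ (d : ℕ), 1 ≤ d →
    ∀ (a b : F), Aniso a b →
    ∀ A B : Submodule F (M d → F), NDegM d F a b A → NDegM d F a b B →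
    (∀ u ∈ A, ∀ v ∈ B, QuadraticMap.polar (Cfsg.quadFormMinus (d - 1) F a b) u v = 0) →
    A ⊔ B = ⊤ → Even (Module.finrank F ↥A) →
    PlusM d F a b A ∨ PlusM d F a b B

/-- INVFIX (main : InvDec → TsBig → TwoMinus → InvFix; glue): an involution fixes a totally
singular `m`-space for every `m ≤ d - 1`.  `f = finrank Fx`, `g = finrank Fm`, `f + g = 2 d`.
TsBig: t.s. `U₁ ≤ Fx`, `U₂ ≤ Fm` with `f ≤ 2 u₁ + 2`, `g ≤ 2 u₂ + 2`.  `f` even: TwoMinus gives
`PlusM Fx` (replace `U₁`: `2 u₁ = f`) or `PlusM Fm` (replace `U₂`); `f` odd: `g` odd, so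
`f ≤ 2 u₁ + 1`, `g ≤ 2 u₂ + 1`.  Always `u₁ + u₂ ≥ d - 1 ≥ m`.  Take `U₁' ≤ U₁` of finrank
`min m u₁`, `U₂' ≤ U₂` of finrank `m - min m u₁`; `W = U₁' ⊔ U₂'`: finrank `m`
(`Fx ⊓ Fm = ⊥`), totally singular (`Q (u + v) = Q u + Q v + B(u, v)`), invariant (`x u = u`,
`x v = - v`). -/
def InvFix : Prop :=
  ∀ (F : Type u) [Field F] [Fintype F], Odd (Fintype.card F) → ∀ (d m : ℕ), m + 1 ≤ d →
    ∀ (a b : F), Aniso a b →
    ∀ x : Matrix.GeneralLinearGroup (M d) F,
    x ∈ Cfsg.isometryGroup F (Cfsg.quadFormMinus (d - 1) F a b) → x ^ 2 = 1 →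
    FixTSM d m F a b (x : Matrix (M d) (M d) F)

/-- SQNEGTS (main : TsExt → SqNegTS; adapt the S5973 piece TPSQNEGTS): `q ≡ 3 (mod 4)`,
`x * x = -1`, `W` invariant t.s. with `finrank W + 2 ≤ d`: `v` from TsExt,
`W' = W ⊔ span {v, x v}`.  T.s.: `Q (x v) = Q v = 0`, `B(v, x v) = B(x v, x x v) = - B(x v, v)`
so `B(v, x v) = 0`, `B(w, x v) = - B(x w, v) = 0`.  Invariant: `x (x v) = - v`.  Finrank `+ 2`:
`x v = w + c v` gives `(c^2 + 1) v ∈ W`, but `-1` is not a square
(`FiniteField.isSquare_neg_one_iff`). -/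
def SqNegTS : Prop :=
  ∀ (F : Type u) [Field F] [Fintype F], Fintype.card F % 4 = 3 → ∀ (d : ℕ) (a b : F),
    ∀ x : Matrix.GeneralLinearGroup (M d) F,
    x ∈ Cfsg.isometryGroup F (Cfsg.quadFormMinus (d - 1) F a b) →
    (x : Matrix (M d) (M d) F) * (x : Matrix (M d) (M d) F) = -1 →
    ∀ W : Submodule F (M d → F), StabM (x : Matrix (M d) (M d) F) W → TSubM d F a b W →
    Module.finrank F ↥W + 2 ≤ d →
    ∃ W' : Submodule F (M d → F), StabM (x : Matrix (M d) (M d) F) W' ∧ TSubM d F a b W' ∧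
      Module.finrank F ↥W' = Module.finrank F ↥W + 2

/-- SQNEG3 (main : SqNegTS → SqNeg3; EASY induction): `q ≡ 3 (mod 4)`, `x * x = -1`: invariant
t.s. subspaces of finrank `2 s` for all `2 s + 1 ≤ d` (start with `⊥`; the step needs
`2 s + 2 ≤ d`, true when `2 (s + 1) + 1 ≤ d`).  `m` even: `s = m / 2`. -/
def SqNeg3 : Prop :=
  ∀ (F : Type u) [Field F] [Fintype F], Fintype.card F % 4 = 3 → ∀ (d m : ℕ) (a b : F),
    Even m → m + 1 ≤ d →
    ∀ x : Matrix.GeneralLinearGroup (M d) F,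
    x ∈ Cfsg.isometryGroup F (Cfsg.quadFormMinus (d - 1) F a b) →
    (x : Matrix (M d) (M d) F) * (x : Matrix (M d) (M d) F) = -1 →
    FixTSM d m F a b (x : Matrix (M d) (M d) F)

/-- NOODD (EASY-MEDIUM; as in the S5973 piece TPINVBAD2 / the S5991 piece NEGSQNOFIXM):
`q ≡ 3 (mod 4)`, `x * x = -1`: every invariant subspace has even finrank
(`det (x|W)^2 = (-1)^(finrank W)`, and `-1` is not a square:
`FiniteField.isSquare_neg_one_iff`). -/
def NoOdd : Prop :=
  ∀ (F : Type u) [Field F] [Fintype F], Fintype.card F % 4 = 3 → ∀ (d : ℕ)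
    (x : Matrix (M d) (M d) F), x * x = -1 →
    ∀ W : Submodule F (M d → F), StabM x W → Even (Module.finrank F ↥W)

end Cfsg.Agent.Lib.Helper41.TMTwoStmt
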