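import Mathlib
import Cfsg.Prelude.Def_Classical
import Cfsg.Prelude.Def_GeometricClasses
import Cfsg.Agent.Lib.Helper37.HypStmt
import Cfsg.Agent.Lib.Helper44.TSStmt
import Cfsg.Agent.Lib.Helper45.OMiStmt
import Cfsg.Agent.Lib.Helper41.TMTwoStmt

/-!
# S5987 (call by helper41), odd `r` and counting: statement pieces

`POmega^-_(2d)(q)`, ALL `q`, elements of prime order `r` and totally singular `m`-spaces,
`m ≤ d - 1`.  MINUS-FORM PORT of helper44's S5973 call (`Cfsg.Agent.Lib.Helper44.TPStmt`): every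
Prop below is the TPStmt Prop of the same name with `J d`, `Cfsg.quadFormPlus d F` replaced by
`M d = (Fin (d - 1) ⊕ Fin (d - 1)) ⊕ Fin 2` and `Cfsg.quadFormMinus (d - 1) F a₀ b₀`, and two new
arguments `(a₀ b₀ : F) (_ : Aniso a₀ b₀)` right after `[Fintype F]` (the form parameters; `Aniso` =
`z₁² + a₀ z₁ z₂ + b₀ z₂²` anisotropic), dimension `2 d` for `1 ≤ d`, Witt index `d - 1`.
Adapt the landed S5973 piece `TP<NAME>` (or the S5972 piece `TS<NAME>` / `Hyp<NAME>`).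
Defs: `M`, `Aniso`, `FxM`, `NDegM`, `StabM` are helper45's (`Helper45.OMiStmt`); `TSubM`, `PlusM`,
`FixTSM` are in `Helper41.TMTwoStmt`; `Kills`, `TFr`, `NTS` below.
CHANGED with respect to TPStmt (minus type; read the docstrings): Top (`¬ Plus ⊤`), TsEx
(`m ≤ d - 1`), TwoMinusG (replaces Cancel), FxType, SingCnt, FrExt, CntId, NdArith, EltDim,
BadA (hypothesis of EltDim), BadB, BadD, B2Low, B2Odd, B2Even, G1O, G1E; Perp, TsEven, FxType have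
the extra hypothesis `1 ≤ d`.  Char-free tools of helper44: see the header of TPStmt; minus form:
`Helper44.NegPairs.minusQ`, `sep_minusQ`, `OTyp3.sing_minus`, `OTyp1.card_M`.
The `r = 2` part of S5987 is the separate block `Helper41.TMTwoStmt` / `TMTwoAsm`.
-/

set_option autoImplicit false

universe u

open scoped Matrix

namespace Cfsg.Agent.Lib.Helper41.TMStmt

open Cfsg.Agent.Lib.Helper37.HypStmt (cc IPos)
open Cfsg.Agent.Lib.Helper44.TSStmt (Fac NumTypes)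
open Cfsg.Agent.Lib.Helper45.OMiStmt (M Aniso FxM NDegM StabM)
open Cfsg.Agent.Lib.Helper41.TMTwoStmt (TSubM PlusM FixTSM)

/-- `P(x)` kills `B` -/
def Kills {F : Type u} [Field F] {d : ℕ} (x : Matrix (M d) (M d) F) (P : Polynomial F)
    (B : Submodule F (M d → F)) : Prop :=
  ∀ v ∈ B, (Polynomial.aeval (Matrix.toLin' x) P) v = 0

/-- totally singular frames of length `j` -/
def TFr (d : ℕ) (F : Type u) [Field F] (a₀ b₀ : F) (j : ℕ) : Type u :=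
  {v : Fin j → M d → F // LinearIndependent F v ∧
    (∀ a, Cfsg.quadFormMinus (d - 1) F a₀ b₀ (v a) = 0) ∧
    (∀ a b, QuadraticMap.polar (Cfsg.quadFormMinus (d - 1) F a₀ b₀) (v a) (v b) = 0)}

/-- the number of totally singular `m`-spaces (as in the statement of S5987) -/
noncomputable def NTS (d : ℕ) (F : Type u) [Field F] (a₀ b₀ : F) (m : ℕ) : ℕ :=
  Nat.card {W : Submodule F (M d → F) //
    Module.finrank F ↥W = m ∧ (∀ w ∈ W, Cfsg.quadFormMinus (d - 1) F a₀ b₀ w = 0)}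

/-! ## Base pieces (adapt the S5972 / S5992 piece of the same name) -/

/-- TOP (minus, ALL `q`): the standard minus form is nondegenerate (`Helper44.NegPairs.sep_minusQ`;
`q` odd: helper45's landed `TopNDM`) and NOT of plus type: no totally singular subspace `U` with
`2 finrank U = finrank ⊤` (`finrank (M d → F) = 2 d` for `1 ≤ d`; note `M 0 = M 1`).
Tools: `OTyp3.sing_minus` vs `OTyp1.card_P`, `NP_ne_NM`; the S5973 piece TPTSHALF argument. -/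
def Top : Prop :=
  ∀ (F : Type u) [Field F] [Fintype F] (a₀ b₀ : F) (_ : Aniso a₀ b₀) (d : ℕ),
    NDegM d F a₀ b₀ ⊤ ∧ ¬ PlusM d F a₀ b₀ ⊤

/-- TSEX (minus): totally singular `m`-spaces exist for `m ≤ d - 1` (span of
`Pi.single (inl (inl a)) 1`, `a < m`). -/
def TsEx : Prop :=
  ∀ (F : Type u) [Field F] [Fintype F] (a₀ b₀ : F) (_ : Aniso a₀ b₀) (d m : ℕ), m + 1 ≤ d →
    ∃ W : Submodule F (M d → F), Module.finrank F ↥W = m ∧ TSubM d F a₀ b₀ W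

/-- FIXND (adapt Helper78.HypFIXND; main : Top → FixND): `V = Fx ⊕ range (x - 1)`, orthogonal. -/

def FixND : Prop :=
  ∀ (F : Type u) [Field F] [Fintype F] (a₀ b₀ : F) (_ : Aniso a₀ b₀) (p : ℕ) [Fact p.Prime] [CharP F p],
    ∀ (d : ℕ) (r : ℕ) [Fact r.Prime], r ≠ p →
    ∀ x : Matrix.GeneralLinearGroup (M d) F, x ∈ Cfsg.isometryGroup F (Cfsg.quadFormMinus (d - 1) F a₀ b₀) →
    x ^ r = 1 → NDegM d F a₀ b₀ (FxM (x : Matrix (M d) (M d) F))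

/-- INVDIM (adapt Helper82.HypINVDIM). -/

def InvDim : Prop :=
  ∀ (F : Type u) [Field F] [Fintype F] (a₀ b₀ : F) (_ : Aniso a₀ b₀) (p : ℕ) [Fact p.Prime] [CharP F p]
    (d : ℕ) (r : ℕ) [Fact r.Prime], r ≠ p →
    ∀ x : Matrix.GeneralLinearGroup (M d) F, x ^ r = 1 →
    ∀ R : Submodule F (M d → F), StabM (x : Matrix (M d) (M d) F) R →
    R ⊓ FxM (x : Matrix (M d) (M d) F) = ⊥ →
    orderOf ((Fintype.card F : ℕ) : ZMod r) ∣ Module.finrank F ↥R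

/-- PERP (adapt Helper82.HypPERP; main : Top → Perp). -/

def Perp : Prop :=
  ∀ (F : Type u) [Field F] [Fintype F] (a₀ b₀ : F) (_ : Aniso a₀ b₀), ∀ (d : ℕ), 1 ≤ d → ∀
    (G : Submodule F (M d → F)), NDegM d F a₀ b₀ G →
    ∃ Y : Submodule F (M d → F),
      (∀ g ∈ G, ∀ y ∈ Y, QuadraticMap.polar (Cfsg.quadFormMinus (d - 1) F a₀ b₀) g y = 0) ∧
      NDegM d F a₀ b₀ Y ∧ G ⊓ Y = ⊥ ∧
      Module.finrank F ↥G + Module.finrank F ↥Y = 2 * d ∧
      ∀ x : Matrix.GeneralLinearGroup (M d) F,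
        x ∈ Cfsg.isometryGroup F (Cfsg.quadFormMinus (d - 1) F a₀ b₀) →
        StabM (x : Matrix (M d) (M d) F) G → StabM (x : Matrix (M d) (M d) F) Y

/-- RIMG (adapt Helper97.TSRIMG). -/

def RImg : Prop :=
  ∀ (F : Type u) [Field F] [Fintype F] (a₀ b₀ : F) (_ : Aniso a₀ b₀) (p : ℕ) [Fact p.Prime] [CharP F p]
    (d : ℕ) (r : ℕ) [Fact r.Prime], r ≠ p →
    ∀ x : Matrix.GeneralLinearGroup (M d) F, x ^ r = 1 →
    ∀ W : Submodule F (M d → F), StabM (x : Matrix (M d) (M d) F) W →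
    ∃ R : Submodule F (M d → F), R ≤ W ∧ StabM (x : Matrix (M d) (M d) F) R ∧
      R ⊓ FxM (x : Matrix (M d) (M d) F) = ⊥ ∧
      Module.finrank F ↥R + Module.finrank F ↥(W ⊓ FxM (x : Matrix (M d) (M d) F)) =
        Module.finrank F ↥W ∧
      ∀ v ∈ R, ∃ w ∈ W, v = (x : Matrix (M d) (M d) F) *ᵥ w - w

/-- TSHALF (adapt Helper97.TSTSHALF): `U` totally singular gives `B = 0` on `U`
(`polar u v = Q (u+v) - Q u - Q v`). -/

def TsHalf : Prop :=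
  ∀ (F : Type u) [Field F] [Fintype F] (a₀ b₀ : F) (_ : Aniso a₀ b₀), ∀ (d : ℕ)
    (Y U : Submodule F (M d → F)), NDegM d F a₀ b₀ Y → U ≤ Y → TSubM d F a₀ b₀ U →
    2 * Module.finrank F ↥U ≤ Module.finrank F ↥Y

/-- TSIN (adapt Helper8.TSTSIN; `OEmb.exists_embedding` / `QSpace.exists_singular` +
`exists_hyp_pair` are char-free). -/

def TsIn : Prop :=
  ∀ (F : Type u) [Field F] [Fintype F] (a₀ b₀ : F) (_ : Aniso a₀ b₀), ∀ (d : ℕ)
    (Y : Submodule F (M d → F)) (j : ℕ), NDegM d F a₀ b₀ Y → 2 * j < Module.finrank F ↥Y →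
    ∃ U : Submodule F (M d → F), U ≤ Y ∧ TSubM d F a₀ b₀ U ∧ Module.finrank F ↥U = j

/-- ORTHSUM (adapt Helper97.TSORTHSUM). -/

def OrthSum : Prop :=
  ∀ (F : Type u) [Field F] [Fintype F] (a₀ b₀ : F) (_ : Aniso a₀ b₀), ∀ (d : ℕ)
    (A B : Submodule F (M d → F)), NDegM d F a₀ b₀ A → NDegM d F a₀ b₀ B →
    (∀ u ∈ A, ∀ v ∈ B, QuadraticMap.polar (Cfsg.quadFormMinus (d - 1) F a₀ b₀) u v = 0) →
    NDegM d F a₀ b₀ (A ⊔ B) ∧ A ⊓ B = ⊥ ∧
      Module.finrank F ↥(A ⊔ B) = Module.finrank F ↥A + Module.finrank F ↥B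

/-- SUBPERP (adapt Helper97.TSSUBPERP / Helper47.TSSUBPERP). -/

def SubPerp : Prop :=
  ∀ (F : Type u) [Field F] [Fintype F] (a₀ b₀ : F) (_ : Aniso a₀ b₀), ∀ (d : ℕ)
    (Y B : Submodule F (M d → F)), NDegM d F a₀ b₀ Y → NDegM d F a₀ b₀ B → B ≤ Y →
    ∃ Y' : Submodule F (M d → F), Y' ≤ Y ∧ NDegM d F a₀ b₀ Y' ∧ B ⊓ Y' = ⊥ ∧
      (∀ b ∈ B, ∀ y ∈ Y', QuadraticMap.polar (Cfsg.quadFormMinus (d - 1) F a₀ b₀) b y = 0) ∧
      Module.finrank F ↥B + Module.finrank F ↥Y' = Module.finrank F ↥Y ∧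
      ∀ x : Matrix.GeneralLinearGroup (M d) F,
        x ∈ Cfsg.isometryGroup F (Cfsg.quadFormMinus (d - 1) F a₀ b₀) →
        StabM (x : Matrix (M d) (M d) F) Y → StabM (x : Matrix (M d) (M d) F) B →
        StabM (x : Matrix (M d) (M d) F) Y'

/-- TWOMINUSG (NEW, HARD, ALL `q`; replaces CANCEL of S5973; the `q` odd case is the piece
TM2TWOMINUS of the `r = 2` block, `Helper41.TMTwoStmt.TwoMinus`): `V = A ⊥ B`, both nondegenerate,
`finrank A` even: `A` or `B` is of plus type.  Otherwise both are of minus type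
(`QClass.exists_hyp_even`: hyperbolic part + anisotropic plane), then `A ⊥ B` has the number of
singular vectors of the plus type (level sets `N_ε(c) = q^(2e-1) - ε q^(e-1)`, `c ≠ 0`:
`QCount.card_plusForm_mul` / `card_hypForm_mul`; `OTyp1.card_P`, `card_M`, `NP_ne_NM`), i.e.
contains a totally singular `d`-space; but the minus form has none (TOP). -/
def TwoMinusG : Prop :=
  ∀ (F : Type u) [Field F] [Fintype F] (a₀ b₀ : F) (_ : Aniso a₀ b₀) (d : ℕ), 1 ≤ d →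
    ∀ A B : Submodule F (M d → F), NDegM d F a₀ b₀ A → NDegM d F a₀ b₀ B →
    (∀ u ∈ A, ∀ v ∈ B, QuadraticMap.polar (Cfsg.quadFormMinus (d - 1) F a₀ b₀) u v = 0) →
    A ⊔ B = ⊤ → Even (Module.finrank F ↥A) →
    PlusM d F a₀ b₀ A ∨ PlusM d F a₀ b₀ B

/-- TYPEEVEN (adapt Helper38.HypTYPEEVEN; `OTyp2.obs_even`, `OTyp1.card_P`, `card_M`, `NP_ne_NM`,
`QClass.exists_hyp_even` are char-free): `i` even, `E` invariant nondegenerate without fixed
vectors: plus type iff `finrank E / i` is even. -/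

def TypeEven : Prop :=
  ∀ (F : Type u) [Field F] [Fintype F] (a₀ b₀ : F) (_ : Aniso a₀ b₀) (p : ℕ) [Fact p.Prime] [CharP F p],
    ∀ (d : ℕ) (r : ℕ) [Fact r.Prime], r ≠ 2 → r ≠ p →
    Even (orderOf ((Fintype.card F : ℕ) : ZMod r)) →
    ∀ x : Matrix.GeneralLinearGroup (M d) F, x ∈ Cfsg.isometryGroup F (Cfsg.quadFormMinus (d - 1) F a₀ b₀) →
    x ^ r = 1 → ∀ E : Submodule F (M d → F), StabM (x : Matrix (M d) (M d) F) E → NDegM d F a₀ b₀ E →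
    E ⊓ FxM (x : Matrix (M d) (M d) F) = ⊥ →
    (PlusM d F a₀ b₀ E ↔
      Even (Module.finrank F ↥E / orderOf ((Fintype.card F : ℕ) : ZMod r)))

/-- HALFODD (adapt Helper8.TSHALFODD; `OTyp2.ts_ker` gives `Q = 0` on `ker P(x)`, `P ≠ P*`,
in every characteristic). -/

def HalfOdd : Prop :=
  ∀ (F : Type u) [Field F] [Fintype F] (a₀ b₀ : F) (_ : Aniso a₀ b₀) (p : ℕ) [Fact p.Prime] [CharP F p],
    ∀ (d : ℕ) (r : ℕ) [Fact r.Prime], r ≠ 2 → r ≠ p →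
    Odd (orderOf ((Fintype.card F : ℕ) : ZMod r)) →
    ∀ x : Matrix.GeneralLinearGroup (M d) F, x ∈ Cfsg.isometryGroup F (Cfsg.quadFormMinus (d - 1) F a₀ b₀) →
    x ^ r = 1 → ∀ E : Submodule F (M d → F), StabM (x : Matrix (M d) (M d) F) E → NDegM d F a₀ b₀ E →
    E ⊓ FxM (x : Matrix (M d) (M d) F) = ⊥ →
    ∃ U : Submodule F (M d → F), U ≤ E ∧ StabM (x : Matrix (M d) (M d) F) U ∧ TSubM d F a₀ b₀ U ∧
      2 * Module.finrank F ↥U = Module.finrank F ↥E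

/-- INVSUB: an invariant subspace `U` without fixed vectors contains invariant subspaces of
every finrank `i s ≤ finrank U`.  Induction on `s`: `x` is semisimple on `U`
(`Helper40.SSConj.isSemisimple_toLin'`), so an invariant `U' < U` has an invariant complement `C`
in `U`; take `v ≠ 0` in `C` killed by an irreducible factor `P` of the cyclotomic polynomial
(`C = ⊕ ker P(x) ⊓ C`); `span {x^a v}` has finrank `≤ deg P = i` and `≥ i` (InvDim). -/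
def InvSub : Prop :=
  ∀ (F : Type u) [Field F] [Fintype F] (a₀ b₀ : F) (_ : Aniso a₀ b₀) (p : ℕ) [Fact p.Prime] [CharP F p]
    (d : ℕ) (r : ℕ) [Fact r.Prime], r ≠ p →
    ∀ x : Matrix.GeneralLinearGroup (M d) F, x ^ r = 1 →
    ∀ U : Submodule F (M d → F), StabM (x : Matrix (M d) (M d) F) U →
    U ⊓ FxM (x : Matrix (M d) (M d) F) = ⊥ → ∀ s : ℕ,
    orderOf ((Fintype.card F : ℕ) : ZMod r) * s ≤ Module.finrank F ↥U →
    ∃ U' : Submodule F (M d → F), U' ≤ U ∧ StabM (x : Matrix (M d) (M d) F) U' ∧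
      Module.finrank F ↥U' = orderOf ((Fintype.card F : ℕ) : ZMod r) * s

/-- FXTYPE (minus; main : Top → FixND → Perp → InvDim → HalfOdd → TypeEven → TwoMinusG → FxType):
the type of the fixed space.  `E` = Perp of `Fx` (FixND): invariant, nondegenerate, `E ⊓ Fx = ⊥`,
`finrank E = 2 d - finrank Fx`, `Fx ⊔ E = ⊤` (dimensions).  `Plus Fx ∧ Plus E` is impossible: the
sum of the two totally singular halves is totally singular (`E ⊥ Fx`) of finrank `d`, against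
Top (`¬ Plus ⊤`).  `i` odd: HalfOdd gives `Plus E`, so `¬ Plus Fx`.  `i` even: TypeEven:
`Plus E ↔ Even (finrank E / i)`; `Plus Fx → ¬ Plus E → Odd (finrank E / i)`; conversely
`Odd (finrank E / i)` gives `¬ Plus E`, and TwoMinusG (`A = E`, `finrank E` even by InvDim,
`B = Fx`) gives `Plus Fx`. -/
def FxType : Prop :=
  ∀ (F : Type u) [Field F] [Fintype F] (a₀ b₀ : F) (_ : Aniso a₀ b₀) (p : ℕ) [Fact p.Prime] [CharP F p],
    ∀ (d : ℕ) (r : ℕ) [Fact r.Prime], 1 ≤ d → r ≠ 2 → r ≠ p →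
    ∀ x : Matrix.GeneralLinearGroup (M d) F, x ∈ Cfsg.isometryGroup F (Cfsg.quadFormMinus (d - 1) F a₀ b₀) →
    x ^ r = 1 →
    (PlusM d F a₀ b₀ (FxM (x : Matrix (M d) (M d) F)) ↔
      (Even (orderOf ((Fintype.card F : ℕ) : ZMod r)) ∧
        Odd ((2 * d - Module.finrank F ↥(FxM (x : Matrix (M d) (M d) F))) /
          orderOf ((Fintype.card F : ℕ) : ZMod r))))

/-! ## `i` even: invariant totally singular subspaces (adapt the S5972 pieces) -/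

/-- BFE (adapt Helper43.HypBFE / Helper38.HypBFE). -/

def BlockFindE : Prop :=
  ∀ (F : Type u) [Field F] [Fintype F] (a₀ b₀ : F) (_ : Aniso a₀ b₀) (p : ℕ) [Fact p.Prime] [CharP F p],
    ∀ (d : ℕ) (r : ℕ) [Fact r.Prime], r ≠ 2 → r ≠ p →
    Even (orderOf ((Fintype.card F : ℕ) : ZMod r)) →
    ∀ x : Matrix.GeneralLinearGroup (M d) F, x ∈ Cfsg.isometryGroup F (Cfsg.quadFormMinus (d - 1) F a₀ b₀) →
    x ^ r = 1 → ∀ Y : Submodule F (M d → F), StabM (x : Matrix (M d) (M d) F) Y → NDegM d F a₀ b₀ Y →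
    Y ⊓ FxM (x : Matrix (M d) (M d) F) = ⊥ → Y ≠ ⊥ →
    ∃ B : Submodule F (M d → F), B ≤ Y ∧ StabM (x : Matrix (M d) (M d) F) B ∧ NDegM d F a₀ b₀ B ∧
      Module.finrank F ↥B = orderOf ((Fintype.card F : ℕ) : ZMod r)

/-- BLOCKSK (adapt Helper66.TSBLOCKSK; main : SubPerp → BlockFindE → BlocksK). -/

def BlocksK : Prop :=
  ∀ (F : Type u) [Field F] [Fintype F] (a₀ b₀ : F) (_ : Aniso a₀ b₀) (p : ℕ) [Fact p.Prime] [CharP F p],
    ∀ (d : ℕ) (r : ℕ) [Fact r.Prime], r ≠ 2 → r ≠ p →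
    Even (orderOf ((Fintype.card F : ℕ) : ZMod r)) →
    ∀ x : Matrix.GeneralLinearGroup (M d) F, x ∈ Cfsg.isometryGroup F (Cfsg.quadFormMinus (d - 1) F a₀ b₀) →
    x ^ r = 1 → ∀ Y : Submodule F (M d → F), StabM (x : Matrix (M d) (M d) F) Y → NDegM d F a₀ b₀ Y →
    Y ⊓ FxM (x : Matrix (M d) (M d) F) = ⊥ → ∀ k : ℕ,
    k * orderOf ((Fintype.card F : ℕ) : ZMod r) ≤ Module.finrank F ↥Y →
    ∃ Bs : Fin k → Submodule F (M d → F),
      (∀ a, Bs a ≤ Y ∧ StabM (x : Matrix (M d) (M d) F) (Bs a) ∧ NDegM d F a₀ b₀ (Bs a) ∧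
        Module.finrank F ↥(Bs a) = orderOf ((Fintype.card F : ℕ) : ZMod r)) ∧
      ∀ a b, a ≠ b → ∀ u ∈ Bs a, ∀ v ∈ Bs b,
        QuadraticMap.polar (Cfsg.quadFormMinus (d - 1) F a₀ b₀) u v = 0

/-- TYPEOF (adapt Helper76.TSTYPEOF; main : InvDim → TypeOf). -/

def TypeOf : Prop :=
  ∀ (F : Type u) [Field F] [Fintype F] (a₀ b₀ : F) (_ : Aniso a₀ b₀) (p : ℕ) [Fact p.Prime] [CharP F p]
    (d : ℕ) (r : ℕ) [Fact r.Prime], r ≠ p →
    ∀ x : Matrix.GeneralLinearGroup (M d) F, x ^ r = 1 →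
    ∀ B : Submodule F (M d → F), StabM (x : Matrix (M d) (M d) F) B →
    B ⊓ FxM (x : Matrix (M d) (M d) F) = ⊥ →
    Module.finrank F ↥B = orderOf ((Fintype.card F : ℕ) : ZMod r) →
    ∃ P ∈ Fac r F, Kills (x : Matrix (M d) (M d) F) P B

/-- PAIRE (adapt Helper97.TSPAIRE / Helper43.TSPAIRE / Helper34.TSPAIRE; you may put `InvDim`,
`TypeEven`, `OrthSum`, `TsHalf`, `IPos` in front).  Characteristic two, counting route: a line
`L = span {x^a w}` with `B = 0` on `L` is totally singular: `Q` is additive on `L` and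
`Q ((x - 1) u) = 2 Q u - B (x u, u) = 0`, `x - 1` invertible on `L`. -/

def PairE : Prop :=
  ∀ (F : Type u) [Field F] [Fintype F] (a₀ b₀ : F) (_ : Aniso a₀ b₀) (p : ℕ) [Fact p.Prime] [CharP F p],
    ∀ (d : ℕ) (r : ℕ) [Fact r.Prime], r ≠ 2 → r ≠ p →
    Even (orderOf ((Fintype.card F : ℕ) : ZMod r)) →
    ∀ x : Matrix.GeneralLinearGroup (M d) F, x ∈ Cfsg.isometryGroup F (Cfsg.quadFormMinus (d - 1) F a₀ b₀) →
    x ^ r = 1 → ∀ P ∈ Fac r F, ∀ B₁ B₂ : Submodule F (M d → F),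
    StabM (x : Matrix (M d) (M d) F) B₁ → StabM (x : Matrix (M d) (M d) F) B₂ →
    NDegM d F a₀ b₀ B₁ → NDegM d F a₀ b₀ B₂ →
    B₁ ⊓ FxM (x : Matrix (M d) (M d) F) = ⊥ → B₂ ⊓ FxM (x : Matrix (M d) (M d) F) = ⊥ →
    Module.finrank F ↥B₁ = orderOf ((Fintype.card F : ℕ) : ZMod r) →
    Module.finrank F ↥B₂ = orderOf ((Fintype.card F : ℕ) : ZMod r) →
    (∀ u ∈ B₁, ∀ v ∈ B₂, QuadraticMap.polar (Cfsg.quadFormMinus (d - 1) F a₀ b₀) u v = 0) →
    Kills (x : Matrix (M d) (M d) F) P B₁ → Kills (x : Matrix (M d) (M d) F) P B₂ →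
    ∃ U : Submodule F (M d → F), U ≤ B₁ ⊔ B₂ ∧ StabM (x : Matrix (M d) (M d) F) U ∧
      TSubM d F a₀ b₀ U ∧ Module.finrank F ↥U = orderOf ((Fintype.card F : ℕ) : ZMod r)

/-- PAIRFIND (adapt Helper66.TSPAIRFIND;
main : IPos → NumTypes → TypeOf → PairE → OrthSum → BlocksK → PairFind). -/

def PairFind : Prop :=
  ∀ (F : Type u) [Field F] [Fintype F] (a₀ b₀ : F) (_ : Aniso a₀ b₀) (p : ℕ) [Fact p.Prime] [CharP F p],
    ∀ (d : ℕ) (r : ℕ) [Fact r.Prime], r ≠ 2 → r ≠ p →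
    Even (orderOf ((Fintype.card F : ℕ) : ZMod r)) →
    ∀ x : Matrix.GeneralLinearGroup (M d) F, x ∈ Cfsg.isometryGroup F (Cfsg.quadFormMinus (d - 1) F a₀ b₀) →
    x ^ r = 1 → ∀ Y : Submodule F (M d → F), StabM (x : Matrix (M d) (M d) F) Y → NDegM d F a₀ b₀ Y →
    Y ⊓ FxM (x : Matrix (M d) (M d) F) = ⊥ →
    orderOf ((Fintype.card F : ℕ) : ZMod r) *
      ((r - 1) / orderOf ((Fintype.card F : ℕ) : ZMod r) + 1) ≤ Module.finrank F ↥Y →
    ∃ U G : Submodule F (M d → F), U ≤ G ∧ G ≤ Y ∧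
      StabM (x : Matrix (M d) (M d) F) U ∧ TSubM d F a₀ b₀ U ∧
      Module.finrank F ↥U = orderOf ((Fintype.card F : ℕ) : ZMod r) ∧
      StabM (x : Matrix (M d) (M d) F) G ∧ NDegM d F a₀ b₀ G ∧
      Module.finrank F ↥G = 2 * orderOf ((Fintype.card F : ℕ) : ZMod r)

/-- TSEVEN (adapt Helper37.TSTSEVEN; main : FixND → Perp → OrthSum → PairFind → TsEven). -/

def TsEven : Prop :=
  ∀ (F : Type u) [Field F] [Fintype F] (a₀ b₀ : F) (_ : Aniso a₀ b₀) (p : ℕ) [Fact p.Prime] [CharP F p],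
    ∀ (d : ℕ) (r : ℕ) [Fact r.Prime], 1 ≤ d → r ≠ 2 → r ≠ p →
    Even (orderOf ((Fintype.card F : ℕ) : ZMod r)) →
    ∀ x : Matrix.GeneralLinearGroup (M d) F, x ∈ Cfsg.isometryGroup F (Cfsg.quadFormMinus (d - 1) F a₀ b₀) →
    x ^ r = 1 → ∀ s : ℕ,
    (s = 0 ∨ orderOf ((Fintype.card F : ℕ) : ZMod r) *
        (2 * s + (r - 1) / orderOf ((Fintype.card F : ℕ) : ZMod r)) +
        Module.finrank F ↥(FxM (x : Matrix (M d) (M d) F)) ≤
      2 * d + orderOf ((Fintype.card F : ℕ) : ZMod r)) →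
    ∃ U : Submodule F (M d → F), StabM (x : Matrix (M d) (M d) F) U ∧ TSubM d F a₀ b₀ U ∧
      Module.finrank F ↥U = orderOf ((Fintype.card F : ℕ) : ZMod r) * s ∧
      U ⊓ FxM (x : Matrix (M d) (M d) F) = ⊥ ∧
      ∀ u ∈ U, ∀ v ∈ FxM (x : Matrix (M d) (M d) F),
        QuadraticMap.polar (Cfsg.quadFormMinus (d - 1) F a₀ b₀) u v = 0

/-! ## Counting -/

/-- FRFIB (adapt Helper4.TSFRFIB): frames fibre over their spans. -/
def FrFib : Prop :=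
  ∀ (F : Type u) [Field F] [Fintype F] (a₀ b₀ : F) (_ : Aniso a₀ b₀) (d m : ℕ),
    Nat.card (TFr d F a₀ b₀ m) =
      NTS d F a₀ b₀ m * ∏ j ∈ Finset.range m, (Fintype.card F ^ m - Fintype.card F ^ j)

/-- SINGCNT (minus; adapt the S5973 piece TPSINGCNT / Helper37.TSSINGCNT): the singular vectors
orthogonal to a t.s. frame of length `j ≤ d - 1` number `q^(d-1) (q^(d-j) - q + 1)`
(`= q^j (q^(2e-1) - q^e + q^(e-1))`, `e = d - j`).  Complete the frame to hyperbolic pairs,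
`V = H ⊥ V'`; `u ⊥ e` iff `u = Σ α_a e_a + v'`, `Q u = Q v'`; `V'` is of MINUS type of dimension
`2 (d - j)` with `q^(2e-1) - q^e + q^(e-1)` singular vectors (`OTyp1.card_M`, `OTyp3.sing_minus`).
Or Witt: move the frame to `Pi.single (inl (inl a)) 1`, `a < j`, and count there. -/
def SingCnt : Prop :=
  ∀ (F : Type u) [Field F] [Fintype F] (a₀ b₀ : F) (_ : Aniso a₀ b₀) (d j : ℕ), j + 1 ≤ d → ∀ v : TFr d F a₀ b₀ j,
    Nat.card {u : M d → F // Cfsg.quadFormMinus (d - 1) F a₀ b₀ u = 0 ∧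
        ∀ a, QuadraticMap.polar (Cfsg.quadFormMinus (d - 1) F a₀ b₀) (v.1 a) u = 0} =
      Fintype.card F ^ (d - 1) * (Fintype.card F ^ (d - j) - Fintype.card F + 1)

/-- FREXT (minus; adapt TPFREXT; main : SingCnt → FrExt): one more vector: singular, orthogonal
to the frame, outside its span (`q^j` vectors);
`q^(d-1) (q^(d-j) - q + 1) - q^j = q^j (q^(d-j) + 1) (q^(d-1-j) - 1)`. -/
def FrExt : Prop :=
  ∀ (F : Type u) [Field F] [Fintype F] (a₀ b₀ : F) (_ : Aniso a₀ b₀) (d j : ℕ), j < d →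
    Nat.card (TFr d F a₀ b₀ (j + 1)) =
      Nat.card (TFr d F a₀ b₀ j) *
        (Fintype.card F ^ j * ((Fintype.card F ^ (d - j) + 1) * (Fintype.card F ^ (d - 1 - j) - 1)))

/-- CNTID (minus; adapt TPCNTID; main : FrFib → FrExt → CntId). -/
def CntId : Prop :=
  ∀ (F : Type u) [Field F] [Fintype F] (a₀ b₀ : F) (_ : Aniso a₀ b₀) (d m : ℕ), m ≤ d →
    NTS d F a₀ b₀ m * ∏ j ∈ Finset.range m, (Fintype.card F ^ (m - j) - 1) =
      ∏ j ∈ Finset.range m, ((Fintype.card F ^ (d - j) + 1) * (Fintype.card F ^ (d - 1 - j) - 1))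

/-- NDARITH (minus; arithmetic, adapt TPNDARITH): `r` divides a factor `q^(d-j) + 1` or
`q^(d-1-j) - 1`, `j < m ≤ d - 1` (both exponents are `≥ 1`).  `r ∣ q` is impossible.
`r ∣ q^a - 1` (`a = d - 1 - j`) gives `i ∣ a`; `r ∣ q^a + 1` (`a = d - j`), `r` odd: `q^a = -1 ≠ 1`,
so `i ∣ 2 a`, `¬ i ∣ a`, hence `i` even. -/
def NdArith : Prop :=
  ∀ (q d m r : ℕ), r.Prime → 2 ≤ q → 1 ≤ m → m < d →
    r ∣ ∏ j ∈ Finset.range m, ((q ^ (d - j) + 1) * (q ^ (d - 1 - j) - 1)) →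
    ¬ r ∣ q ∧
    (r ≠ 2 → ∃ j, j < m ∧
      (orderOf ((q : ℕ) : ZMod r) ∣ d - 1 - j ∨
        (Even (orderOf ((q : ℕ) : ZMod r)) ∧ orderOf ((q : ℕ) : ZMod r) ∣ 2 * (d - j) ∧
          ¬ orderOf ((q : ℕ) : ZMod r) ∣ d - j)))

/-! ## Elements of odd prime order `r ≠ p` -/

/-- ODDOMEGA: isometries of odd order lie in `Omega`.  `x = y * y`, `y = x ^ ((r+1)/2)`.
`q` odd: `Helper14.OrthIndex.sq_mem_omega` (`NegPairs.sep_plusQ`, `coe_plusQ`).  `q` even: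
`Der3.mem_comm_of_odd_pow` with `Good (plusQ d F)` as in `Der3.plus_points`
(`good_of_card hS (Or.inr ..)`), `OMat.mem_omega_iff`, `Der3.mem_omegaGL_iff`. -/
def OddOmega : Prop :=
  ∀ (F : Type u) [Field F] [Fintype F] (a₀ b₀ : F) (_ : Aniso a₀ b₀) (d : ℕ), 3 ≤ d → ∀ r : ℕ, Odd r →
    ∀ x : Matrix.GeneralLinearGroup (M d) F, x ∈ Cfsg.isometryGroup F (Cfsg.quadFormMinus (d - 1) F a₀ b₀) →
    x ^ r = 1 → x ∈ Cfsg.Geo.omegaGL (Cfsg.quadFormMinus (d - 1) F a₀ b₀)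

/-- ELTDIM (minus; adapt the S5973 piece TPELTDIM / Helper59.HypDERELT; you may put `OddOmega` in
front): an element of `Omega` of order `r` with `b` blocks of size `cc i` and fixed space of
finrank `2 d - b cc i`.  `c' = block ^ b` is `Real`; if `b cc i < 2 d` embed
(`OEmb.exists_embedding`, strictly smaller even dimension) and extend (`OExt.exists_ext`); if
`b cc i = 2 d` the space of `c'` must be of MINUS type: `i` even and `b` odd (`OTyp3.obs_matrix`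
second branch, `OTyp3.sing_minus`, `OTyp1.exists_iso`, as `hreal` in `Cfsg.Agent.S2675`). -/
def EltDim : Prop :=
  ∀ (F : Type u) [Field F] [Fintype F] (a₀ b₀ : F) (_ : Aniso a₀ b₀) (p : ℕ) [Fact p.Prime] [CharP F p]
    (d : ℕ), 3 ≤ d → ∀ (r : ℕ) [Fact r.Prime], r ≠ 2 → r ≠ p → ∀ b : ℕ, 1 ≤ b →
    b * cc (orderOf ((Fintype.card F : ℕ) : ZMod r)) ≤ 2 * d →
    (b * cc (orderOf ((Fintype.card F : ℕ) : ZMod r)) = 2 * d →
      Even (orderOf ((Fintype.card F : ℕ) : ZMod r)) ∧ Odd b) →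
    ∃ x : Matrix.GeneralLinearGroup (M d) F, x ∈ Cfsg.Geo.omegaGL (Cfsg.quadFormMinus (d - 1) F a₀ b₀) ∧
      x ^ r = 1 ∧
      Module.finrank F ↥(FxM (x : Matrix (M d) (M d) F)) =
        2 * d - b * cc (orderOf ((Fintype.card F : ℕ) : ZMod r))

/-- MULTELT (adapt Helper59.TSMULTELT / Helper14.TSMULTELT; you may put `OddOmega`, `InvDim` in
front): `i` even, `u ≤ (r-1)/i` blocks with pairwise different irreducible factors, `i u < 2 d`
(so the embedding is into a strictly larger space). -/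
def MultElt : Prop :=
  ∀ (F : Type u) [Field F] [Fintype F] (a₀ b₀ : F) (_ : Aniso a₀ b₀) (p : ℕ) [Fact p.Prime] [CharP F p]
    (d : ℕ), 3 ≤ d → ∀ (r : ℕ) [Fact r.Prime], r ≠ 2 → r ≠ p →
    Even (orderOf ((Fintype.card F : ℕ) : ZMod r)) →
    ∀ u : ℕ, 1 ≤ u → u ≤ (r - 1) / orderOf ((Fintype.card F : ℕ) : ZMod r) →
    orderOf ((Fintype.card F : ℕ) : ZMod r) * u < 2 * d →
    ∃ x : Matrix.GeneralLinearGroup (M d) F, x ∈ Cfsg.Geo.omegaGL (Cfsg.quadFormMinus (d - 1) F a₀ b₀) ∧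
      x ^ r = 1 ∧
      Module.finrank F ↥(FxM (x : Matrix (M d) (M d) F)) =
        2 * d - orderOf ((Fintype.card F : ℕ) : ZMod r) * u ∧
      ∀ R : Submodule F (M d → F), StabM (x : Matrix (M d) (M d) F) R →
        R ⊓ FxM (x : Matrix (M d) (M d) F) = ⊥ → TSubM d F a₀ b₀ R → R = ⊥

/-! ## Odd `r ≠ p`: elements without fixed totally singular `m`-space -/

/-- BADA (minus; main : EltDim → FixND → TsHalf → RImg → InvDim → BadA; as TPBADA).  `x` from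
EltDim.  An invariant t.s. `W` of finrank `m`: RImg gives `R`, InvDim `finrank R = i s`,
`i s ≤ m`, `finrank (W ⊓ Fx) = m - i s`, TsHalf in `Fx` (FixND): `2 (m - i s) ≤ 2 d - b cc i`. -/
def BadA : Prop :=
  ∀ (F : Type u) [Field F] [Fintype F] (a₀ b₀ : F) (_ : Aniso a₀ b₀) (p : ℕ) [Fact p.Prime] [CharP F p]
    (d m : ℕ), 3 ≤ d → ∀ (r : ℕ) [Fact r.Prime], r ≠ 2 → r ≠ p → ∀ b : ℕ, 1 ≤ b →
    b * cc (orderOf ((Fintype.card F : ℕ) : ZMod r)) ≤ 2 * d →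
    (b * cc (orderOf ((Fintype.card F : ℕ) : ZMod r)) = 2 * d →
      Even (orderOf ((Fintype.card F : ℕ) : ZMod r)) ∧ Odd b) →
    (∀ s : ℕ, orderOf ((Fintype.card F : ℕ) : ZMod r) * s ≤ m →
      2 * d - b * cc (orderOf ((Fintype.card F : ℕ) : ZMod r)) <
        2 * (m - orderOf ((Fintype.card F : ℕ) : ZMod r) * s)) →
    ∃ x : Matrix.GeneralLinearGroup (M d) F, x ∈ Cfsg.Geo.omegaGL (Cfsg.quadFormMinus (d - 1) F a₀ b₀) ∧
      x ^ r = 1 ∧ ¬ FixTSM d m F a₀ b₀ (x : Matrix (M d) (M d) F)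

/-- BADB (minus; main : IPos → EltDim → FixND → FxType → TsHalf → RImg → InvDim → BadB).
`i` odd (any `b`) or `b` even, and `b cc i < 2 d`: `x` from EltDim; `Fx` (finrank `2 d - b cc i`,
even) is NOT of plus type (FxType: `Plus Fx ↔ Even i ∧ Odd ((2 d - finrank Fx) / i)`, and
`(2 d - finrank Fx) / i = b` for `i` even): a t.s. subspace of `Fx` has `2 f ≠ finrank Fx`, so
`2 f + 2 ≤ finrank Fx`.  Then as BadA. -/
def BadB : Prop :=
  ∀ (F : Type u) [Field F] [Fintype F] (a₀ b₀ : F) (_ : Aniso a₀ b₀) (p : ℕ) [Fact p.Prime] [CharP F p]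
    (d m : ℕ), 3 ≤ d → ∀ (r : ℕ) [Fact r.Prime], r ≠ 2 → r ≠ p → ∀ b : ℕ, 1 ≤ b →
    (Odd (orderOf ((Fintype.card F : ℕ) : ZMod r)) ∨ Even b) →
    b * cc (orderOf ((Fintype.card F : ℕ) : ZMod r)) < 2 * d →
    (∀ s : ℕ, orderOf ((Fintype.card F : ℕ) : ZMod r) * s ≤ m →
      2 * d - b * cc (orderOf ((Fintype.card F : ℕ) : ZMod r)) <
        2 * (m - orderOf ((Fintype.card F : ℕ) : ZMod r) * s) + 2) →
    ∃ x : Matrix.GeneralLinearGroup (M d) F, x ∈ Cfsg.Geo.omegaGL (Cfsg.quadFormMinus (d - 1) F a₀ b₀) ∧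
      x ^ r = 1 ∧ ¬ FixTSM d m F a₀ b₀ (x : Matrix (M d) (M d) F)

/-- BADC (main : MultElt → FixND → TsHalf → RImg → BadC).  `x` from MultElt; RImg's `R ≤ W` is
t.s., so `R = ⊥`, `W ≤ Fx`, TsHalf: `2 m ≤ 2 d - i u`. -/
def BadC : Prop :=
  ∀ (F : Type u) [Field F] [Fintype F] (a₀ b₀ : F) (_ : Aniso a₀ b₀) (p : ℕ) [Fact p.Prime] [CharP F p]
    (d m : ℕ), 3 ≤ d → ∀ (r : ℕ) [Fact r.Prime], r ≠ 2 → r ≠ p →
    Even (orderOf ((Fintype.card F : ℕ) : ZMod r)) →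
    ∀ u : ℕ, 1 ≤ u → u ≤ (r - 1) / orderOf ((Fintype.card F : ℕ) : ZMod r) →
    orderOf ((Fintype.card F : ℕ) : ZMod r) * u < 2 * d →
    2 * d - orderOf ((Fintype.card F : ℕ) : ZMod r) * u < 2 * m →
    ∃ x : Matrix.GeneralLinearGroup (M d) F, x ∈ Cfsg.Geo.omegaGL (Cfsg.quadFormMinus (d - 1) F a₀ b₀) ∧
      x ^ r = 1 ∧ ¬ FixTSM d m F a₀ b₀ (x : Matrix (M d) (M d) F)

/-- BADD (minus; main : IPos → MultElt → FixND → FxType → TsHalf → RImg → BadD).  As BadC with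
`u` EVEN: `Fx` (finrank `2 d - i u`) is not of plus type (FxType), so `2 m + 2 ≤ 2 d - i u`. -/
def BadD : Prop :=
  ∀ (F : Type u) [Field F] [Fintype F] (a₀ b₀ : F) (_ : Aniso a₀ b₀) (p : ℕ) [Fact p.Prime] [CharP F p]
    (d m : ℕ), 3 ≤ d → ∀ (r : ℕ) [Fact r.Prime], r ≠ 2 → r ≠ p →
    Even (orderOf ((Fintype.card F : ℕ) : ZMod r)) →
    ∀ u : ℕ, Even u → 1 ≤ u → u ≤ (r - 1) / orderOf ((Fintype.card F : ℕ) : ZMod r) →
    orderOf ((Fintype.card F : ℕ) : ZMod r) * u < 2 * d →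
    2 * d - orderOf ((Fintype.card F : ℕ) : ZMod r) * u < 2 * m + 2 →
    ∃ x : Matrix.GeneralLinearGroup (M d) F, x ∈ Cfsg.Geo.omegaGL (Cfsg.quadFormMinus (d - 1) F a₀ b₀) ∧
      x ^ r = 1 ∧ ¬ FixTSM d m F a₀ b₀ (x : Matrix (M d) (M d) F)

/-- B2LOW (minus; main : IPos → BadA → BadB → B2Low): `m < i` (only `s = 0` has `i s ≤ m`).
`i ∣ d - 1 - j`, `a = (d - 1 - j) / i ≥ 1`: BadB with `b = a` (`i` odd, `cc i = 2 i`) or
`b = 2 a` (`i` even, `b` even): `b cc i = 2 (d - 1 - j) < 2 d`, and `2 j + 2 < 2 m + 2`.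
`i` even, `i ∣ 2 (d - j)`, `¬ i ∣ d - j`: `b = 2 (d - j) / i` is odd, `b i = 2 (d - j) ≤ 2 d`
(equality allowed: `i` even, `b` odd): BadA (`2 j < 2 m`). -/
def B2Low : Prop :=
  ∀ (F : Type u) [Field F] [Fintype F] (a₀ b₀ : F) (_ : Aniso a₀ b₀) (p : ℕ) [Fact p.Prime] [CharP F p]
    (d m : ℕ), 3 ≤ d → 1 ≤ m → m < d → ∀ (r : ℕ) [Fact r.Prime], r ≠ 2 → r ≠ p →
    m < orderOf ((Fintype.card F : ℕ) : ZMod r) →
    (∃ j, j < m ∧
      (orderOf ((Fintype.card F : ℕ) : ZMod r) ∣ d - 1 - j ∨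
        (Even (orderOf ((Fintype.card F : ℕ) : ZMod r)) ∧
          orderOf ((Fintype.card F : ℕ) : ZMod r) ∣ 2 * (d - j) ∧
          ¬ orderOf ((Fintype.card F : ℕ) : ZMod r) ∣ d - j))) →
    ∃ x : Matrix.GeneralLinearGroup (M d) F, x ∈ Cfsg.Geo.omegaGL (Cfsg.quadFormMinus (d - 1) F a₀ b₀) ∧
      x ^ r = 1 ∧ ¬ FixTSM d m F a₀ b₀ (x : Matrix (M d) (M d) F)

/-- B2ODD (minus; main : IPos → BadB → B2Odd): `i` odd, `i ≤ m`, `k = (2 d) % (2 i) ≠ 0` and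
`k ≤ 2 (m % i)`: BadB with `b = d / i ≥ 1` (`cc i = 2 i`, `b cc i < 2 d` as `k ≠ 0`):
`2 d - 2 i (d / i) = k ≤ 2 (m % i) < 2 (m - i s) + 2`. -/
def B2Odd : Prop :=
  ∀ (F : Type u) [Field F] [Fintype F] (a₀ b₀ : F) (_ : Aniso a₀ b₀) (p : ℕ) [Fact p.Prime] [CharP F p]
    (d m : ℕ), 3 ≤ d → 1 ≤ m → m < d → ∀ (r : ℕ) [Fact r.Prime], r ≠ 2 → r ≠ p →
    Odd (orderOf ((Fintype.card F : ℕ) : ZMod r)) →
    orderOf ((Fintype.card F : ℕ) : ZMod r) ≤ m →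
    ¬ ((2 * d) % (2 * orderOf ((Fintype.card F : ℕ) : ZMod r)) = 0 ∨
        2 * (m % orderOf ((Fintype.card F : ℕ) : ZMod r)) <
          (2 * d) % (2 * orderOf ((Fintype.card F : ℕ) : ZMod r))) →
    ∃ x : Matrix.GeneralLinearGroup (M d) F, x ∈ Cfsg.Geo.omegaGL (Cfsg.quadFormMinus (d - 1) F a₀ b₀) ∧
      x ^ r = 1 ∧ ¬ FixTSM d m F a₀ b₀ (x : Matrix (M d) (M d) F)

/-- B2EVEN (minus; main : IPos → BadA → BadB → BadC → BadD → B2Even): `i` even, `i ≤ m`;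
`n' = 2d / i`, `k = 2d % i`, `m' = m / i ≥ 1`, `l = m % i`, `t = (r-1)/i ≥ 1` (`i ∣ r - 1`).
Cases (checked numerically by helper44 and by hand by helper41):
(1) `n' < t + 2 m'`: BadC with `u = n' + 1 - 2 m'` (`1 ≤ u ≤ t`, `i u ≤ 2 d - i`,
`2 d - i u = 2 i m' + k - i < 2 m`).
(2) else, `n'` odd (so `k < 2 l`): BadA with `b = n'` (`cc i = i`; if `b i = 2 d` then `i` even,
`b` odd as required; `2 (m - i s) ≥ 2 l > k`).
(3) else, `n'` even, `0 < k` (so `k ≤ 2 l`): BadB with `b = n'` (even, `b i < 2 d`;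
`2 (m - i s) + 2 ≥ 2 l + 2 > k`).
(4) else, `n'` even, `k = 0`, `i < 2 l`: BadA with `b = n' - 1` (odd, `≥ 1`; `2 d - b i = i`).
(5) else, `n'` even, `k = 0`, `2 l ≤ i`, `t + 2 m' = n'`: BadD with `u = t` (even, `≥ 2`,
`i t < 2 d`, `2 d - i t = 2 i m' < 2 m + 2`). -/
def B2Even : Prop :=
  ∀ (F : Type u) [Field F] [Fintype F] (a₀ b₀ : F) (_ : Aniso a₀ b₀) (p : ℕ) [Fact p.Prime] [CharP F p]
    (d m : ℕ), 3 ≤ d → 1 ≤ m → m < d → ∀ (r : ℕ) [Fact r.Prime], r ≠ 2 → r ≠ p →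
    Even (orderOf ((Fintype.card F : ℕ) : ZMod r)) →
    orderOf ((Fintype.card F : ℕ) : ZMod r) ≤ m →
    ¬ ((r - 1) / orderOf ((Fintype.card F : ℕ) : ZMod r) + 2 * (m / orderOf ((Fintype.card F : ℕ) : ZMod r)) ≤
          (2 * d) / orderOf ((Fintype.card F : ℕ) : ZMod r) ∧
        ((2 * (m % orderOf ((Fintype.card F : ℕ) : ZMod r)) ≤ orderOf ((Fintype.card F : ℕ) : ZMod r) ∧
            (2 * d) % orderOf ((Fintype.card F : ℕ) : ZMod r) = 0 ∧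
            Even ((2 * d) / orderOf ((Fintype.card F : ℕ) : ZMod r)) ∧
            (r - 1) / orderOf ((Fintype.card F : ℕ) : ZMod r) + 2 * (m / orderOf ((Fintype.card F : ℕ) : ZMod r)) <
              (2 * d) / orderOf ((Fintype.card F : ℕ) : ZMod r)) ∨
          (2 * (m % orderOf ((Fintype.card F : ℕ) : ZMod r)) ≤ (2 * d) % orderOf ((Fintype.card F : ℕ) : ZMod r) ∧
            Odd ((2 * d) / orderOf ((Fintype.card F : ℕ) : ZMod r))) ∨
          (2 * (m % orderOf ((Fintype.card F : ℕ) : ZMod r)) < (2 * d) % orderOf ((Fintype.card F : ℕ) : ZMod r) ∧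
            Even ((2 * d) / orderOf ((Fintype.card F : ℕ) : ZMod r))))) →
    ∃ x : Matrix.GeneralLinearGroup (M d) F, x ∈ Cfsg.Geo.omegaGL (Cfsg.quadFormMinus (d - 1) F a₀ b₀) ∧
      x ^ r = 1 ∧ ¬ FixTSM d m F a₀ b₀ (x : Matrix (M d) (M d) F)

/-! ## Odd `r ≠ p`: fixed totally singular `m`-spaces -/

/-- G1O (minus; main : IPos → FixND → Perp → InvDim → HalfOdd → InvSub → FxType → TsIn → G1O).
`i` odd, `k = (2 d) % (2 i)`, `l = m % i`, hypothesis `k = 0 ∨ 2 l < k`.  `E` = Perp of `Fx`,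
HalfOdd: `U ≤ E` invariant t.s., `finrank U = i β`, `f0 = finrank Fx = 2 d - 2 i β`; `f0 ≠ 0`
(FxType: `Fx` is not of plus type, but `⊥` is).  `s = min β (m / i)`, InvSub: `U' ≤ U` invariant
of finrank `i s`; TsIn: `W0 ≤ Fx` t.s. of finrank `m - i s`, as `2 (m - i s) < f0`:
`s = m / i`: `2 l < f0` (`f0 ≡ k (mod 2 i)`, `f0 > 0`: `f0 ≥ 2 i > 2 l` if `k = 0`, `f0 ≥ k > 2 l`
otherwise); `s = β`: `2 (m - i β) < 2 d - 2 i β` as `m < d`.  `W = U' ⊔ W0`: t.s. (`E ⊥ Fx`),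
finrank adds (`E ⊓ Fx = ⊥`), invariant (`x w = w` on `Fx`). -/
def G1O : Prop :=
  ∀ (F : Type u) [Field F] [Fintype F] (a₀ b₀ : F) (_ : Aniso a₀ b₀) (p : ℕ) [Fact p.Prime] [CharP F p]
    (d m : ℕ), 1 ≤ m → m < d → ∀ (r : ℕ) [Fact r.Prime], r ≠ 2 → r ≠ p →
    Odd (orderOf ((Fintype.card F : ℕ) : ZMod r)) →
    orderOf ((Fintype.card F : ℕ) : ZMod r) ≤ m →
    ((2 * d) % (2 * orderOf ((Fintype.card F : ℕ) : ZMod r)) = 0 ∨
      2 * (m % orderOf ((Fintype.card F : ℕ) : ZMod r)) <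
        (2 * d) % (2 * orderOf ((Fintype.card F : ℕ) : ZMod r))) →
    ∀ x : Matrix.GeneralLinearGroup (M d) F, x ∈ Cfsg.isometryGroup F (Cfsg.quadFormMinus (d - 1) F a₀ b₀) →
    x ^ r = 1 → FixTSM d m F a₀ b₀ (x : Matrix (M d) (M d) F)

/-- G1E (minus; main : IPos → FixND → Perp → InvDim → FxType → TsIn → TsEven → G1E).
`f0 = finrank Fx`, `i ∣ 2 d - f0` (InvDim on the Perp of `Fx`), `b = (2 d - f0) / i`, `t = (r-1)/i`,
`s = min (m / i) ((b + 1 - t) / 2)` (truncated); `s ≥ 1` gives `2 s + t ≤ b + 1`: TsEven gives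
`U`.  FxType (minus): `Plus Fx ↔ Odd b`.  `b` odd: `T ≤ Fx` t.s. with `2 finrank T = f0`, and
`2 (m - i s) ≤ f0`; `b` even (then `f0 ≠ 0`, as `Plus ⊥` holds): `2 (m - i s) < f0`, TsIn.
(Both inequalities hold for all `b ≤ 2d / i` under the hypotheses: with `n' = 2d/i`, `k = 2d % i`,
`m' = m/i`, `l = m % i`, `f0 = (n' - b) i + k`; case `s = m'`: need `2 l ≤ f0` resp. `<`; case
`s < m'`: `b - 2 s ≤ t` and `t i + 2 m' i ≤ n' i`, use the parities of `b - t` and `n'`.)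
`W = U ⊔ W0`. -/
def G1E : Prop :=
  ∀ (F : Type u) [Field F] [Fintype F] (a₀ b₀ : F) (_ : Aniso a₀ b₀) (p : ℕ) [Fact p.Prime] [CharP F p]
    (d m : ℕ), 1 ≤ m → m < d → ∀ (r : ℕ) [Fact r.Prime], r ≠ 2 → r ≠ p →
    Even (orderOf ((Fintype.card F : ℕ) : ZMod r)) →
    orderOf ((Fintype.card F : ℕ) : ZMod r) ≤ m →
    ((r - 1) / orderOf ((Fintype.card F : ℕ) : ZMod r) + 2 * (m / orderOf ((Fintype.card F : ℕ) : ZMod r)) ≤
          (2 * d) / orderOf ((Fintype.card F : ℕ) : ZMod r) ∧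
        ((2 * (m % orderOf ((Fintype.card F : ℕ) : ZMod r)) ≤ orderOf ((Fintype.card F : ℕ) : ZMod r) ∧
            (2 * d) % orderOf ((Fintype.card F : ℕ) : ZMod r) = 0 ∧
            Even ((2 * d) / orderOf ((Fintype.card F : ℕ) : ZMod r)) ∧
            (r - 1) / orderOf ((Fintype.card F : ℕ) : ZMod r) + 2 * (m / orderOf ((Fintype.card F : ℕ) : ZMod r)) <
              (2 * d) / orderOf ((Fintype.card F : ℕ) : ZMod r)) ∨
          (2 * (m % orderOf ((Fintype.card F : ℕ) : ZMod r)) ≤ (2 * d) % orderOf ((Fintype.card F : ℕ) : ZMod r) ∧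
            Odd ((2 * d) / orderOf ((Fintype.card F : ℕ) : ZMod r))) ∨
          (2 * (m % orderOf ((Fintype.card F : ℕ) : ZMod r)) < (2 * d) % orderOf ((Fintype.card F : ℕ) : ZMod r) ∧
            Even ((2 * d) / orderOf ((Fintype.card F : ℕ) : ZMod r))))) →
    ∀ x : Matrix.GeneralLinearGroup (M d) F, x ∈ Cfsg.isometryGroup F (Cfsg.quadFormMinus (d - 1) F a₀ b₀) →
    x ^ r = 1 → FixTSM d m F a₀ b₀ (x : Matrix (M d) (M d) F)

/-- PROJ: `x ^ r = z • 1` for an isometry forces `z * z = 1` (`Q (e_0 + f_0) = 1`); `y = x` if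
`z = 1`, `y = -x` if `z = -1` (`r` odd). -/
def Proj : Prop :=
  ∀ (F : Type u) [Field F] [Fintype F] (a₀ b₀ : F) (_ : Aniso a₀ b₀) (d : ℕ), 1 ≤ d → ∀ r : ℕ, Odd r →
    ∀ x : Matrix.GeneralLinearGroup (M d) F, x ∈ Cfsg.isometryGroup F (Cfsg.quadFormMinus (d - 1) F a₀ b₀) →
    (∃ z : F, ((x ^ r : Matrix.GeneralLinearGroup (M d) F) : Matrix (M d) (M d) F) = z • (1 : Matrix (M d) (M d) F)) →
    ∃ y : Matrix.GeneralLinearGroup (M d) F, y ∈ Cfsg.isometryGroup F (Cfsg.quadFormMinus (d - 1) F a₀ b₀) ∧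
      y ^ r = 1 ∧
      ∀ W : Submodule F (M d → F), StabM (y : Matrix (M d) (M d) F) W →
        StabM (x : Matrix (M d) (M d) F) W

end Cfsg.Agent.Lib.Helper41.TMStmt
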