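import Mathlib
import Cfsg.Prelude.Def_GeometricClasses

/-!
# S5965: elements of odd prime order `r ≠ p` of `SL_n(q)` and the subfield subgroup of `F₀`

Piece statements of the call.  `q = q₀ ^ k`, `k` prime, `F₀` the subfield with `q₀` elements.

* `Good F₀ x` : `x` is conjugate under a matrix of determinant `1` to `c • (matrix over F₀)`.
* `Sym e u`   : the multiplicity function of the exponent vector `e : Fin n → ZMod r` is invariant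
  under an affine map `a ↦ u * a - w`.
-/

set_option autoImplicit false
universe u
open scoped MatrixGroups

namespace Cfsg.Agent.Lib.Helper41.SubfStmt

/-- matrix form of "conjugate under `SL_n(F)` into the subfield subgroup of `F₀`" -/
def Good {F : Type u} [Field F] {n : ℕ} (F₀ : Subfield F) (x : Matrix (Fin n) (Fin n) F) : Prop :=
  ∃ (S : Matrix (Fin n) (Fin n) F) (c : F) (A₀ : Matrix (Fin n) (Fin n) F₀),
    S.det = 1 ∧ c ≠ 0 ∧ S * x = (c • A₀.map (F₀.subtype : F₀ →+* F)) * S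

/-- the multiplicities of `e` are invariant under `a ↦ u * a - w` for some `w` -/
def Sym {n r : ℕ} (e : Fin n → ZMod r) (u : ZMod r) : Prop :=
  ∃ w : ZMod r, ∀ a : ZMod r,
    (Finset.univ.filter (fun j => e j = a)).card =
      (Finset.univ.filter (fun j => e j = u * a - w)).card

/-! ### sufficiency -/

/-- [FROB] a matrix whose `q₀`-th power has the same characteristic polynomial has its
characteristic polynomial over `F₀` (`q₀ = |F₀|`). -/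
def Frob : Prop :=
  ∀ (F : Type u) [Field F] [Fintype F] (n : ℕ) (F₀ : Subfield F) (M : Matrix (Fin n) (Fin n) F),
    (M ^ Nat.card F₀).charpoly = M.charpoly →
      ∃ χ₀ : Polynomial F₀, M.charpoly = χ₀.map (F₀.subtype : F₀ →+* F)

/-- [CONJ] if `x ^ r` is scalar, `det x = 1` and some scalar multiple of `x` has its
characteristic polynomial over `F₀`, then `x` is `Good`. -/
def Conj : Prop :=
  ∀ (F : Type u) [Field F] [Fintype F] (p : ℕ) [Fact p.Prime] [CharP F p] (n : ℕ), 1 ≤ n →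
    ∀ (F₀ : Subfield F) (r : ℕ), 0 < r → (r : F) ≠ 0 →
    ∀ (x : Matrix (Fin n) (Fin n) F), x.det = 1 →
    ∀ z : F, x ^ r = z • (1 : Matrix (Fin n) (Fin n) F) →
    ∀ c : F, c ≠ 0 → ∀ χ₀ : Polynomial F₀,
      (c • x).charpoly = χ₀.map (F₀.subtype : F₀ →+* F) → Good F₀ x

/-- [ZONE] `q = q₀ ^ 2`, `n = r`, `(q₀ + 1)_r = r`: a matrix of determinant `1` whose `r`-th
power is scalar has `r`-th power `1`. -/
def ZOne : Prop :=
  ∀ (F : Type u) [Field F] [Fintype F] (p : ℕ) [Fact p.Prime] [CharP F p] (q₀ r : ℕ)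
    [Fact r.Prime], r ≠ 2 → r ≠ p → Fintype.card F = q₀ ^ 2 → padicValNat r (q₀ + 1) = 1 →
    ∀ (x : Matrix (Fin r) (Fin r) F), x.det = 1 →
    ∀ z : F, x ^ r = z • (1 : Matrix (Fin r) (Fin r) F) → x ^ r = 1

/-- [REFLCOMB] a vector of `r ∈ {3, 5}` elements of `ZMod r` with sum `0` has multiplicities
invariant under some reflection `a ↦ w - a`. -/
def ReflComb : Prop :=
  ∀ (r : ℕ), (r = 3 ∨ r = 5) → ∀ e : Fin r → ZMod r, ∑ j, e j = 0 →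
    ∃ w : ZMod r, ∀ a : ZMod r,
      (Finset.univ.filter (fun j => e j = a)).card =
        (Finset.univ.filter (fun j => e j = w - a)).card

/-- [REFL] for `r ∈ {3, 5}`, `r ∣ q - 1`, `x ∈ SL_r(F)` with `x ^ r = 1`: some `ω • x⁻¹` with
`ω ^ r = 1` has the characteristic polynomial of `x`. -/
def Refl : Prop :=
  ∀ (F : Type u) [Field F] [Fintype F] (r : ℕ), (r = 3 ∨ r = 5) → r ∣ Fintype.card F - 1 →
    ∀ (x : Matrix (Fin r) (Fin r) F), x.det = 1 → x ^ r = 1 →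
      ∃ ω : F, ω ^ r = 1 ∧ ∀ y : Matrix (Fin r) (Fin r) F, x * y = 1 →
        (ω • y).charpoly = x.charpoly

/-- [UNITPOW] `q = q₀ ^ 2`, `r ∣ q₀ + 1`: an `r`-th root of unity is `c ^ (q₀ - 1)`. -/
def UnitPow : Prop :=
  ∀ (F : Type u) [Field F] [Fintype F] (q₀ r : ℕ), Fintype.card F = q₀ ^ 2 → r ∣ q₀ + 1 →
    ∀ ω : F, ω ^ r = 1 → ∃ c : F, c ≠ 0 ∧ c ^ q₀ = c * ω

/-! ### necessity -/

/-- [IDX1] the index of the subfield subgroup in `SL_n(F)` divides `|SL_n(F)| / |SL_n(F₀)|`. -/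
def Idx1 : Prop :=
  ∀ (F : Type u) [Field F] [Fintype F] (n : ℕ), 1 ≤ n → ∀ (F₀ : Subfield F) (q₀ : ℕ),
    Nat.card F₀ = q₀ →
    ((Cfsg.Geo.subfieldSubgroup F₀ 1).comap (Matrix.SpecialLinearGroup.toGL :
        Matrix.SpecialLinearGroup (Fin n) F →* GL (Fin n) F)).index *
      (∏ i : Fin n, (q₀ ^ n - q₀ ^ (i : ℕ))) * (Fintype.card F - 1) ∣
    (∏ i : Fin n, (Fintype.card F ^ n - Fintype.card F ^ (i : ℕ))) * (q₀ - 1)

/-- [IDX2] arithmetic: if `r ≠ k` divides `|SL_n(q₀ ^ k)| / |SL_n(q₀)|` then some `2 ≤ j ≤ n` has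
`r ∣ q ^ j - 1`, `r ∤ q₀ ^ j - 1`. -/
def Idx2 : Prop :=
  ∀ (n q₀ k r : ℕ), 2 ≤ n → 2 ≤ q₀ → k.Prime → r.Prime → r ≠ 2 → r ≠ k → ¬ r ∣ q₀ →
    r * (∏ i : Fin n, (q₀ ^ n - q₀ ^ (i : ℕ))) * (q₀ ^ k - 1) ∣
      (∏ i : Fin n, ((q₀ ^ k) ^ n - (q₀ ^ k) ^ (i : ℕ))) * (q₀ - 1) →
    ∃ j, 2 ≤ j ∧ j ≤ n ∧ r ∣ (q₀ ^ k) ^ j - 1 ∧ ¬ r ∣ q₀ ^ j - 1

/-- [ROOTMULT] for a semisimple matrix the dimension of the fixed space is the multiplicity of
the root `1` of the characteristic polynomial. -/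
def RootMult : Prop :=
  ∀ (F : Type u) [Field F] (n : ℕ) (x : Matrix (Fin n) (Fin n) F),
    Module.End.IsSemisimple (Matrix.toLin' x) →
    Module.finrank F (LinearMap.ker (Matrix.toLin' x - 1)) = x.charpoly.rootMultiplicity 1

/-- [BADI] `r ∤ q - 1`, `r ∣ q ^ j - 1`, `r ∤ q₀ ^ j - 1`, `j ≤ n`: an element of order `r` of
`SL_n(F)` which is not `Good`. -/
def BadI : Prop :=
  ∀ (F : Type u) [Field F] [Fintype F] (p : ℕ) [Fact p.Prime] [CharP F p] (n : ℕ), 2 ≤ n →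
    ∀ (F₀ : Subfield F) (k q₀ : ℕ), k.Prime → Nat.card F₀ = q₀ → Fintype.card F = q₀ ^ k →
    ∀ (r : ℕ) [Fact r.Prime], r ≠ 2 → r ≠ p → ¬ r ∣ Fintype.card F - 1 →
    ∀ j : ℕ, j ≤ n → r ∣ Fintype.card F ^ j - 1 → ¬ r ∣ q₀ ^ j - 1 →
      ∃ x : Matrix (Fin n) (Fin n) F, x.det = 1 ∧ x ^ r = 1 ∧
        (∀ z : F, x ≠ z • (1 : Matrix (Fin n) (Fin n) F)) ∧ ¬ Good F₀ x

/-- [DIAGBAD] if `d • diag(lam ^ e j)` is `Good` (`lam` of order `r`) then the multiplicities of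
`e` are invariant under `a ↦ q₀ * a - w` for some `w`. -/
def DiagBad : Prop :=
  ∀ (F : Type u) [Field F] [Fintype F] (n : ℕ) (F₀ : Subfield F) (q₀ : ℕ), Nat.card F₀ = q₀ →
    ∀ (r : ℕ) [Fact r.Prime] (lam : F), orderOf lam = r → ∀ d : F, d ≠ 0 →
    ∀ e : Fin n → ZMod r,
      Good F₀ (d • Matrix.diagonal (fun j => lam ^ (e j).val)) → Sym e ((q₀ : ℕ) : ZMod r)

/-- [COMB3A] `u ≠ 1`, `u ^ k = 1`, `k` an odd prime: the vector `(1, -1, 0, …, 0)` has no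
`u`-symmetry. -/
def Comb3A : Prop :=
  ∀ (n r k : ℕ) [Fact r.Prime], 2 ≤ n → r ≠ 2 → k.Prime → k ≠ 2 →
    ∀ u : ZMod r, u ^ k = 1 → u ≠ 1 →
      ∃ e : Fin n → ZMod r, (∑ j, e j = 0) ∧ (∃ j j', e j ≠ e j') ∧ ¬ Sym e u

/-- [COMB3B1] `r ≥ 5`, `n ≥ 3`, `(n, r) ≠ (5, 5)`: the vector `(1, 1, -2, 0, …, 0)` has no
reflection symmetry. -/
def Comb3B1 : Prop :=
  ∀ (n r : ℕ) [Fact r.Prime], 3 ≤ n → r ≠ 2 → r ≠ 3 → ¬ (n = 5 ∧ r = 5) →
    ∃ e : Fin n → ZMod r, (∑ j, e j = 0) ∧ (∃ j j', e j ≠ e j') ∧ ¬ Sym e (-1)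

/-- [COMB3B2] `r` odd, `n ≥ 3`: the vector `(1, 0, …, 0)` has no reflection symmetry. -/
def Comb3B2 : Prop :=
  ∀ (n r : ℕ) [Fact r.Prime], 3 ≤ n → r ≠ 2 →
    ∃ e : Fin n → ZMod r, (∑ j, (e j).val = 1) ∧ (∃ j j', e j ≠ e j') ∧ ¬ Sym e (-1)

/-- [COMB3B3] `r = 3`, `n ≥ 4`, `n ≠ 6`: the vector `(1, 1, 1, 0, …, 0)` has no reflection
symmetry. -/
def Comb3B3 : Prop :=
  ∀ (n r : ℕ) [Fact r.Prime], r = 3 → 4 ≤ n → n ≠ 6 →
    ∃ e : Fin n → ZMod r, (∑ j, e j = 0) ∧ (∃ j j', e j ≠ e j') ∧ ¬ Sym e (-1)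

end Cfsg.Agent.Lib.Helper41.SubfStmt
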