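import Mathlib
import Cfsg.Prelude.Def_GeometricClasses
import Cfsg.Prelude.Def_LieClassical
import Cfsg.Agent.Lib.Helper40.HermAdj
import Cfsg.Agent.Lib.Helper40.RecipPoly
import Cfsg.Agent.Lib.Helper41.SubfStmt

/-!
# S5982: elements of prime order of `SL_n(q₀²)` and the subgroup of unitary type

Piece statements of the call.  `|F| = q₀²`, `φ x = x ^ q₀`, `adj φ M = (M.map φ)ᵀ`
(`Helper40.HermAdj`), `rstar φ` the `φ`-twisted monic reciprocal (`Helper40.RecipPoly`),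
`Sym e u` from `Helper41.SubfStmt`.

* `GoodU φ x` : `x` is `GL`-conjugate to a scalar multiple of a matrix `B` with
  `adj φ B * B = 1` (a unitary matrix for the standard form).
-/

set_option autoImplicit false
universe u
open scoped MatrixGroups

namespace Cfsg.Agent.Lib.Helper41.UnitStmt

open Cfsg.Agent.Lib.Helper40.HermAdj Cfsg.Agent.Lib.Helper40.RecipPoly
open Cfsg.Agent.Lib.Helper41.SubfStmt

/-- `x` is `GL`-conjugate to a scalar multiple of a standard unitary matrix -/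
def GoodU {F : Type u} [Field F] {n : ℕ} (φ : F →+* F) (x : Matrix (Fin n) (Fin n) F) : Prop :=
  ∃ (S B : Matrix (Fin n) (Fin n) F) (c : F), IsUnit S.det ∧ c ≠ 0 ∧ adj φ B * B = 1 ∧
    S * x = (c • B) * S

/-! ### general -/

/-- [FORM] the similarity group of a unitary form is a fixed conjugate of
`{c • B : c ≠ 0, B standard unitary}`. -/
def Form : Prop :=
  ∀ (F : Type u) [Field F] [Fintype F] (q₀ : ℕ), Fintype.card F = q₀ ^ 2 →
    ∀ (φ : F →+* F), (∀ x, φ x = x ^ q₀) →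
    ∀ (n : ℕ) (f : (Fin n → F) → (Fin n → F) → F), Cfsg.Geo.IsUnitaryFormPow q₀ f →
      ∃ Z : Matrix (Fin n) (Fin n) F, IsUnit Z.det ∧
        ∀ g : GL (Fin n) F, g ∈ Cfsg.Geo.similarityGroup f ↔
          ∃ (c : F) (B : Matrix (Fin n) (Fin n) F), c ≠ 0 ∧ adj φ B * B = 1 ∧
            Z * (g : Matrix (Fin n) (Fin n) F) = (c • B) * Z

/-- [COMMDET] the centralizer of a matrix whose `r`-th power is a non-zero scalar (`r = 2` or
`r` prime to the characteristic) contains matrices of every determinant. -/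
def CommDet : Prop :=
  ∀ (F : Type u) [Field F] [Fintype F] (n : ℕ), 1 ≤ n → ∀ (r : ℕ), r.Prime →
    (r = 2 ∨ (r : F) ≠ 0) →
    ∀ (x : Matrix (Fin n) (Fin n) F) (z : F), z ≠ 0 →
    x ^ r = z • (1 : Matrix (Fin n) (Fin n) F) →
    ∀ δ : F, ∃ D : Matrix (Fin n) (Fin n) F, D * x = x * D ∧ D.det = δ

/-- [SELFDUAL] a `GoodU` matrix has a scalar multiple with self-dual characteristic
polynomial. -/
def SelfDual : Prop :=
  ∀ (F : Type u) [Field F] (φ : F →+* F), (∀ x, φ (φ x) = x) →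
    ∀ (n : ℕ) (x : Matrix (Fin n) (Fin n) F), GoodU φ x →
      ∃ c : F, c ≠ 0 ∧ rstar φ (c • x).charpoly = (c • x).charpoly

/-- [CONJU] conversely, for `x ^ r` a non-zero scalar, `r` prime to the characteristic. -/
def ConjU : Prop :=
  ∀ (F : Type u) [Field F] [Fintype F] (p : ℕ) [Fact p.Prime] [CharP F p] (φ : F →+* F),
    (∀ x, φ (φ x) = x) → (∃ l : F, φ l ≠ l) →
    ∀ (n : ℕ), 1 ≤ n → ∀ (r : ℕ), 0 < r → (r : F) ≠ 0 →
    ∀ (x : Matrix (Fin n) (Fin n) F) (z : F), z ≠ 0 →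
    x ^ r = z • (1 : Matrix (Fin n) (Fin n) F) →
    ∀ c : F, c ≠ 0 → rstar φ (c • x).charpoly = (c • x).charpoly → GoodU φ x

/-- [RSTARINV] the twisted reciprocal of the characteristic polynomial of an invertible matrix
is the `φ`-image of the characteristic polynomial of its inverse. -/
def RstarInv : Prop :=
  ∀ (F : Type u) [Field F] (φ : F →+* F) (n : ℕ) (A B : Matrix (Fin n) (Fin n) F), A * B = 1 →
    rstar φ A.charpoly = B.charpoly.map φ

/-- [FROBMAP] the characteristic polynomial of `M ^ q₀` is the `φ`-image of that of `M`. -/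
def FrobMap : Prop :=
  ∀ (F : Type u) [Field F] [Fintype F] (q₀ : ℕ), Fintype.card F = q₀ ^ 2 →
    ∀ (φ : F →+* F), (∀ x, φ x = x ^ q₀) → ∀ (n : ℕ) (M : Matrix (Fin n) (Fin n) F),
      (M ^ q₀).charpoly = M.charpoly.map φ

/-- [NORMSURJ] the elements of the subfield of order `q₀` are norms. -/
def NormSurj : Prop :=
  ∀ (F : Type u) [Field F] [Fintype F] (q₀ : ℕ), Fintype.card F = q₀ ^ 2 →
    ∀ a : F, a ^ (q₀ - 1) = 1 → ∃ c : F, c ≠ 0 ∧ c ^ (q₀ + 1) = a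

/-! ### involutions -/

/-- [INVSYM] an involutory matrix is conjugate to a symmetric involutory matrix with entries
`0, 1, -1` (diagonal `± 1` in odd characteristic, a permutation matrix in characteristic 2). -/
def InvSym : Prop :=
  ∀ (F : Type u) [Field F] (n : ℕ) (y : Matrix (Fin n) (Fin n) F), y * y = 1 →
    ∃ Q M : Matrix (Fin n) (Fin n) F, IsUnit Q.det ∧ Q * y = M * Q ∧ M * M = 1 ∧ M.transpose = M ∧
      ∀ i j, M i j = 0 ∨ M i j = 1 ∨ M i j = -1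

/-- [BAD2] `p` odd, `(n)_2 > (q - 1)_2`: a matrix of determinant `1` with non-square scalar
square, which is not `GoodU`. -/
def Bad2 : Prop :=
  ∀ (F : Type u) [Field F] [Fintype F] (p : ℕ) [Fact p.Prime] [CharP F p] (q₀ : ℕ),
    Fintype.card F = q₀ ^ 2 → ∀ (φ : F →+* F), (∀ x, φ x = x ^ q₀) → p ≠ 2 →
    ∀ (n : ℕ), 1 ≤ n → ¬ padicValNat 2 n ≤ padicValNat 2 (Fintype.card F - 1) →
      ∃ x : Matrix (Fin n) (Fin n) F, x.det = 1 ∧
        (∃ z : F, x ^ 2 = z • (1 : Matrix (Fin n) (Fin n) F)) ∧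
        (∀ z : F, x ≠ z • (1 : Matrix (Fin n) (Fin n) F)) ∧ ¬ GoodU φ x

/-! ### odd `r`, sufficiency -/

/-- [ZONE2] `(q - 1)_r = r`, `n = r`: a matrix of determinant `1` whose `r`-th power is scalar
has `r`-th power `1`. -/
def ZOne2 : Prop :=
  ∀ (F : Type u) [Field F] [Fintype F] (p : ℕ) [Fact p.Prime] [CharP F p] (r : ℕ)
    [Fact r.Prime], r ≠ 2 → r ≠ p → padicValNat r (Fintype.card F - 1) = 1 →
    ∀ (x : Matrix (Fin r) (Fin r) F), x.det = 1 →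
    ∀ z : F, x ^ r = z • (1 : Matrix (Fin r) (Fin r) F) → x ^ r = 1

/-! ### odd `r`, necessity -/

/-- [IDXU1] `[SL : SL ∩ Δ] * |GU_n(q₀)| * (q₀ - 1)` divides `|GL_n(F)|`. -/
def IdxU1 : Prop :=
  ∀ (F : Type u) [Field F] [Fintype F] (q₀ : ℕ), Fintype.card F = q₀ ^ 2 →
    ∀ (n : ℕ), 1 ≤ n → ∀ (f : (Fin n → F) → (Fin n → F) → F), Cfsg.Geo.IsUnitaryFormPow q₀ f →
      (Cfsg.Geo.similarityGroup f).relIndex (Cfsg.Geo.specialLinear (Fin n) F) *
        (Nat.card (Cfsg.GU n F q₀) * (q₀ - 1)) ∣ Nat.card (GL (Fin n) F)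

/-- [IDXU2] arithmetic: an odd prime `r ∤ q₀` dividing `|GL_n(q₀²)| / (|GU_n(q₀)| (q₀ - 1))`
divides `q₀ ^ j + (-1) ^ j` for some `2 ≤ j ≤ n`. -/
def IdxU2 : Prop :=
  ∀ (n q₀ r : ℕ), 2 ≤ n → 2 ≤ q₀ → r.Prime → r ≠ 2 → ¬ r ∣ q₀ →
    r * (q₀ ^ (n * (n - 1) / 2) *
        (∏ i ∈ Finset.range n, (if Even i then q₀ ^ (i + 1) + 1 else q₀ ^ (i + 1) - 1)) *
        (q₀ - 1)) ∣ ∏ i : Fin n, ((q₀ ^ 2) ^ n - (q₀ ^ 2) ^ (i : ℕ)) →
    ∃ j, 2 ≤ j ∧ j ≤ n ∧ (-((q₀ : ℕ) : ZMod r)) ^ j = -1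

/-- [DIAGBADU] if `d • diag(lam ^ e j)` is `GoodU` (`lam` of order `r`) then the multiplicities
of `e` are invariant under `a ↦ -q₀ * a - w` for some `w`. -/
def DiagBadU : Prop :=
  ∀ (F : Type u) [Field F] [Fintype F] (q₀ : ℕ), Fintype.card F = q₀ ^ 2 →
    ∀ (φ : F →+* F), (∀ x, φ x = x ^ q₀) → ∀ (n : ℕ) (r : ℕ) [Fact r.Prime] (lam : F),
    orderOf lam = r → ∀ d : F, d ≠ 0 → ∀ e : Fin n → ZMod r,
      GoodU φ (d • Matrix.diagonal (fun j => lam ^ (e j).val)) →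
        Sym e (-((q₀ : ℕ) : ZMod r))

/-- [BADUARITH] if `(-q₀) ^ j = -1` modulo `r` then the order of `q₀` modulo `r` is not
`≡ 2 (mod 4)`. -/
def BadUArith : Prop :=
  ∀ (q₀ r j : ℕ) [Fact r.Prime], r ≠ 2 → (-((q₀ : ℕ) : ZMod r)) ^ j = -1 →
    orderOf ((q₀ : ℕ) : ZMod r) % 4 ≠ 2

/-- [BADUPOLY] `x ^ r = 1` with exactly one non-trivial block and self-dual characteristic
polynomial forces the order of `q₀` modulo `r` to be `≡ 2 (mod 4)`. -/
def BadUPoly : Prop :=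
  ∀ (F : Type u) [Field F] [Fintype F] (p : ℕ) [Fact p.Prime] [CharP F p] (q₀ : ℕ),
    Fintype.card F = q₀ ^ 2 → ∀ (φ : F →+* F), (∀ x, φ x = x ^ q₀) →
    ∀ (r : ℕ) [Fact r.Prime], r ≠ 2 → r ≠ p →
    2 ≤ orderOf ((Fintype.card F : ℕ) : ZMod r) →
    ∀ (n : ℕ) (x : Matrix (Fin n) (Fin n) F), x ^ r = 1 →
      Module.finrank F (LinearMap.ker (Matrix.toLin' x - 1)) +
        orderOf ((Fintype.card F : ℕ) : ZMod r) = n →
      rstar φ x.charpoly = x.charpoly → orderOf ((q₀ : ℕ) : ZMod r) % 4 = 2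

/-- [BADURED] `r ∤ q - 1`: a `GoodU` matrix with `x ^ r = 1` has self-dual characteristic
polynomial (the scalar is a unitary scalar). -/
def BadURed : Prop :=
  ∀ (F : Type u) [Field F] [Fintype F] (q₀ : ℕ), Fintype.card F = q₀ ^ 2 →
    ∀ (φ : F →+* F), (∀ x, φ x = x ^ q₀) → ∀ (r : ℕ), r.Prime → ¬ r ∣ Fintype.card F - 1 →
    ∀ (n : ℕ), 1 ≤ n → ∀ (x : Matrix (Fin n) (Fin n) F), x ^ r = 1 → GoodU φ x →
      rstar φ x.charpoly = x.charpoly

end Cfsg.Agent.Lib.Helper41.UnitStmt
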