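import Mathlib
import Cfsg.Agent.Lib.Helper96.AltStmt2

set_option autoImplicit false

/-! Piece [CR] of S5165 part 2: the centralizer of `R2` is `R2`. -/

namespace Cfsg.Agent.Lib.Helper41.AltCR

open Equiv Cfsg.Agent.Lib.Helper96.AltStmt Cfsg.Agent.Lib.Helper96.AltModel
  Cfsg.Agent.Lib.Helper96.AltStmt2

theorem main : CentR2 := by
  intro hNF p _ Γ Λ E _ _ _ _ _ _ _ g hg
  have hnorm : g ∈ Subgroup.normalizer (R2 p Γ Λ E : Set (Perm (Pt p Γ Λ E))) := by
    rw [Subgroup.mem_normalizer_iff]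
    intro h
    constructor
    · intro hh
      rw [hg h hh, mul_inv_cancel_right]
      exact hh
    · intro hh
      have h1 := hg _ hh
      have h2 : g * h * g⁻¹ = h := by
        have h3 : g * (g * h * g⁻¹) = g * h := by rw [h1]; group
        exact mul_left_cancel h3
      rwa [h2] at hh
  obtain ⟨π, M, v, ρ, t, b, hA, hB, hC⟩ := hNF p Γ Λ E g hnorm
  have hcomm : ∀ (e f : Γ → ZMod p) (h : Λ → ZMod p) (x : Pt p Γ Λ E),
      g (r2 p Λ E e f h x) = r2 p Λ E e f h (g x) := by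
    intro e f h x
    have h1 := hg (r2 p Λ E e f h) ⟨e, f, h, rfl⟩
    exact congrArg (fun q : Perm (Pt p Γ Λ E) => q x) h1
  have hMe : ∀ (e f : Γ → ZMod p) (γ : Γ), M γ (e γ, f γ) = (e (π γ), f (π γ)) := by
    intro e f γ
    have h1 := hcomm e f 0 (Sum.inl (Sum.inl (γ, 0), 0))
    rw [r2_inl_inl, hA, hA, r2_inl_inl] at h1
    simp only [Sum.inl.injEq, Prod.mk.injEq, true_and, zero_add, Prod.mk_zero_zero, map_zero,
      Prod.fst_add, Prod.snd_add] at h1
    obtain ⟨h2, h3⟩ := h1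
    refine Prod.ext ?_ ?_
    · exact add_right_cancel (h2.trans (add_comm _ _))
    · exact add_right_cancel (h3.trans (add_comm _ _))
  have hM : ∀ γ (a c : ZMod p), M γ (a, c) = (a, c) := by
    intro γ a c
    exact hMe (fun _ => a) (fun _ => c) γ
  have hπ : ∀ γ, π γ = γ := by
    intro γ
    have h1 := hMe (fun γ' => if γ' = γ then 1 else 0) (fun _ => 0) γ
    rw [hM] at h1
    simp only [if_true, Prod.mk.injEq, and_true] at h1
    by_contra hne
    rw [if_neg hne] at h1
    exact one_ne_zero h1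
  have hte : ∀ (h : Λ → ZMod p) (l : Λ), (t l : ZMod p) * h l = h (ρ l) := by
    intro h l
    have h1 := hcomm 0 0 h (Sum.inl (Sum.inr l, 0))
    rw [r2_inl_inr, hB, hB, r2_inl_inr] at h1
    simp only [Sum.inl.injEq, Prod.mk.injEq, true_and, zero_add, mul_zero] at h1
    exact add_right_cancel (h1.trans (add_comm _ _))
  have ht : ∀ l, (t l : ZMod p) = 1 := by
    intro l
    have h1 := hte (fun _ => 1) l
    simpa using h1
  have hρ : ∀ l, ρ l = l := by
    intro l
    have h1 := hte (fun l' => if l' = l then 1 else 0) l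
    rw [ht] at h1
    simp only [if_true, one_mul] at h1
    by_contra hne
    rw [if_neg hne] at h1
    exact one_ne_zero h1
  refine ⟨fun γ => (v γ).1, fun γ => (v γ).2, b, ?_⟩
  ext x
  rcases x with ⟨⟨γ, i⟩ | l, j⟩ | x
  · rw [hA, r2_inl_inl, hM, hπ]
    rfl
  · rw [hB, r2_inl_inr, ht, hρ, one_mul]
  · rw [hC, r2_inr]

end Cfsg.Agent.Lib.Helper41.AltCR
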