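import Mathlib
import Cfsg.Agent.Lib.Helper96.AltStmt2

set_option autoImplicit false

/-! Piece [DN] of S5165 part 2: the torus element of a `P₂`-invariant set of superblocks
normalizes `S0`. -/

namespace Cfsg.Agent.Lib.Helper41.AltDN

open Equiv Cfsg.Agent.Lib.Helper96.AltStmt Cfsg.Agent.Lib.Helper96.AltModel
  Cfsg.Agent.Lib.Helper96.AltStmt2

section

variable (p : ℕ) [Fact p.Prime] {β : Type} (δ : Type)

/-- conjugating `C_p ≀ H` by a monomial permutation whose multipliers are `H`-invariant and whose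
block permutation conjugates `H` into `H` -/
theorem conj_Wr (H : Subgroup (Perm β)) (σ : Perm β) (t : β → (ZMod p)ˣ) (b0 : β → ZMod p)
    (hσ : ∀ τ ∈ H, σ * τ * σ⁻¹ ∈ H) (ht : ∀ τ ∈ H, ∀ i, t (τ i) = t i)
    (h : Perm (β × ZMod p ⊕ δ)) (hh : h ∈ Wr p δ H) :
    mk p δ σ t b0 * h * (mk p δ σ t b0)⁻¹ ∈ Wr p δ H := by
  obtain ⟨τ, hτ, b, rfl⟩ := hh
  rw [mk_inv, mk_mul, mk_mul]
  refine ⟨σ * τ * σ⁻¹, hσ τ hτ, _, (mk_eq_iff p _ _ _ _ _ _).mpr ⟨rfl, ?_, rfl⟩⟩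
  funext i
  simp [ht τ hτ]

end

section

variable (p : ℕ) [Fact p.Prime] {Γ : Type} (Λ E : Type) [DecidableEq Γ]

theorem dd_mul_inv (Γ' : Finset Γ) (u : (ZMod p)ˣ) :
    dd p Λ E Γ' u * dd p Λ E Γ' u⁻¹ = 1 := by
  ext x
  rcases x with ⟨⟨γ, i⟩ | l, j⟩ | x
  · by_cases hγ : γ ∈ Γ'
    · simp only [dd, Perm.mul_apply, mk_inl, Sum.elim_inl, hγ, if_true, Perm.one_apply,
        add_zero, inv_inv]
      rw [← mul_assoc, ← Units.val_mul, mul_inv_cancel, Units.val_one, one_mul,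
        ← mul_assoc, ← Units.val_mul, inv_mul_cancel, Units.val_one, one_mul]
    · simp only [dd, Perm.mul_apply, mk_inl, Sum.elim_inl, hγ, if_false, Perm.one_apply,
        add_zero, Units.val_one, one_mul]
  · simp only [dd, Perm.mul_apply, mk_inl, mk_inr, Sum.elim_inr, Perm.one_apply, add_zero,
      Units.val_one, one_mul]
  · simp only [dd, Perm.mul_apply, mk_inr, Perm.one_apply]

theorem dd_inv (Γ' : Finset Γ) (u : (ZMod p)ˣ) :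
    (dd p Λ E Γ' u)⁻¹ = dd p Λ E Γ' u⁻¹ :=
  inv_eq_of_mul_eq_one_right (dd_mul_inv p Λ E Γ' u)

theorem dd_conj_mem (P₂ : Subgroup (Perm Γ)) (Γ' : Finset Γ)
    (hinv : ∀ π ∈ P₂, ∀ γ, π γ ∈ Γ' ↔ γ ∈ Γ') (u : (ZMod p)ˣ)
    (h : Perm (Pt p Γ Λ E)) (hh : h ∈ S0 p Λ E P₂) :
    dd p Λ E Γ' u * h * (dd p Λ E Γ' u)⁻¹ ∈ S0 p Λ E P₂ := by
  unfold dd S0
  refine conj_Wr p E (Wr p Λ P₂) _ _ _ ?_ ?_ h hh
  · intro τ hτ
    refine conj_Wr p Λ P₂ _ _ _ ?_ ?_ τ hτ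
    · intro π hπ
      simpa using hπ
    · intro π hπ γ
      simp only [hinv π hπ γ]
  · rintro τ ⟨π, hπ, e, rfl⟩ (⟨γ, i⟩ | l)
    · simp only [mk_inl, Sum.elim_inl, hinv π hπ γ]
    · simp only [mk_inr, Sum.elim_inr]

end

theorem main : DNorm := by
  intro p _ Γ Λ E _ _ _ _ _ _ P₂ Γ' hinv u
  rw [Subgroup.mem_normalizer_iff]
  intro h
  constructor
  · exact dd_conj_mem p Λ E P₂ Γ' hinv u h
  · intro hh
    have h1 := dd_conj_mem p Λ E P₂ Γ' hinv u⁻¹ _ hh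
    rw [← dd_inv, inv_inv] at h1
    have e : (dd p Λ E Γ' u)⁻¹ * (dd p Λ E Γ' u * h * (dd p Λ E Γ' u)⁻¹) * dd p Λ E Γ' u = h := by
      group
    rwa [e] at h1

end Cfsg.Agent.Lib.Helper41.AltDN
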