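import Mathlib
import Cfsg.Agent.Lib.Helper96.AltStmt2

set_option autoImplicit false

/-! Piece [K0] of S5165 part 2: the even permutations of the blocks lie in `O^{p'}(N(Tr))`;
plus reusable facts on the lift `σ ↦ mk σ 1 0` and the translations. -/

namespace Cfsg.Agent.Lib.Helper41.AltK0

open Equiv Cfsg.Agent.Lib.Helper96.AltStmt Cfsg.Agent.Lib.Helper96.AltModel
  Cfsg.Agent.Lib.Helper96.AltStmt2

section

variable (p : ℕ) [Fact p.Prime] (β δ : Type)

/-- the lift `σ ↦ mk σ 1 0` -/
def lift : Perm β →* Perm (β × ZMod p ⊕ δ) where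
  toFun σ := mk p δ σ (fun _ => 1) (fun _ => 0)
  map_one' := mk_one p
  map_mul' σ σ' := by
    rw [mk_mul]
    congr 1
    · funext i; simp
    · funext i; simp

theorem lift_apply (σ : Perm β) : lift p β δ σ = mk p δ σ (fun _ => 1) (fun _ => 0) := rfl

theorem lift_injective : Function.Injective (lift p β δ) := by
  intro σ σ' h
  exact ((mk_eq_iff p σ σ' _ _ _ _).mp h).1

/-- conjugating a translation by a lift -/
theorem lift_conj_mem (σ : Perm β) (h : Perm (β × ZMod p ⊕ δ)) (hh : h ∈ Tr p β δ) :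
    lift p β δ σ * h * (lift p β δ σ)⁻¹ ∈ Tr p β δ := by
  obtain ⟨b, rfl⟩ := hh
  refine ⟨fun i => b (σ⁻¹ i), ?_⟩
  rw [lift_apply, mk_inv, mk_mul, mk_mul]
  congr 1
  · simp
  · funext i; simp
  · funext i; simp

theorem lift_mem_normalizer (σ : Perm β) :
    lift p β δ σ ∈ Subgroup.normalizer (Tr p β δ : Set (Perm (β × ZMod p ⊕ δ))) := by
  rw [Subgroup.mem_normalizer_iff]
  intro h
  constructor
  · exact lift_conj_mem p β δ σ h
  · intro hh
    have h1 := lift_conj_mem p β δ σ⁻¹ _ hh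
    rw [map_inv, inv_inv] at h1
    have e : (lift p β δ σ)⁻¹ * (lift p β δ σ * h * (lift p β δ σ)⁻¹) * lift p β δ σ = h := by
      group
    rwa [e] at h1

end

theorem main : LiftOpp := by
  intro hK1 p _ hp β δ _ _ _ _ hcard σ hσ
  have h1 := hK1 p hp β hcard σ hσ
  have hle : Subgroup.closure {c : Perm β | c.IsCycle ∧ c.support.card = p}
      ≤ (Opp p (Tr p β δ)).comap (lift p β δ) := by
    rw [Subgroup.closure_le]
    rintro c ⟨hc, hcp⟩
    show lift p β δ c ∈ Opp p (Tr p β δ)
    apply Subgroup.subset_closure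
    refine ⟨lift_mem_normalizer p β δ c, 1, ?_⟩
    rw [orderOf_injective (lift p β δ) (lift_injective p β δ) c, hc.orderOf, hcp, pow_one]
  exact hle h1

end Cfsg.Agent.Lib.Helper41.AltK0
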