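import Mathlib
import Cfsg.Agent.Lib.Helper96.AltStmt2

set_option autoImplicit false

/-! Piece [KA] of S5165 part 2: `mk σ t b` with `σ` even and `∏ t = 1` lies in
`O^{p'}(N(Tr))`. -/

namespace Cfsg.Agent.Lib.Helper41.AltKA

open Equiv Cfsg.Agent.Lib.Helper96.AltStmt Cfsg.Agent.Lib.Helper96.AltModel
  Cfsg.Agent.Lib.Helper96.AltStmt2

section

variable (p : ℕ) [Fact p.Prime] (β δ : Type)

/-- powers of a translation -/
theorem tr_pow (b : β → ZMod p) (n : ℕ) :
    (mk p δ (1 : Perm β) (fun _ => 1) b) ^ n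
      = mk p δ (1 : Perm β) (fun _ => 1) (fun i => (n : ZMod p) * b i) := by
  induction n with
  | zero =>
    rw [pow_zero, ← mk_one p]
    congr 1
    funext i
    simp
  | succ n ih =>
    rw [pow_succ, ih, mk_mul]
    congr 1
    · funext i; simp
    · funext i
      simp only [Units.val_one, one_mul, Perm.coe_one, id_eq]
      push_cast
      ring

theorem tr_pow_p (b : β → ZMod p) : (mk p δ (1 : Perm β) (fun _ => 1) b) ^ p = 1 := by
  rw [tr_pow, ← mk_one p]
  congr 1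
  funext i
  simp

/-- a translation is a generator of `O^{p'}(N(Tr))` -/
theorem tr_mem_Opp (b : β → ZMod p) :
    mk p δ (1 : Perm β) (fun _ => 1) b ∈ Opp p (Tr p β δ) := by
  apply Subgroup.subset_closure
  refine ⟨Subgroup.le_normalizer ⟨b, rfl⟩, ?_⟩
  have h1 := orderOf_dvd_of_pow_eq_one (tr_pow_p p β δ b)
  rcases (Nat.dvd_prime (Fact.out : p.Prime)).mp h1 with h | h
  · exact ⟨0, by rw [h, pow_zero]⟩
  · exact ⟨1, by rw [h, pow_one]⟩

end

theorem main : KerOpp := by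
  intro hK0 hK2 p _ hp β δ _ _ _ _ hcard σ t b hσ ht
  have h1 := hK0 p hp β δ hcard σ hσ
  have h2 := hK2 p hp β δ hcard t ht
  have h3 := tr_mem_Opp p β δ (fun i => b (σ⁻¹ i))
  have e : mk p δ σ t b = mk p δ (1 : Perm β) (fun _ => 1) (fun i => b (σ⁻¹ i))
      * (mk p δ σ (fun _ => 1) (fun _ => 0) * mk p δ (1 : Perm β) t (fun _ => 0)) := by
    rw [mk_mul, mk_mul]
    congr 1 <;> (funext i; simp)
  rw [e]
  exact mul_mem h3 (mul_mem h1 h2)

end Cfsg.Agent.Lib.Helper41.AltKA
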