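import Mathlib
import Cfsg.Prelude.Def_Classical
import Cfsg.Prelude.Def_GeometricClasses
import Cfsg.Agent.Lib.Helper41.EMStmt
import Cfsg.Agent.Lib.Helper41.TMStmt
import Cfsg.Agent.Lib.Helper24.MinusNegSq

/-!
# S5990: final assembly from the pieces of `Helper41.EMStmt` (and landed S5987 / S5991 Props).
-/

set_option autoImplicit false

universe u

open scoped Matrix MatrixGroups

namespace Cfsg.Agent.Lib.Helper41.EMFin

open Cfsg.Agent.Lib.Helper37.HypStmt (cc)
open Cfsg.Agent.Lib.Helper45.OMiStmt (M Aniso FxM NDegM StabM ScalM NegSqExM)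
open Cfsg.Agent.Lib.Helper41.TMTwoStmt (PlusM)
open Cfsg.Agent.Lib.Helper41.TMStmt (Top Proj)
open Cfsg.Agent.Lib.Helper41.EMStmt

theorem omegaGL_le {F : Type u} [Field F] (d : ℕ) (a b : F) :
    Cfsg.Geo.omegaGL (Cfsg.quadFormMinus (d - 1) F a b) ≤
      Cfsg.isometryGroup F (Cfsg.quadFormMinus (d - 1) F a b) := by
  intro x hx
  unfold Cfsg.Geo.omegaGL at hx
  obtain ⟨y, -, rfl⟩ := Subgroup.mem_map.mp hx
  exact y.2

theorem stab_scalar {F : Type u} [Field F] {d : ℕ} (z : F) (W : Submodule F (M d → F)) :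
    StabM (z • (1 : Matrix (M d) (M d) F)) W := by
  unfold StabM
  rintro _ ⟨w, hw, rfl⟩
  have h : Matrix.toLin' (z • (1 : Matrix (M d) (M d) F)) w = z • w := by
    rw [Matrix.toLin'_apply, Matrix.smul_mulVec, Matrix.one_mulVec]
  rw [h]
  exact W.smul_mem z hw

theorem exists_mem (hTop : Top.{u}) (hSub : SubTypeE.{u}) {F : Type u} [Field F] [Fintype F]
    (d m : ℕ) (hd : 1 ≤ d) (hm : 2 ≤ m) (hme : Even m) (hmn : m + 2 ≤ 2 * d) (a b : F)
    (hAn : Aniso a b) : ∃ W : Submodule F (M d → F), MemEM d F a b m W := by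
  have hfin : Module.finrank F (↥(⊤ : Submodule F (M d → F))) = 2 * d := by
    rw [finrank_top, Module.finrank_fintype_fun_eq_card]
    simp only [Fintype.card_sum, Fintype.card_fin]
    omega
  obtain ⟨-, h2⟩ := hSub F a b hAn d m ⊤ (hTop F a b hAn d).1 hme (by rw [hfin]; omega)
  obtain ⟨W, -, hW⟩ := h2 hm
  exact ⟨W, hW⟩

theorem bad_fin {F : Type u} [Field F] [Fintype F] (d m : ℕ) (a b : F) (r : ℕ)
    (hex : ∃ W : Submodule F (M d → F), MemEM d F a b m W)
    (x : Matrix.GeneralLinearGroup (M d) F)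
    (hxΩ : x ∈ Cfsg.Geo.omegaGL (Cfsg.quadFormMinus (d - 1) F a b))
    (hxz : ∃ z : F, ((x ^ r : Matrix.GeneralLinearGroup (M d) F) : Matrix (M d) (M d) F) =
      z • (1 : Matrix (M d) (M d) F))
    (hxW : ∀ W : Submodule F (M d → F), MemEM d F a b m W →
      ¬ StabM (x : Matrix (M d) (M d) F) W)
    (h : ∀ x : Matrix.GeneralLinearGroup (M d) F,
      x ∈ Cfsg.Geo.omegaGL (Cfsg.quadFormMinus (d - 1) F a b) →
      (∃ z : F, ((x ^ r : Matrix.GeneralLinearGroup (M d) F) : Matrix (M d) (M d) F) =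
        z • (1 : Matrix (M d) (M d) F)) →
      (∀ z : F, (x : Matrix (M d) (M d) F) ≠ z • (1 : Matrix (M d) (M d) F)) →
      ∃ W : Submodule F (M d → F), (Module.finrank F ↥W = m ∧
        Cfsg.Geo.IsNondegenerateOn (QuadraticMap.polar (Cfsg.quadFormMinus (d - 1) F a b)) W ∧
        ¬ Cfsg.Geo.IsPlusTypeOn (Cfsg.quadFormMinus (d - 1) F a b) W) ∧
        W.map (Matrix.toLin' (x : Matrix (M d) (M d) F)) ≤ W) : False := by
  have hxns : ∀ z : F, (x : Matrix (M d) (M d) F) ≠ z • (1 : Matrix (M d) (M d) F) := by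
    intro z hz
    obtain ⟨W, hW⟩ := hex
    exact hxW W hW (by rw [hz]; exact stab_scalar z W)
  obtain ⟨W, hW, hWs⟩ := h x hxΩ hxz hxns
  exact hxW W hW hWs

theorem good_fin (hProj : Proj.{u}) {F : Type u} [Field F] [Fintype F] (d m : ℕ) (hd : 1 ≤ d)
    (a b : F) (hAn : Aniso a b) (r : ℕ) (hrodd : Odd r)
    (hy : ∀ y : Matrix.GeneralLinearGroup (M d) F,
      y ∈ Cfsg.isometryGroup F (Cfsg.quadFormMinus (d - 1) F a b) → y ^ r = 1 →
        ∃ W : Submodule F (M d → F), MemEM d F a b m W ∧ StabM (y : Matrix (M d) (M d) F) W) :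
    ∀ x : Matrix.GeneralLinearGroup (M d) F,
      x ∈ Cfsg.Geo.omegaGL (Cfsg.quadFormMinus (d - 1) F a b) →
      (∃ z : F, ((x ^ r : Matrix.GeneralLinearGroup (M d) F) : Matrix (M d) (M d) F) =
        z • (1 : Matrix (M d) (M d) F)) →
      (∀ z : F, (x : Matrix (M d) (M d) F) ≠ z • (1 : Matrix (M d) (M d) F)) →
      ∃ W : Submodule F (M d → F), (Module.finrank F ↥W = m ∧
        Cfsg.Geo.IsNondegenerateOn (QuadraticMap.polar (Cfsg.quadFormMinus (d - 1) F a b)) W ∧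
        ¬ Cfsg.Geo.IsPlusTypeOn (Cfsg.quadFormMinus (d - 1) F a b) W) ∧
        W.map (Matrix.toLin' (x : Matrix (M d) (M d) F)) ≤ W := by
  intro x hxΩ hxz _
  obtain ⟨y, hyiso, hyr, hyW⟩ := hProj F a b hAn d hd r hrodd x (omegaGL_le d a b hxΩ) hxz
  obtain ⟨W, hW, hWs⟩ := hy y hyiso hyr
  exact ⟨W, hW, hyW W hWs⟩

theorem final (hTop : Top.{u}) (hSub : SubTypeE.{u}) (hProj : Proj.{u}) (hB1 : B1E.{u})
    (hB2 : B2E.{u}) (hNDiv : NDivE.{u}) (hScal : ScalM.{u}) (hEx : NegSqExM.{u})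
    (hInvol : InvolE.{u}) (hFB1 : NegSqFixB1.{u}) (hFB2 : NegSqFixB2.{u})
    (hC2Fix : C2Fix.{u}) (hC2Der : C2Der.{u})
    {F : Type u} [Field F] [Fintype F] {p : ℕ} [Fact p.Prime] [CharP F p] {q : ℕ} (hq : Fintype.card F = q)
    (d m : ℕ) (hd : 4 ≤ d) (hm : 2 ≤ m) (hme : Even m) (hmn : m + 2 ≤ 2 * d) (a b : F) (hab : ∀ x y : F, x ^ 2 + a * x * y + b * y ^ 2 = 0 → x = 0 ∧ y = 0)
    (r : ℕ) [Fact r.Prime] (hr : r = 2 ∨ r ≠ p)
    (hrΩ : r ∣ Nat.card {W : Submodule F ((Fin (d - 1) ⊕ Fin (d - 1)) ⊕ Fin 2 → F) // Module.finrank F ↥W = m ∧ Cfsg.Geo.IsNondegenerateOn (QuadraticMap.polar (Cfsg.quadFormMinus (d - 1) F a b)) W ∧ ¬ Cfsg.Geo.IsPlusTypeOn (Cfsg.quadFormMinus (d - 1) F a b) W})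
    (i c : ℕ) (hi : i = orderOf (q : ZMod r)) (hc : c = if Even i then i else 2 * i) :
    (∀ x : GL ((Fin (d - 1) ⊕ Fin (d - 1)) ⊕ Fin 2) F, x ∈ Cfsg.Geo.omegaGL (Cfsg.quadFormMinus (d - 1) F a b) →
      (∃ z : F, ((x ^ r : GL ((Fin (d - 1) ⊕ Fin (d - 1)) ⊕ Fin 2) F) : Matrix ((Fin (d - 1) ⊕ Fin (d - 1)) ⊕ Fin 2) ((Fin (d - 1) ⊕ Fin (d - 1)) ⊕ Fin 2) F) = z • (1 : Matrix ((Fin (d - 1) ⊕ Fin (d - 1)) ⊕ Fin 2) ((Fin (d - 1) ⊕ Fin (d - 1)) ⊕ Fin 2) F)) →
      (∀ z : F, (x : Matrix ((Fin (d - 1) ⊕ Fin (d - 1)) ⊕ Fin 2) ((Fin (d - 1) ⊕ Fin (d - 1)) ⊕ Fin 2) F) ≠ z • (1 : Matrix ((Fin (d - 1) ⊕ Fin (d - 1)) ⊕ Fin 2) ((Fin (d - 1) ⊕ Fin (d - 1)) ⊕ Fin 2) F)) →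
      ∃ W : Submodule F ((Fin (d - 1) ⊕ Fin (d - 1)) ⊕ Fin 2 → F), (Module.finrank F ↥W = m ∧ Cfsg.Geo.IsNondegenerateOn (QuadraticMap.polar (Cfsg.quadFormMinus (d - 1) F a b)) W ∧ ¬ Cfsg.Geo.IsPlusTypeOn (Cfsg.quadFormMinus (d - 1) F a b) W) ∧ W.map (Matrix.toLin' (x : Matrix ((Fin (d - 1) ⊕ Fin (d - 1)) ⊕ Fin 2) ((Fin (d - 1) ⊕ Fin (d - 1)) ⊕ Fin 2) F)) ≤ W) ↔
    ((r = 2 ∧ p = 2 ∧ (Even d ∨ m % 4 = 2)) ∨
     (r = 2 ∧ p ≠ 2 ∧ (Even d ∨ q % 8 ≠ 7 ∨ m % 4 = 2)) ∨
     (r ≠ p ∧ 2 < r ∧ Odd i ∧ ((2 * d) % c = 0 ∨ (c ≤ m ∧ 0 < m % c ∧ m % c ≤ (2 * d) % c))) ∨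
     (r ≠ p ∧ 2 < r ∧ Even i ∧
       (((2 * d) % c = 0 ∧ (Even ((2 * d) / i) ∨ (m % c = 0 ∧ Odd (m / i)))) ∨
        (0 < (2 * d) % c ∧ i ≤ m ∧ ((0 < m % c ∧ m % c < (2 * d) % c) ∨ (m % c = 0 ∧ Odd (m / i)) ∨
                                    (m % c = (2 * d) % c ∧ Even ((2 * d + m - 2 * ((2 * d) % c)) / i))))))) := by
  subst hq
  have hr' : r.Prime := Fact.out
  have hp : p.Prime := Fact.out
  have hAn : Aniso a b := hab
  have hd1 : 1 ≤ d := by omega
  have hex := exists_mem hTop hSub d m hd1 hm hme hmn a b hAn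
  obtain ⟨f, -, hf⟩ := FiniteField.card F p
  have hm4 : m % 4 = 0 ∨ m % 4 = 2 := by
    obtain ⟨k, hk⟩ := hme
    omega
  by_cases hr2 : r = 2
  · subst hr2
    by_cases hp2 : p = 2
    · subst hp2
      constructor
      · intro h
        left
        refine ⟨rfl, rfl, ?_⟩
        by_contra hcon
        have hdo : Odd d := by
          rcases Nat.even_or_odd d with h' | h'
          · exact absurd (Or.inl h') hcon
          · exact h'
        have hm0 : m % 4 = 0 := by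
          rcases hm4 with h' | h'
          · exact h'
          · exact absurd (Or.inr h') hcon
        obtain ⟨x, hxΩ, hxx, hxns, hxW⟩ := hC2Der F a b hAn d m hd hdo hm hm0 hmn
        have hxz : ∃ z : F, ((x ^ 2 : Matrix.GeneralLinearGroup (M d) F) :
            Matrix (M d) (M d) F) = z • (1 : Matrix (M d) (M d) F) :=
          ⟨1, by rw [pow_two, Units.val_mul, hxx, one_smul]⟩
        obtain ⟨W, hW, hWs⟩ := h x hxΩ hxz hxns
        exact hxW W hW hWs
      · rintro (⟨-, -, h⟩ | ⟨-, h, -⟩ | ⟨h, -⟩ | ⟨h, -⟩)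
        · intro x hxΩ hxz hxns
          obtain ⟨z, hz⟩ := hxz
          have hxi := omegaGL_le d a b hxΩ
          have hx2i : x ^ 2 ∈ Cfsg.isometryGroup F (Cfsg.quadFormMinus (d - 1) F a b) :=
            Subgroup.pow_mem _ hxi 2
          have hxx : (x : Matrix (M d) (M d) F) * (x : Matrix (M d) (M d) F) = 1 := by
            rcases hScal F d a b (x ^ 2) hx2i z hz with rfl | rfl
            · rw [← Units.val_mul, ← pow_two, hz, one_smul]
            · rw [← Units.val_mul, ← pow_two, hz]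
              have h1 : (-1 : F) = 1 := CharTwo.neg_eq 1
              rw [h1, one_smul]
          obtain ⟨W, hW, hWs⟩ := hC2Fix F a b hAn d m hd hm hme hmn h x hxi hxx
          exact ⟨W, hW, hWs⟩
        · exact absurd rfl h
        · exact absurd rfl h
        · exact absurd rfl h
    · have hFodd : Odd (Fintype.card F) := by
        rw [hf]
        exact (hp.odd_of_ne_two hp2).pow
      constructor
      · intro h
        right
        left
        refine ⟨rfl, hp2, ?_⟩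
        by_contra hcon
        have hdo : Odd d := by
          rcases Nat.even_or_odd d with h' | h'
          · exact absurd (Or.inl h') hcon
          · exact h'
        have hq7 : Fintype.card F % 8 = 7 := by
          by_contra h'
          exact hcon (Or.inr (Or.inl h'))
        have hm0 : m % 4 = 0 := by
          rcases hm4 with h' | h'
          · exact h'
          · exact absurd (Or.inr (Or.inr h')) hcon
        have hq4 : Fintype.card F % 4 = 3 := by omega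
        obtain ⟨x, hxΩ, hxx⟩ := hEx F hq7 d hdo a b hAn
        have hsq : ((x ^ 2 : Matrix.GeneralLinearGroup (M d) F) : Matrix (M d) (M d) F) =
            (-1 : F) • (1 : Matrix (M d) (M d) F) := by
          rw [pow_two, Units.val_mul, hxx]; simp
        have hns : ∀ z : F, (x : Matrix (M d) (M d) F) ≠ z • (1 : Matrix (M d) (M d) F) := by
          intro z hz
          have h1 : (z * z) • (1 : Matrix (M d) (M d) F) = -1 := by
            rw [← hxx, hz]; simp [smul_smul]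
          have h2 : z * z = -1 := by
            have := congrFun (congrFun h1 (Sum.inr 0)) (Sum.inr 0)
            simpa using this
          have hsqm : IsSquare (-1 : F) := ⟨z, h2.symm⟩
          rw [FiniteField.isSquare_neg_one_iff] at hsqm
          exact hsqm hq4
        obtain ⟨W, hW, hWs⟩ := h x hxΩ ⟨-1, hsq⟩ hns
        exact hW.2.2 (hFB1 F a b hAn hq4 d x (omegaGL_le d a b hxΩ) hxx W hW.2.1 hWs
          (by rw [hW.1]; exact hm0))
      · rintro (⟨-, h, -⟩ | ⟨-, -, h⟩ | ⟨-, h, -⟩ | ⟨-, h, -⟩)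
        · exact absurd h hp2
        · intro x hxΩ hxz hxns
          obtain ⟨z, hz⟩ := hxz
          have hxi := omegaGL_le d a b hxΩ
          have hx2i : x ^ 2 ∈ Cfsg.isometryGroup F (Cfsg.quadFormMinus (d - 1) F a b) :=
            Subgroup.pow_mem _ hxi 2
          rcases hScal F d a b (x ^ 2) hx2i z hz with rfl | rfl
          · have hxx : (x : Matrix (M d) (M d) F) * (x : Matrix (M d) (M d) F) = 1 := by
              rw [← Units.val_mul, ← pow_two, hz, one_smul]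
            obtain ⟨W, hW, hWs⟩ := hInvol F a b hAn hFodd d m hd hm hme hmn x hxi hxx hxns
            exact ⟨W, hW, hWs⟩
          · have hxx : (x : Matrix (M d) (M d) F) * (x : Matrix (M d) (M d) F) = -1 := by
              rw [← Units.val_mul, ← pow_two, hz]; simp
            obtain ⟨hdo, hq7⟩ :=
              Cfsg.Agent.Lib.Helper24.MinusNegSq.main hFodd d hd1 a b hab x hxΩ hxx
            have hq4 : Fintype.card F % 4 = 3 := by omega
            have hm2 : m % 4 = 2 := by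
              rcases h with h | h | h
              · exact absurd h (Nat.not_even_iff_odd.mpr hdo)
              · exact absurd hq7 h
              · exact h
            obtain ⟨W, hW, hWs⟩ := hFB2 F a b hAn hq4 d m hm2 (by omega) x hxi hxx
            exact ⟨W, hW, hWs⟩
        · omega
        · omega
  · have hrp : r ≠ p := by
      rcases hr with h | h
      · exact absurd h hr2
      · exact h
    have h2r : 2 < r := by
      have := hr'.two_le
      omega
    have hrodd : Odd r := hr'.odd_of_ne_two hr2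
    subst hi
    have hcc : c = cc (orderOf ((Fintype.card F : ℕ) : ZMod r)) := hc
    subst hcc
    have hAE := hNDiv F a b hAn p d m hd hm hme hmn r hr2 hrp hrΩ
    constructor
    · intro h
      right
      right
      by_contra hcon
      have hncond : ¬ CondEM d m (orderOf ((Fintype.card F : ℕ) : ZMod r)) := by
        intro hc'
        rcases hc' with ⟨h1, h2⟩ | ⟨h1, h2⟩
        · exact hcon (Or.inl ⟨hrp, h2r, h1, h2⟩)
        · exact hcon (Or.inr ⟨hrp, h2r, h1, h2⟩)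
      obtain ⟨x, hxΩ, hxo, hxW⟩ := hB2 F a b hAn p d m hd hm hme hmn r hr2 hrp hAE hncond
      have hxr : x ^ r = 1 := by
        rw [← hxo]
        exact pow_orderOf_eq_one x
      exact bad_fin d m a b r hex x hxΩ ⟨1, by rw [hxr, one_smul]; rfl⟩ hxW h
    · rintro (⟨h, -⟩ | ⟨h, -⟩ | ⟨-, -, h1, h2⟩ | ⟨-, -, h1, h2⟩)
      · exact absurd h hr2
      · exact absurd h hr2
      · exact good_fin hProj d m hd1 a b hAn r hrodd
          (hB1 F a b hAn p d m hd hm hme hmn r hr2 hrp (Or.inl ⟨h1, h2⟩))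
      · exact good_fin hProj d m hd1 a b hAn r hrodd
          (hB1 F a b hAn p d m hd hm hme hmn r hr2 hrp (Or.inr ⟨h1, h2⟩))

end Cfsg.Agent.Lib.Helper41.EMFin
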