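import Cfsg.Agent.Lib.Helper37.EluStmt

set_option autoImplicit false

/-! S5958 piece CYCFIX: `CycFix`. -/

namespace Cfsg.Agent.Lib.Helper41.EluCYCFIX

open Cfsg.Agent.Lib.Helper37.EluStmt

universe u

theorem main : CycFix.{u} := by
  intro F _ V _ _ _ φ r hr hφ t D σ hind hmap j hinj
  classical
  -- the norm map
  have hN : (φ - 1) * (∑ i ∈ Finset.range r, φ ^ i) = 0 := by
    rw [mul_geom_sum, hφ, sub_self]
  have hmem : ∀ d : D j, (∑ i ∈ Finset.range r, φ ^ i) ((D j).subtype d) ∈
      LinearMap.ker (φ - 1) := by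
    intro d
    rw [LinearMap.mem_ker]
    have := congrArg (fun ψ : Module.End F V => ψ (d : V)) hN
    simpa using this
  have hpow : ∀ (i : ℕ) (d : V), d ∈ D j → (φ ^ i) d ∈ D ((σ ^ i) j) := by
    intro i d hd
    rw [← map_pow_eq φ D σ hmap i j]
    exact Submodule.mem_map_of_mem hd
  have hind' : iSupIndep (fun i : Fin r => D ((σ ^ (i : ℕ)) j)) := hind.comp hinj
  have hfinj : Function.Injective
      (((∑ i ∈ Finset.range r, φ ^ i).comp (D j).subtype).codRestrict
        (LinearMap.ker (φ - 1)) hmem) := by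
    rw [← LinearMap.ker_eq_bot, LinearMap.ker_eq_bot']
    intro d hd
    have h0 : (∑ i ∈ Finset.range r, φ ^ i) (d : V) = 0 := by
      have := congrArg Subtype.val hd
      simpa using this
    rw [LinearMap.sum_apply, Finset.sum_range (fun i => (φ ^ i) (d : V))] at h0
    have h1 := (iSupIndep_iff_finsetSum_eq_zero_imp_eq_zero _).mp hind' Finset.univ
      (fun i : Fin r => (φ ^ (i : ℕ)) (d : V)) (fun i _ => hpow i d d.2) h0
      ⟨0, hr.pos⟩ (Finset.mem_univ _)
    apply Subtype.ext
    simpa using h1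
  exact LinearMap.finrank_le_finrank_of_injective hfinj

end Cfsg.Agent.Lib.Helper41.EluCYCFIX
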