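import Cfsg.Agent.Lib.Helper37.EluStmt

set_option autoImplicit false

/-! S5958 piece CYCRANK: `CycRank`. -/

namespace Cfsg.Agent.Lib.Helper41.EluCYCRANK

open Cfsg.Agent.Lib.Helper37.EluStmt

universe u

theorem main : CycRank.{u} := by
  intro F _ V _ _ _ φ r hr hφ t D σ hind hmap j hinj
  classical
  obtain ⟨m, rfl⟩ : ∃ m, r = m + 1 := ⟨r - 1, by have := hr.pos; omega⟩
  have hpow : ∀ (i : ℕ) (d : V), d ∈ D j → (φ ^ i) d ∈ D ((σ ^ i) j) := by
    intro i d hd
    rw [← map_pow_eq φ D σ hmap i j]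
    exact Submodule.mem_map_of_mem hd
  have hind' : iSupIndep (fun i : Fin (m + 1) => D ((σ ^ (i : ℕ)) j)) := hind.comp hinj
  have hφinj : ∀ (k : ℕ) (d : V), (φ ^ k) d = 0 → d = 0 := by
    intro k d hd
    have h1 : φ ^ (m * k) * φ ^ k = 1 := by
      rw [← pow_add, show m * k + k = (m + 1) * k by ring, pow_mul, hφ, one_pow]
    have h2 := congrArg (fun ψ : Module.End F V => ψ d) h1
    simp only [Module.End.mul_apply, Module.End.one_apply] at h2
    rw [hd, map_zero] at h2
    exact h2.symm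
  obtain ⟨Θ, hΘdef⟩ : ∃ Θ : (Fin m → D j) →ₗ[F] V, Θ = ∑ i : Fin m,
      ((φ ^ ((i : ℕ) + 1) - 1).comp (D j).subtype).comp (LinearMap.proj i) := ⟨_, rfl⟩
  have hΘ : ∀ d : Fin m → D j,
      Θ d = ∑ i : Fin m, ((φ ^ ((i : ℕ) + 1)) (d i : V) - (d i : V)) := by
    intro d
    rw [hΘdef, LinearMap.sum_apply]
    rfl
  have hrange : LinearMap.range Θ ≤ LinearMap.range (φ - 1) := by
    rintro _ ⟨d, rfl⟩
    rw [hΘ]
    refine Submodule.sum_mem _ (fun i _ => ?_)
    refine ⟨(∑ k ∈ Finset.range ((i : ℕ) + 1), φ ^ k) (d i : V), ?_⟩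
    have := congrArg (fun ψ : Module.End F V => ψ (d i : V)) (mul_geom_sum φ ((i : ℕ) + 1))
    simpa using this
  have hΘinj : Function.Injective Θ := by
    rw [← LinearMap.ker_eq_bot, LinearMap.ker_eq_bot']
    intro d hd
    rw [hΘ] at hd
    have hsum : ∑ i : Fin (m + 1), (Fin.cons (-(∑ i : Fin m, (d i : V)))
        (fun i : Fin m => (φ ^ ((i : ℕ) + 1)) (d i : V)) : Fin (m + 1) → V) i = 0 := by
      rw [Fin.sum_univ_succ]
      simp only [Fin.cons_zero, Fin.cons_succ]
      rw [← hd, Finset.sum_sub_distrib]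
      abel
    have hv : ∀ i ∈ (Finset.univ : Finset (Fin (m + 1))),
        (Fin.cons (-(∑ i : Fin m, (d i : V)))
          (fun i : Fin m => (φ ^ ((i : ℕ) + 1)) (d i : V)) : Fin (m + 1) → V) i ∈
          D ((σ ^ (i : ℕ)) j) := by
      intro i _
      refine Fin.cases ?_ (fun i => ?_) i
      · simp only [Fin.cons_zero, Fin.val_zero, pow_zero]
        exact Submodule.neg_mem _ (Submodule.sum_mem _ (fun i _ => (d i).2))
      · simp only [Fin.cons_succ, Fin.val_succ]
        exact hpow _ _ (d i).2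
    have h1 := (iSupIndep_iff_finsetSum_eq_zero_imp_eq_zero _).mp hind' Finset.univ _ hv hsum
    funext i
    have h2 := h1 i.succ (Finset.mem_univ _)
    simp only [Fin.cons_succ] at h2
    exact Subtype.ext (hφinj _ _ h2)
  have h3 : Module.finrank F (Fin m → D j) = m * Module.finrank F (D j) := by
    rw [Module.finrank_pi_fintype]
    simp
  have h4 := LinearMap.finrank_range_of_inj hΘinj
  have h5 := Submodule.finrank_mono hrange
  have h6 := LinearMap.finrank_range_add_finrank_ker (φ - 1)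
  rw [Nat.add_sub_cancel]
  omega

end Cfsg.Agent.Lib.Helper41.EluCYCRANK
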