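import Cfsg.Agent.Lib.Helper37.EluStmt
import Cfsg.Agent.Lib.Helper40.PrimeFix

set_option autoImplicit false

/-! S5958 piece NPB: `Peel → NonPowB`. -/

namespace Cfsg.Agent.Lib.Helper41.EluNPB

open Polynomial Cfsg.Agent.Lib.Helper37.EluStmt

universe u

/-- the cyclic successor on `Fin r` -/
def stepFin (r : ℕ) (hr : 0 < r) (j : Fin r) : Fin r :=
  if h : (j : ℕ) + 1 < r then ⟨(j : ℕ) + 1, h⟩ else ⟨0, hr⟩

theorem stepFin_injective (r : ℕ) (hr : 0 < r) : Function.Injective (stepFin r hr) := by
  intro j j' h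
  have h2 := congrArg (fun y : Fin r => (y : ℕ)) h
  unfold stepFin at h2
  have hj := j.2
  have hj' := j'.2
  apply Fin.ext
  by_cases h1 : (j : ℕ) + 1 < r <;> by_cases h1' : (j' : ℕ) + 1 < r
  · simp only [dif_pos h1, dif_pos h1'] at h2
    omega
  · simp only [dif_pos h1, dif_neg h1'] at h2
    omega
  · simp only [dif_neg h1, dif_pos h1'] at h2
    omega
  · omega

theorem main (hPeel : Peel.{u}) : NonPowB.{u} := by
  intro F _ _ p _ _ r _ hrp n a t hn ha hrt x z hz hx
  classical
  have hr : r.Prime := Fact.out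
  have hr0 : (r : F) ≠ 0 :=
    Cfsg.Agent.Lib.Helper40.PrimeFix.cast_ne_zero' (F := F) (p := p) r hrp
  have hz0 : z ≠ 0 := by
    rintro rfl
    exact hz 0 (zero_pow hr.ne_zero)
  obtain ⟨A, hA, hchar, hdims, -⟩ :=
    Cfsg.Agent.Lib.Helper40.PrimeFix.structure_of_nonpower r hr0 x z hz hx
  obtain ⟨t', rfl⟩ := hrt
  have hAeq : A = a * t' := by
    have h1 : r * A = r * (a * t') := by rw [hA, hn]; ring
    exact Nat.eq_of_mul_eq_mul_left hr.pos h1
  subst hAeq
  obtain ⟨φ, hφdef⟩ : ∃ φ : Module.End F (Fin n → F), φ = Matrix.toLin' x := ⟨_, rfl⟩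
  have hss : φ.IsSemisimple := by
    rw [hφdef]
    exact Cfsg.Agent.Lib.Helper40.InvDims.isSemisimple_of_pow_eq_smul x r z hz0 hr0 hx
  have hφr : ∀ w : Fin n → F, (φ ^ r) w = z • w := by
    intro w
    rw [hφdef, ← Matrix.toLin'_pow, hx, map_smul, Matrix.toLin'_one]
    rfl
  have hφchar : φ.charpoly =
      (X - C 1) ^ 0 * (Multiset.replicate (a * t') (X ^ r - C z)).prod := by
    rw [hφdef, Matrix.charpoly_toLin', hchar, pow_zero, one_mul, Multiset.prod_replicate]
  obtain ⟨D, hDinv, hDrank, hDind, hDtop⟩ := hPeel F (Fin n → F) φ hss r r (a * t') 1 0 0 0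
    (Multiset.replicate (a * t') (X ^ r - C z)) hφchar
    (fun P hP => by
      rw [Multiset.eq_of_mem_replicate hP]
      exact ⟨monic_X_pow_sub_C z hr.ne_zero, natDegree_X_pow_sub_C⟩)
    (by ring) (by ring) (by rw [Multiset.card_replicate]; ring)
  have hex : ∀ m, ∃ v : Fin n → F, v ∈ D m ∧ v ≠ 0 := by
    intro m
    have h1 : D m ≠ ⊥ := by
      intro h
      have h2 := hDrank m
      rw [h, finrank_bot] at h2
      exact hr.ne_zero h2.symm
    exact (Submodule.ne_bot_iff _).mp h1
  choose v hvD hv0 using hex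
  have hpowD : ∀ m (j : ℕ), (φ ^ j) (v m) ∈ D m := by
    intro m j
    induction j with
    | zero => simpa using hvD m
    | succ j ih =>
      rw [pow_succ', Module.End.mul_apply]
      exact hDinv m _ ih
  have hstep : ∀ (w : Fin n → F) (j : Fin r),
      φ ((φ ^ (j : ℕ)) w) = (if (j : ℕ) + 1 < r then (1 : F) else z) •
        (φ ^ ((stepFin r hr.pos j : Fin r) : ℕ)) w := by
    intro w j
    unfold stepFin
    by_cases hj : (j : ℕ) + 1 < r
    · rw [if_pos hj, dif_pos hj, one_smul]
      show _ = (φ ^ ((j : ℕ) + 1)) w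
      rw [pow_succ', Module.End.mul_apply]
    · have hjr : (j : ℕ) + 1 = r := by have := j.2; omega
      rw [if_neg hj, dif_neg hj]
      show _ = z • (φ ^ 0) w
      rw [← Module.End.mul_apply, ← pow_succ', hjr, hφr, pow_zero, Module.End.one_apply]
  have hW : ∀ m, Submodule.span F (Set.range (fun j : Fin r => (φ ^ (j : ℕ)) (v m))) = D m := by
    intro m
    have hle : Submodule.span F (Set.range (fun j : Fin r => (φ ^ (j : ℕ)) (v m))) ≤ D m := by
      rw [Submodule.span_le]
      rintro _ ⟨j, rfl⟩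
      exact hpowD m j
    have hinv : (Submodule.span F (Set.range (fun j : Fin r => (φ ^ (j : ℕ)) (v m)))).map
        (Matrix.toLin' x) ≤
        Submodule.span F (Set.range (fun j : Fin r => (φ ^ (j : ℕ)) (v m))) := by
      rw [← hφdef, Submodule.map_span, Submodule.span_le]
      rintro _ ⟨_, ⟨j, rfl⟩, rfl⟩
      show φ ((φ ^ (j : ℕ)) (v m)) ∈ _
      rw [hstep]
      exact Submodule.smul_mem _ _ (Submodule.subset_span ⟨stepFin r hr.pos j, rfl⟩)
    obtain ⟨j, -, hj⟩ := (hdims _).mp ⟨_, rfl, hinv⟩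
    have hpos : 0 < Module.finrank F
        (Submodule.span F (Set.range (fun j : Fin r => (φ ^ (j : ℕ)) (v m)))) := by
      rw [Module.finrank_pos_iff_exists_ne_zero]
      refine ⟨⟨v m, Submodule.subset_span ⟨⟨0, hr.pos⟩, by simp⟩⟩, ?_⟩
      intro h
      exact hv0 m (congrArg Subtype.val h)
    have hj1 : 1 ≤ j := by
      rcases Nat.eq_zero_or_pos j with h | h
      · rw [h, mul_zero] at hj
        omega
      · exact h
    apply Submodule.eq_of_le_of_finrank_le hle
    rw [hDrank m, ← hj]
    exact Nat.le_mul_of_pos_right r hj1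
  -- the monomial basis
  obtain ⟨b, hbdef⟩ : ∃ b : (Fin a × Fin t') × Fin r → (Fin n → F),
      b = fun q => (φ ^ (q.2 : ℕ)) (v (finProdFinEquiv q.1)) := ⟨_, rfl⟩
  have hb : ∀ q, b q = (φ ^ (q.2 : ℕ)) (v (finProdFinEquiv q.1)) := fun q => by rw [hbdef]
  have hspan : Submodule.span F (Set.range b) = ⊤ := by
    rw [eq_top_iff, ← hDtop]
    apply iSup_le
    intro m
    rw [← hW m, Submodule.span_le]
    rintro _ ⟨j, rfl⟩
    apply Submodule.subset_span
    refine ⟨(finProdFinEquiv.symm m, j), ?_⟩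
    rw [hb]
    show (φ ^ (j : ℕ)) (v (finProdFinEquiv (finProdFinEquiv.symm m))) = _
    rw [Equiv.apply_symm_apply]
  have hcard : Fintype.card ((Fin a × Fin t') × Fin r) = Module.finrank F (Fin n → F) := by
    rw [Module.finrank_fin_fun, hn]
    simp only [Fintype.card_prod, Fintype.card_fin]
    ring
  have hli : LinearIndependent F b :=
    linearIndependent_of_top_le_span_of_card_eq_finrank (le_of_eq hspan.symm) hcard
  have hφinj : Function.Injective φ := by
    rw [← LinearMap.ker_eq_bot, LinearMap.ker_eq_bot']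
    intro w hw
    have h1 : (φ ^ r) w = 0 := by
      obtain ⟨r', hr'⟩ : ∃ r', r = r' + 1 := ⟨r - 1, by have := hr.pos; omega⟩
      rw [hr', pow_succ, Module.End.mul_apply, hw, map_zero]
    rw [hφr] at h1
    exact (smul_eq_zero.mp h1).resolve_left hz0
  have hπ : Function.Injective
      (fun q : (Fin a × Fin t') × Fin r => (q.1, stepFin r hr.pos q.2)) := by
    intro q q' h
    have h1 : q.1 = q'.1 := by
      have := congrArg Prod.fst h
      exact this
    have h2 : stepFin r hr.pos q.2 = stepFin r hr.pos q'.2 := by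
      have := congrArg Prod.snd h
      exact this
    exact Prod.ext h1 (stepFin_injective r hr.pos h2)
  have hxb : ∀ q : (Fin a × Fin t') × Fin r, φ (b q) =
      (if (q.2 : ℕ) + 1 < r then (1 : F) else z) • b (q.1, stepFin r hr.pos q.2) := by
    intro q
    rw [hb, hb, hstep]
  -- the blocks
  have hBcard : ∀ k : Fin (r * t'), ((Finset.univ : Finset (Fin a)).image
      (fun i : Fin a => ((i, (finProdFinEquiv.symm k).2), (finProdFinEquiv.symm k).1))).card
      = a := by
    intro k
    rw [Finset.card_image_of_injective]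
    · simp
    · intro i i' h
      simpa using h
  have hBdisj : ∀ k l : Fin (r * t'), k ≠ l → Disjoint
      ((Finset.univ : Finset (Fin a)).image
        (fun i : Fin a => ((i, (finProdFinEquiv.symm k).2), (finProdFinEquiv.symm k).1)))
      ((Finset.univ : Finset (Fin a)).image
        (fun i : Fin a => ((i, (finProdFinEquiv.symm l).2), (finProdFinEquiv.symm l).1))) := by
    intro k l hkl
    rw [Finset.disjoint_left]
    intro q hq hq'
    obtain ⟨i, -, rfl⟩ := Finset.mem_image.mp hq
    obtain ⟨i', -, h⟩ := Finset.mem_image.mp hq'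
    apply hkl
    simp only [Prod.mk.injEq] at h
    have h3 : finProdFinEquiv.symm k = finProdFinEquiv.symm l := Prod.ext h.2.symm h.1.2.symm
    exact finProdFinEquiv.symm.injective h3
  have hBcover : ∀ q : (Fin a × Fin t') × Fin r, ∃ k : Fin (r * t'), q ∈
      (Finset.univ : Finset (Fin a)).image
        (fun i : Fin a => ((i, (finProdFinEquiv.symm k).2), (finProdFinEquiv.symm k).1)) := by
    intro q
    refine ⟨finProdFinEquiv (q.2, q.1.2), Finset.mem_image.mpr ⟨q.1.1, Finset.mem_univ _, ?_⟩⟩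
    simp
  have hBimg : ∀ k : Fin (r * t'), ∃ l : Fin (r * t'),
      ((Finset.univ : Finset (Fin a)).image
        (fun i : Fin a => ((i, (finProdFinEquiv.symm k).2), (finProdFinEquiv.symm k).1))).image
        (fun q : (Fin a × Fin t') × Fin r => (q.1, stepFin r hr.pos q.2)) =
      (Finset.univ : Finset (Fin a)).image
        (fun i : Fin a => ((i, (finProdFinEquiv.symm l).2), (finProdFinEquiv.symm l).1)) := by
    intro k
    refine ⟨finProdFinEquiv (stepFin r hr.pos (finProdFinEquiv.symm k).1,
      (finProdFinEquiv.symm k).2), ?_⟩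
    rw [Finset.image_image]
    simp only [Equiv.symm_apply_apply]
    rfl
  have key := of_blocks φ hφinj b
    (fun q : (Fin a × Fin t') × Fin r => (q.1, stepFin r hr.pos q.2))
    (fun q => if (q.2 : ℕ) + 1 < r then (1 : F) else z) hli hspan hπ hxb a (r * t') ha
    (fun k => (Finset.univ : Finset (Fin a)).image
      (fun i : Fin a => ((i, (finProdFinEquiv.symm k).2), (finProdFinEquiv.symm k).1)))
    hBcard hBdisj hBcover hBimg
  subst hφdef
  exact key

end Cfsg.Agent.Lib.Helper41.EluNPB
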