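import Cfsg.Agent.Lib.Helper37.EluStmt

set_option autoImplicit false

/-! S5958 piece PERM: `PermDich`. -/

namespace Cfsg.Agent.Lib.Helper41.EluPERM

open Cfsg.Agent.Lib.Helper37.EluStmt

universe u

theorem main : PermDich.{u} := by
  intro F _ V _ _ _ φ r hr hφ t D σ hind hne hmap j
  by_cases hfix : σ j = j
  · exact Or.inl hfix
  · right
    have hDinj : Function.Injective D := hind.injective hne
    have hσr : (σ ^ r) j = j := by
      apply hDinj
      rw [← map_pow_eq φ D σ hmap r j, hφ]
      exact Submodule.map_id _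
    have key : ∀ a b : ℕ, a < b → b < r → (σ ^ a) j = (σ ^ b) j → False := by
      intro a b hab hbr h
      have hd : (σ ^ (b - a)) j = j := by
        have e : σ ^ b = σ ^ a * σ ^ (b - a) := by
          rw [← pow_add]; congr 1; omega
        rw [e, Equiv.Perm.mul_apply] at h
        exact ((σ ^ a).injective h).symm
      have hcop : Nat.Coprime r (b - a) :=
        (Nat.Prime.coprime_iff_not_dvd hr).mpr (Nat.not_dvd_of_pos_of_lt (by omega) (by omega))
      have hb := Nat.gcd_eq_gcd_ab r (b - a)
      rw [hcop.gcd_eq_one] at hb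
      have e2 : σ = (σ ^ r) ^ (Nat.gcdA r (b - a)) * (σ ^ (b - a)) ^ (Nat.gcdB r (b - a)) := by
        rw [← zpow_natCast, ← zpow_natCast, ← zpow_mul, ← zpow_mul, ← zpow_add, ← hb]
        simp
      apply hfix
      have e3 : σ j = ((σ ^ r) ^ (Nat.gcdA r (b - a)) *
          (σ ^ (b - a)) ^ (Nat.gcdB r (b - a))) j := congrArg (fun τ : Equiv.Perm (Fin t) => τ j) e2
      rw [e3, Equiv.Perm.mul_apply, Equiv.Perm.zpow_apply_eq_self_of_apply_eq_self hd,
        Equiv.Perm.zpow_apply_eq_self_of_apply_eq_self hσr]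
    intro a b hab
    by_contra hne'
    have hne2 : (a : ℕ) ≠ (b : ℕ) := fun h => hne' (Fin.ext h)
    rcases lt_or_gt_of_ne hne2 with h | h
    · exact key a b h b.2 hab
    · exact key b a h a.2 hab.symm

end Cfsg.Agent.Lib.Helper41.EluPERM
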