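import Mathlib
import Cfsg.Agent.Lib.Helper41.SpFStmt
import Cfsg.Agent.Lib.Helper40.FExt
import Cfsg.Agent.Lib.Helper40.FExtIdx
import Cfsg.Agent.Lib.Helper40.FExtOdd

/-!
# S5975: assembly of the pieces of `SpFStmt`
-/

set_option autoImplicit false

namespace Cfsg.Agent.Lib.Helper41.SpFAsm

open Matrix Polynomial
open Cfsg.Agent.Lib.Helper40.SympConj (sadj)
open Cfsg.Agent.Lib.Helper41.SpFStmt

universe u

section basic
variable {F : Type u} [Field F] {d : ℕ}

/-- Conjugation transports everything we need. -/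
theorem apply_all (K : Subalgebra F (Mat d F)) (r : ℕ)
    (hAll : ∀ x ∈ Cfsg.spGL d F,
      (∃ z : F, ((x ^ r : GL (Fin d ⊕ Fin d) F) : Mat d F) = z • (1 : Mat d F)) →
      (∀ z : F, (x : Mat d F) ≠ z • (1 : Mat d F)) →
      ∃ g ∈ Cfsg.spGL d F, g⁻¹ * x * g ∈ Cfsg.Geo.subalgebraNormalizer K)
    (x : Mat d F) (hx : sadj x * x = 1) (hxr : x ^ r = 1) (hxns : ∀ z : F, x ≠ z • 1) :
    ∃ y : GL (Fin d ⊕ Fin d) F, y ∈ Cfsg.Geo.subalgebraNormalizer K ∧ sadj y.val * y.val = 1 ∧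
      (y.val - 1).rank = (x - 1).rank ∧ y.val.charpoly = x.charpoly ∧
      (∀ n : ℕ, x ^ n = 1 → y.val ^ n = 1) := by
  obtain ⟨X, hX⟩ : ∃ X : GL (Fin d ⊕ Fin d) F, X.val = x :=
    ⟨⟨x, sadj x, mul_eq_one_comm.mp hx, hx⟩, rfl⟩
  have hXmem : X ∈ Cfsg.spGL d F :=
    (Cfsg.Agent.Lib.Helper40.FExt.mem_spGL_iff X).mpr (by rw [hX]; exact hx)
  obtain ⟨g, hg, hmem⟩ := hAll X hXmem
    ⟨1, by rw [Units.val_pow_eq_pow_val, hX, hxr, one_smul]⟩ (by rw [hX]; exact hxns)
  have hymem : g⁻¹ * X * g ∈ Cfsg.spGL d F :=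
    Subgroup.mul_mem _ (Subgroup.mul_mem _ (Subgroup.inv_mem _ hg) hXmem) hg
  have hval : (g⁻¹ * X * g).val = (g⁻¹).val * x * g.val := by
    rw [Units.val_mul, Units.val_mul, hX]
  refine ⟨g⁻¹ * X * g, hmem, (Cfsg.Agent.Lib.Helper40.FExt.mem_spGL_iff _).mp hymem, ?_, ?_, ?_⟩
  · have h1 : (g⁻¹ * X * g).val - 1 = (g⁻¹).val * (x - 1) * g.val := by
      rw [hval, Matrix.mul_sub, Matrix.sub_mul, Matrix.mul_one, Units.inv_mul]
    rw [h1]
    have hdg : IsUnit g.val.det := (Matrix.isUnit_iff_isUnit_det _).mp g.isUnit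
    have hdgi : IsUnit (g⁻¹).val.det := (Matrix.isUnit_iff_isUnit_det _).mp (g⁻¹).isUnit
    rw [Matrix.rank_mul_eq_left_of_isUnit_det _ _ hdg, Matrix.rank_mul_eq_right_of_isUnit_det _ _ hdgi]
  · rw [hval, Matrix.charpoly_mul_comm, ← Matrix.mul_assoc, Units.mul_inv, Matrix.one_mul]
  · intro n hn
    rw [hval, Units.conj_pow' g x n, hn, Matrix.mul_one, Units.inv_mul]

/-- The image of `y - 1` is invariant under everything commuting with `y`. -/
theorem range_invt (y a : Mat d F) (h : y * a = a * y) :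
    ∀ u ∈ LinearMap.range (y - 1).mulVecLin, a *ᵥ u ∈ LinearMap.range (y - 1).mulVecLin := by
  rintro u ⟨v, rfl⟩
  refine ⟨a *ᵥ v, ?_⟩
  rw [Matrix.mulVecLin_apply, Matrix.mulVecLin_apply, Matrix.mulVec_mulVec, Matrix.mulVec_mulVec,
    Matrix.sub_mul, Matrix.mul_sub, h, Matrix.one_mul, Matrix.mul_one]

/-- An element centralizing `K` normalizes it. -/
theorem cent_mem_normalizer (K : Subalgebra F (Mat d F)) (g : GL (Fin d ⊕ Fin d) F)
    (h : ∀ a ∈ K, g.val * a = a * g.val) : g ∈ Cfsg.Geo.subalgebraNormalizer K := by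
  show ∀ k, k ∈ K ↔ g.val * k * (g⁻¹).val ∈ K
  intro k
  constructor
  · intro hk
    rw [h k hk, Matrix.mul_assoc, Units.mul_inv, Matrix.mul_one]
    exact hk
  · intro hk
    have h1 := h _ hk
    have h3 : k = g.val * k * (g⁻¹).val := by
      calc k = (g⁻¹).val * (g.val * k * (g⁻¹).val) * g.val :=
            (Cfsg.Agent.Lib.Helper40.FExt.conj_cancel g k).symm
        _ = (g⁻¹).val * (g.val * k * (g⁻¹).val * g.val) := by rw [Matrix.mul_assoc]
        _ = (g⁻¹).val * (g.val * (g.val * k * (g⁻¹).val)) := by rw [h1]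
        _ = g.val * k * (g⁻¹).val := by
            rw [← Matrix.mul_assoc (g⁻¹).val, Units.inv_mul, Matrix.one_mul]
    rw [h3]
    exact hk

end basic

section idx
variable {F : Type u} [Field F] [Fintype F]

/-- The index arithmetic: `r ∣ [Sp : N(K) ∩ Sp]` forces `k ∤ ord_r(q²)`. -/
theorem idx (hLF : LField.{u}) (hKB : KB.{u}) (hEmb : Emb.{u}) (hAr : IdxArith)
    {q : ℕ} (hq : Fintype.card F = q) (hq2 : 2 ≤ q) (d k : ℕ) (hd : 1 ≤ d) (hk : 1 ≤ k)
    (K : Subalgebra F (Mat d F)) (hK : Cfsg.Geo.IsFieldSubalgebra k K)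
    (hKs : ∀ a ∈ K, sadj a = a)
    (hKalt : ∀ a ∈ K, ∀ v : Fin d ⊕ Fin d → F, Cfsg.sympForm d F (a *ᵥ v) v = 0)
    (r : ℕ) (hr : r.Prime) (hrq : ¬ r ∣ q)
    (hΩ : r ∣ (Cfsg.Geo.subalgebraNormalizer K).relIndex (Cfsg.spGL d F)) :
    ¬ k ∣ orderOf ((q : ZMod r) ^ 2) := by
  classical
  intro hke
  obtain ⟨L, iF, iFt, iA, φ, hφinj, hφK, hfr⟩ := hLF d k hd K hK
  obtain ⟨m', b, τ, hbij, hform⟩ := hKB d φ hφinj (fun c => hKs _ ((hφK _).mpr ⟨c, rfl⟩))
    (fun c v => hKalt _ ((hφK _).mpr ⟨c, rfl⟩) v)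
  obtain ⟨Ψ, hΨinj, hΨ⟩ := hEmb d φ m' b τ hbij hform
  have hcL : Fintype.card L = q ^ k := by
    rw [Module.card_eq_pow_finrank (K := F) (V := L), hq, hfr]
  have hdm : d = k * m' := by
    have h1 := Fintype.card_of_bijective hbij
    rw [Fintype.card_fun, Fintype.card_fun, Fintype.card_sum, Fintype.card_sum, Fintype.card_fin,
      Fintype.card_fin, hcL, hq, ← pow_mul] at h1
    have h2 := Nat.pow_right_injective hq2 h1
    have h3 : k * m' + k * m' = d + d := by rw [← mul_add]; exact h2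
    omega
  obtain ⟨H, hH⟩ : ∃ H : Subgroup (GL (Fin d ⊕ Fin d) F),
      H = Cfsg.Geo.subalgebraNormalizer K ⊓ Cfsg.spGL d F := ⟨_, rfl⟩
  have hΨmem : ∀ M, Ψ M ∈ H := by
    intro M
    rw [hH]
    refine Subgroup.mem_inf.mpr ⟨cent_mem_normalizer K _ ?_, (hΨ M).1⟩
    intro a ha
    obtain ⟨c, rfl⟩ := (hφK a).mp ha
    exact (hΨ M).2 c
  have h1 : Nat.card ↥(Cfsg.spGL m' L) ∣ Nat.card ↥H := by
    apply Subgroup.card_dvd_of_injective (Ψ.codRestrict H hΨmem)
    intro M M' hMM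
    apply hΨinj
    exact congrArg Subtype.val hMM
  have h2 : Nat.card ↥H * (Cfsg.Geo.subalgebraNormalizer K).relIndex (Cfsg.spGL d F) =
      Nat.card ↥(Cfsg.spGL d F) := by
    have h := Subgroup.relIndex_mul_relIndex (⊥ : Subgroup (GL (Fin d ⊕ Fin d) F)) H
      (Cfsg.spGL d F) bot_le (hH ▸ inf_le_right)
    rw [Subgroup.relIndex_bot_left, Subgroup.relIndex_bot_left, hH,
      Subgroup.inf_relIndex_right] at h
    rw [hH]
    exact h
  rw [Cfsg.Agent.Lib.Helper40.FExtIdx.card_spGL m', hcL] at h1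
  rw [Cfsg.Agent.Lib.Helper40.FExtIdx.card_spGL d, hq] at h2
  have hNpos : 0 < Nat.card ↥H := Nat.card_pos
  have h3 := hAr q d k m' r hq2 hr hrq hk hdm hke (Nat.card ↥H) h1 ⟨_, h2.symm⟩
  apply h3
  rw [← h2, Nat.mul_div_cancel_left _ hNpos]
  exact hΩ

end idx

section main
variable {F : Type u} [Field F] [Fintype F]

theorem main (hRT : RankTrick.{u}) (hKD : KDim.{u}) (hTv : Transv.{u}) (hIE : InvElt.{u})
    (hPl : Plane.{u}) (hElt : Elt.{u}) (hRk : Rk.{u}) (hAut : Aut.{u}) (hQG : QuadGen.{u})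
    (hNC : NoComm2.{u}) (hLF : LField.{u}) (hKB : KB.{u}) (hEmb : Emb.{u}) (hAr : IdxArith)
    (hOC : OrdCase) (hO2 : Ord2) (hOS : OrdSq) (hOK : OrdK)
    (hI4P : Inv4P.{u}) (hI4NS : Inv4NS.{u}) (hI4NN : Inv4NN.{u}) (hT4 : Trans4.{u})
    {p : ℕ} [Fact p.Prime] [CharP F p] {q : ℕ} (hq : Fintype.card F = q)
    (d : ℕ) (hd : 2 ≤ d) (k : ℕ) (hk : k.Prime)
    (K : Subalgebra F (Mat d F)) (hK : Cfsg.Geo.IsFieldSubalgebra k K)
    (hKf : Cfsg.Geo.IsSelfAdjointFor (Cfsg.sympForm d F) K)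
    (hKalt : ∀ a ∈ K, ∀ v : Fin d ⊕ Fin d → F, Cfsg.sympForm d F (a *ᵥ v) v = 0)
    (r : ℕ) [Fact r.Prime]
    (hΩ : r ∣ (Cfsg.Geo.subalgebraNormalizer K).relIndex (Cfsg.spGL d F)) :
    (∀ x ∈ Cfsg.spGL d F,
      (∃ z : F, ((x ^ r : GL (Fin d ⊕ Fin d) F) : Mat d F) = z • (1 : Mat d F)) →
      (∀ z : F, (x : Mat d F) ≠ z • (1 : Mat d F)) →
      ∃ g ∈ Cfsg.spGL d F, g⁻¹ * x * g ∈ Cfsg.Geo.subalgebraNormalizer K) ↔
    (r = 2 ∧ d = 2 ∧ k = 2 ∧ Odd q) := by
  classical
  have hr : r.Prime := Fact.out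
  have hp : p.Prime := Fact.out
  have hKs : ∀ a ∈ K, sadj a = a := fun a ha =>
    (Cfsg.Agent.Lib.Helper40.FExt.adj_eq_sadj a a (hKf a ha)).symm
  obtain ⟨n, -, hn⟩ := FiniteField.card F p
  have hqp : q = p ^ (n : ℕ) := by rw [← hq, hn]
  have hq2 : 2 ≤ q := by rw [← hq]; exact Fintype.one_lt_card
  have hk2 : 2 ≤ k := hk.two_le
  have hk2d : k ∣ 2 * d := by
    have h := hKD d k K hK ⊤ (fun _ _ _ _ => Submodule.mem_top)
    rw [finrank_top, Module.finrank_fintype_fun_eq_card, Fintype.card_sum, Fintype.card_fin] at h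
    rw [two_mul]
    exact h
  constructor
  · intro hAll
    by_cases hrp : r = p
    · exfalso
      subst hrp
      obtain ⟨t, ht1, ht2, ht3, ht4⟩ := hTv (F := F) r d (by omega)
      obtain ⟨y, hyN, hys, hyrk, hycp, hypow⟩ := apply_all K r hAll t ht1 ht2 ht3
      have hcent := hRT d k K hK y hyN (by rw [hyrk, ht4]; omega)
      have h1 := hKD d k K hK (LinearMap.range (y.val - 1).mulVecLin)
        (fun a ha => range_invt y.val a (hcent a ha))
      have h2 : Module.finrank F (LinearMap.range (y.val - 1).mulVecLin) = 1 := by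
        rw [← ht4, ← hyrk]
        rfl
      rw [h2] at h1
      have := Nat.le_of_dvd one_pos h1
      omega
    · by_cases hr2 : r = 2
      · have h2F : (2 : F) ≠ 0 := by
          intro h
          have h3 := (CharP.cast_eq_zero_iff F p 2).mp (by exact_mod_cast h)
          have h4 := (Nat.prime_dvd_prime_iff_eq hp Nat.prime_two).mp h3
          exact hrp (by rw [hr2, h4])
        have hqodd : Odd q := by
          rw [hqp]
          apply Odd.pow
          rcases hp.eq_two_or_odd' with h | h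
          · exact absurd (by rw [hr2, h]) hrp
          · exact h
        obtain ⟨x, hx1, hx2, hx3, hx4⟩ := hIE (F := F) d hd h2F
        have hxr : x ^ r = 1 := by rw [hr2, pow_two]; exact hx2
        obtain ⟨y, hyN, hys, hyrk, hycp, hypow⟩ := apply_all K r hAll x hx1 hxr hx3
        have hyy : y.val * y.val = 1 := by
          rw [← pow_two]
          exact hypow 2 (by rw [pow_two]; exact hx2)
        by_cases hd3 : 3 ≤ d
        · exfalso
          have hcent := hRT d k K hK y hyN (by rw [hyrk, hx4]; omega)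
          have h1 := hPl d k K h2F hK hKs y.val hys hyy (by rw [hyrk, hx4]) hcent
          omega
        · have hd2 : d = 2 := by omega
          subst hd2
          have hk2' : k = 2 := by
            have h4 : k ∣ 2 ^ 2 := hk2d
            exact (Nat.prime_dvd_prime_iff_eq hk Nat.prime_two).mp (hk.dvd_of_dvd_pow h4)
          exact ⟨hr2, rfl, hk2', hqodd⟩
      · exfalso
        have hrq : ¬ r ∣ q := by
          rw [hqp]
          intro h
          exact hrp ((Nat.prime_dvd_prime_iff_eq hr hp).mp (hr.dvd_of_dvd_pow h))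
        have hrF : ((r : ℕ) : F) ≠ 0 := by
          intro h
          have h1 := (CharP.cast_eq_zero_iff F p r).mp h
          exact hrp ((Nat.prime_dvd_prime_iff_eq hp hr).mp h1).symm
        have hrS : r ∣ q ^ (d ^ 2) * ∏ j ∈ Finset.range d, (q ^ (2 * (j + 1)) - 1) := by
          have h1 := hΩ.trans (Subgroup.relIndex_dvd_card _ _)
          rw [Cfsg.Agent.Lib.Helper40.FExtIdx.card_spGL d, hq] at h1
          exact h1
        obtain ⟨i, hi⟩ : ∃ i, i = orderOf (q : ZMod r) := ⟨_, rfl⟩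
        have hcase := hOC q d r i hq2 hr hrq hi hrS
        obtain ⟨x, P, R, S, c, hx1, hx2, hx3, hPi, hPm, hPd, hcp, hPR, hc, hc2d, hcp2, hS1⟩ :=
          hElt (F := F) p q hq d (by omega) r hr2 hrp i hi hcase
        have hrk := hRk d x r hrF hx2 (2 * d - c) S hcp2 hS1
        have hxrk : (x - 1).rank = c := by omega
        obtain ⟨y, hyN, hys, hyrk, hycp, hypow⟩ := apply_all K r hAll x hx1 hx2 hx3
        have hyr : y.val ^ r = 1 := hypow r hx2
        have hcent : ∀ a ∈ K, y.val * a = a * y.val := by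
          by_cases hrk' : r = k
          · have hc' := hOK q r i hr hr2 hrq hi
            rw [← hc] at hc'
            have hkd : k ∣ d := by
              rcases (Nat.Prime.dvd_mul hk).mp hk2d with h | h
              · exfalso
                have h5 := (Nat.prime_dvd_prime_iff_eq hk Nat.prime_two).mp h
                exact hr2 (by rw [hrk', h5])
              · exact h
            have hkd' : k ≤ d := Nat.le_of_dvd (by omega) hkd
            apply hRT d k K hK y hyN
            rw [hyrk, hxrk]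
            omega
          · exact hAut d k K hk hK y hyN r hr hrk' hyr
        have hki : k ∣ i := by
          have h1 := Cfsg.Agent.Lib.Helper40.FExtOdd.finrank_ker y.val r hrF hyr P R hPi hPm
            (by rw [hycp]; exact hcp) hPR
          have h2 := hKD d k K hK (LinearMap.ker (aeval (Matrix.toLin' y.val) P)) (by
            intro a ha u hu
            have h3 := Cfsg.Agent.Lib.Helper40.FExtOdd.ker_invt y.val a (hcent a ha) P
            rw [Module.End.mem_invtSubmodule] at h3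
            have h4 := h3 hu
            rw [Submodule.mem_comap, Matrix.toLin'_apply] at h4
            exact h4)
          rw [h1, hPd] at h2
          exact h2
        have hne := idx hLF hKB hEmb hAr hq hq2 d k (by omega) (by omega) K hK hKs hKalt r hr hrq hΩ
        by_cases hk2' : k = 2
        · subst hk2'
          obtain ⟨e, he, hre⟩ := hO2 q r hr hrq (hi ▸ hki) hne
          obtain ⟨J, a, b, hJK, hJJ, hKJ, hirr, hdisc, hJq, -⟩ := hQG q hq d (by omega) K hK
          have hyQ : y.val ^ (q ^ e + 1) = 1 := by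
            obtain ⟨t, ht⟩ := hre
            rw [ht, pow_mul, hyr, one_pow]
          exact hNC q hq d y.val hys r hrF hyr P R hPi hPm (by rw [hycp]; exact hcp) hPR e he hyQ
            J a b hJJ hdisc hJq (hKs J hJK) (hcent J hJK)
        · exact hne (hOS q r k hr hrq hk hk2' (hi ▸ hki))
  · rintro ⟨hr2, hd2, hk2', hqodd⟩
    subst hd2
    subst hk2'
    have h2F : (2 : F) ≠ 0 := Cfsg.Agent.Lib.Helper40.FExt.two_ne_zero_of hq hqodd
    obtain ⟨J, a, b, hJK, hJJ, hKJ, hirr, hdisc, hJq, ha0⟩ := hQG q hq 2 (by omega) K hK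
    have ha := ha0 h2F
    subst ha
    have hJJ' : J * J = b • 1 := by rw [hJJ, zero_smul, zero_add]
    have hb : ¬ IsSquare b := by
      rintro ⟨t, ht⟩
      exact hirr t (by rw [zero_mul, zero_add, ht])
    have hJs : sadj J = J := hKs J hJK
    intro x hx hxz hxns
    obtain ⟨z, hz⟩ := hxz
    have hxs := (Cfsg.Agent.Lib.Helper40.FExt.mem_spGL_iff x).mp hx
    rw [hr2, Units.val_pow_eq_pow_val, pow_two] at hz
    have hzz : z = 1 ∨ z = -1 := by
      have h3 : sadj (x.val * x.val) * (x.val * x.val) = 1 := by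
        rw [Cfsg.Agent.Lib.Helper40.SympConj.sadj_mul]
        calc sadj x.val * sadj x.val * (x.val * x.val)
            = sadj x.val * (sadj x.val * x.val) * x.val := by simp only [Matrix.mul_assoc]
          _ = 1 := by rw [hxs, Matrix.mul_one, hxs]
      rw [hz, Cfsg.Agent.Lib.Helper40.SympConj.sadj_smul, Cfsg.Agent.Lib.Helper40.SympConj.sadj_one,
        Matrix.smul_mul, Matrix.mul_smul, Matrix.one_mul, smul_smul] at h3
      have h4 : z * z = 1 := by
        have h5 := congrFun (congrFun h3 (Sum.inl 0)) (Sum.inl 0)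
        simpa using h5
      exact mul_self_eq_one_iff.mp h4
    have hJ' : ∃ (J' : Mat 2 F) (ε : F), ε ≠ 0 ∧ J' * J' = b • 1 ∧ sadj J' = J' ∧
        x.val * J' = ε • (J' * x.val) := by
      rcases hzz with h | h
      · obtain ⟨J', h1, h2, h3⟩ := hI4P h2F b hb x.val hxs (by rw [hz, h, one_smul])
          (fun h' => hxns 1 (by rw [h', one_smul]))
          (fun h' => hxns (-1) (by rw [h', neg_smul, one_smul]))
        exact ⟨J', -1, neg_ne_zero.mpr one_ne_zero, h1, h2, by rw [h3, neg_smul, one_smul]⟩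
      · have hxx : x.val * x.val = -1 := by rw [hz, h, neg_smul, one_smul]
        by_cases hm1 : IsSquare (-1 : F)
        · obtain ⟨J', h1, h2, h3⟩ := hI4NS h2F b hb hm1 x.val hxs hxx
          exact ⟨J', 1, one_ne_zero, h1, h2, by rw [h3, one_smul]⟩
        · obtain ⟨J', h1, h2, h3⟩ := hI4NN h2F b hb hm1 x.val hxs hxx
          exact ⟨J', 1, one_ne_zero, h1, h2, by rw [h3, one_smul]⟩
    obtain ⟨J', ε, hε, hJ'J', hJ's, hxJ'⟩ := hJ'
    obtain ⟨g, hg1, hg2⟩ := hT4 h2F b hb J J' hJJ' hJ'J' hJs hJ's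
    obtain ⟨G, hG⟩ : ∃ G : GL (Fin 2 ⊕ Fin 2) F, G.val = g :=
      ⟨⟨g, sadj g, mul_eq_one_comm.mp hg1, hg1⟩, rfl⟩
    have hGmem : G ∈ Cfsg.spGL 2 F :=
      (Cfsg.Agent.Lib.Helper40.FExt.mem_spGL_iff G).mpr (by rw [hG]; exact hg1)
    refine ⟨G⁻¹, Subgroup.inv_mem _ hGmem, ?_⟩
    rw [inv_inv]
    apply Cfsg.Agent.Lib.Helper40.FExt.mem_normalizer K J hKJ _ ε hε
    rw [Units.val_mul, Units.val_mul, hG]
    have hGi : (G⁻¹).val * J = J' * (G⁻¹).val := by
      calc (G⁻¹).val * J = (G⁻¹).val * J * (g * (G⁻¹).val) := by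
            rw [← hG, Units.mul_inv, Matrix.mul_one]
        _ = (G⁻¹).val * (J * g) * (G⁻¹).val := by simp only [Matrix.mul_assoc]
        _ = (G⁻¹).val * (g * J') * (G⁻¹).val := by rw [hg2]
        _ = ((G⁻¹).val * g) * J' * (G⁻¹).val := by simp only [Matrix.mul_assoc]
        _ = J' * (G⁻¹).val := by rw [← hG, Units.inv_mul, Matrix.one_mul]
    calc g * x.val * (G⁻¹).val * J = g * x.val * ((G⁻¹).val * J) := by rw [Matrix.mul_assoc]
      _ = g * (x.val * J') * (G⁻¹).val := by rw [hGi]; simp only [Matrix.mul_assoc]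
      _ = ε • (g * J' * (x.val * (G⁻¹).val)) := by
          rw [hxJ']
          simp only [Matrix.mul_smul, Matrix.smul_mul, Matrix.mul_assoc]
      _ = ε • (J * (g * x.val * (G⁻¹).val)) := by rw [hg2]; simp only [Matrix.mul_assoc]

end main

end Cfsg.Agent.Lib.Helper41.SpFAsm
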