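import Mathlib
import Cfsg.Agent.Lib.Helper41.OFStmt
import Cfsg.Agent.Lib.Helper41.SpFAsm
import Cfsg.Agent.Lib.Helper40.FExt
import Cfsg.Agent.Lib.Helper40.FExtOdd
import Cfsg.Agent.Lib.Helper45.OrthCard

/-!
# S5977: assembly of the pieces of `OFStmt`
-/

set_option autoImplicit false

namespace Cfsg.Agent.Lib.Helper41.OFAsm

open Matrix Polynomial
open Cfsg.Agent.Lib.Helper41.SpFStmt (Mat RankTrick KDim Aut QuadGen Ord2)
open Cfsg.Agent.Lib.Helper41.OFStmt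
open Cfsg.Agent.Lib.Helper37.OrtStmt (OGrp Cong)
open Cfsg.Agent.Lib.Helper41.SpFAsm (cent_mem_normalizer)

universe u

section basic
variable {F : Type u} [Field F] {d : ℕ}

theorem omega_le {ι : Type} [Fintype ι] [DecidableEq ι] (Q : (ι → F) → F) :
    Cfsg.Geo.omegaGL Q ≤ Cfsg.isometryGroup F Q := by
  intro g hg
  obtain ⟨h, -, rfl⟩ := Subgroup.mem_map.mp hg
  exact h.2

/-- Conjugation keeps ranks, characteristic polynomials and orders. -/
theorem conj_facts (g X : GL (Fin d ⊕ Fin d) F) :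
    ((g⁻¹ * X * g).val - 1).rank = (X.val - 1).rank ∧
    (((g⁻¹ * X * g).val - 1) * ((g⁻¹ * X * g).val - 1)).rank =
      ((X.val - 1) * (X.val - 1)).rank ∧
    (g⁻¹ * X * g).val.charpoly = X.val.charpoly ∧
    ∀ n : ℕ, X.val ^ n = 1 → (g⁻¹ * X * g).val ^ n = 1 := by
  have hval : (g⁻¹ * X * g).val = (g⁻¹).val * X.val * g.val := by
    rw [Units.val_mul, Units.val_mul]
  have h1 : (g⁻¹ * X * g).val - 1 = (g⁻¹).val * (X.val - 1) * g.val := by
    rw [hval, Matrix.mul_sub, Matrix.sub_mul, Matrix.mul_one, Units.inv_mul]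
  have h2 : ((g⁻¹ * X * g).val - 1) * ((g⁻¹ * X * g).val - 1) =
      (g⁻¹).val * ((X.val - 1) * (X.val - 1)) * g.val := by
    rw [h1]
    calc (g⁻¹).val * (X.val - 1) * g.val * ((g⁻¹).val * (X.val - 1) * g.val)
        = (g⁻¹).val * (X.val - 1) * (g.val * (g⁻¹).val) * ((X.val - 1) * g.val) := by
          simp only [Matrix.mul_assoc]
      _ = (g⁻¹).val * ((X.val - 1) * (X.val - 1)) * g.val := by
          rw [Units.mul_inv, Matrix.mul_one]
          simp only [Matrix.mul_assoc]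
  have hdg : IsUnit g.val.det := (Matrix.isUnit_iff_isUnit_det _).mp g.isUnit
  have hdgi : IsUnit (g⁻¹).val.det := (Matrix.isUnit_iff_isUnit_det _).mp (g⁻¹).isUnit
  refine ⟨?_, ?_, ?_, ?_⟩
  · rw [h1, Matrix.rank_mul_eq_left_of_isUnit_det _ _ hdg,
      Matrix.rank_mul_eq_right_of_isUnit_det _ _ hdgi]
  · rw [h2, Matrix.rank_mul_eq_left_of_isUnit_det _ _ hdg,
      Matrix.rank_mul_eq_right_of_isUnit_det _ _ hdgi]
  · rw [hval, Matrix.charpoly_mul_comm, ← Matrix.mul_assoc, Units.mul_inv, Matrix.one_mul]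
  · intro n hn
    rw [hval, Units.conj_pow' g X.val n, hn, Matrix.mul_one, Units.inv_mul]

/-- The image of `M` is invariant under everything commuting with `M`. -/
theorem range_invt' (M a : Mat d F) (h : M * a = a * M) :
    ∀ u ∈ LinearMap.range M.mulVecLin, a *ᵥ u ∈ LinearMap.range M.mulVecLin := by
  rintro u ⟨v, rfl⟩
  refine ⟨a *ᵥ v, ?_⟩
  rw [Matrix.mulVecLin_apply, Matrix.mulVecLin_apply, Matrix.mulVec_mulVec, Matrix.mulVec_mulVec,
    h]

theorem sa_ab (J : Mat d F) (hJs : S0 d F * J = Jᵀ * S0 d F) (a b : F) :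
    S0 d F * (a • 1 + b • J) = (a • 1 + b • J)ᵀ * S0 d F := by
  rw [Matrix.mul_add, Matrix.transpose_add, Matrix.add_mul, Matrix.transpose_smul,
    Matrix.transpose_smul, Matrix.transpose_one, Matrix.mul_smul, Matrix.mul_smul,
    Matrix.smul_mul, Matrix.smul_mul, Matrix.mul_one, Matrix.one_mul, hJs]

/-- Conjugation transports a (semi)commutation relation. -/
theorem conj_semi {n : Type*} [Fintype n] [DecidableEq n] (g : GL n F) (x J J₁ : Matrix n n F)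
    (ε : F) (hgJ : g.val * J₁ = J * g.val) (hxJ : x * J₁ = ε • (J₁ * x)) :
    (g.val * x * (g⁻¹).val) * J = ε • (J * (g.val * x * (g⁻¹).val)) := by
  have h1 : (g⁻¹).val * J = J₁ * (g⁻¹).val := by
    calc (g⁻¹).val * J = (g⁻¹).val * (J * g.val) * (g⁻¹).val := by
          rw [Matrix.mul_assoc, Matrix.mul_assoc, Units.mul_inv, Matrix.mul_one]
      _ = (g⁻¹).val * (g.val * J₁) * (g⁻¹).val := by rw [hgJ]
      _ = J₁ * (g⁻¹).val := by
          rw [← Matrix.mul_assoc (g⁻¹).val, Units.inv_mul, Matrix.one_mul]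
  calc g.val * x * (g⁻¹).val * J = g.val * x * ((g⁻¹).val * J) := by rw [Matrix.mul_assoc]
    _ = g.val * (x * J₁) * (g⁻¹).val := by rw [h1]; simp only [Matrix.mul_assoc]
    _ = ε • (g.val * J₁ * (x * (g⁻¹).val)) := by
        rw [hxJ]
        simp only [Matrix.mul_smul, Matrix.smul_mul, Matrix.mul_assoc]
    _ = ε • (J * (g.val * x * (g⁻¹).val)) := by rw [hgJ]; simp only [Matrix.mul_assoc]

end basic

section frames
variable {F : Type u} [Field F] [Fintype F]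

theorem frame_dim {L : Type u} [Field L] [Fintype L] [Algebra F L]
    (hcL : Fintype.card L = Fintype.card F ^ 2) {d m' : ℕ} (φ : L →ₐ[F] Mat d F)
    (τ : L →ₗ[F] F) (b : Fin m' → (Fin d ⊕ Fin d → F)) (G : Matrix (Fin m') (Fin m') L)
    (hfr : IsLFrame φ τ b G) : d = m' := by
  classical
  have h1 := Fintype.card_of_bijective hfr.2.2.1
  rw [Fintype.card_fun, Fintype.card_fun, Fintype.card_sum, Fintype.card_fin, Fintype.card_fin,
    hcL, ← pow_mul] at h1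
  have hq2 : 2 ≤ Fintype.card F := Fintype.one_lt_card
  have h2 := Nat.pow_right_injective hq2 h1
  omega

/-- Two self-adjoint square roots of `l` are conjugate under the isometry group. -/
theorem transO (hLJ : LJ.{u}) (hLS : LStr.{u}) (hLD : LDisc0.{u}) (hNS : NormSq.{u})
    (hCong : Cong.{u}) (hGl : Glue.{u}) (h2F : (2 : F) ≠ 0) (d : ℕ) (hd : 1 ≤ d) (l : F)
    (hl : ¬ IsSquare l) (J J' : Mat d F) (hJ : J * J = l • 1) (hJ' : J' * J' = l • 1)
    (hJs : S0 d F * J = Jᵀ * S0 d F) (hJ's : S0 d F * J' = J'ᵀ * S0 d F) :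
    ∃ h : Mat d F, hᵀ * S0 d F * h = S0 d F ∧ h * J' = J * h := by
  classical
  obtain ⟨L, iF, iFt, iA, j₀, hj₀, hcL, h2L, hm1, ⟨τ, hτ⟩, hφ⟩ := hLJ h2F l hl
  obtain ⟨φ, hφinj, hφj, hφab⟩ := hφ d hd J hJ
  obtain ⟨φ', hφ'inj, hφ'j, hφ'ab⟩ := hφ d hd J' hJ'
  have hsa : ∀ c, S0 d F * φ c = (φ c)ᵀ * S0 d F := fun c => by
    obtain ⟨a, b, hab⟩ := hφab c
    rw [hab]
    exact sa_ab _ hJs a b
  have hsa' : ∀ c, S0 d F * φ' c = (φ' c)ᵀ * S0 d F := fun c => by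
    obtain ⟨a, b, hab⟩ := hφ'ab c
    rw [hab]
    exact sa_ab _ hJ's a b
  obtain ⟨m₁, b₁, G₁, hfr₁⟩ := hLS h2F d φ hφinj hsa τ hτ
  obtain ⟨m₂, b₂, G₂, hfr₂⟩ := hLS h2F d φ' hφ'inj hsa' τ hτ
  have hm₁ := frame_dim hcL φ τ b₁ G₁ hfr₁
  have hm₂ := frame_dim hcL φ' τ b₂ G₂ hfr₂
  subst hm₁
  subst hm₂
  obtain ⟨t, ht, hall⟩ := hLD h2F τ hτ
  obtain ⟨ν₁, hν₁, hn₁⟩ := hall d d φ b₁ G₁ hfr₁
  obtain ⟨ν₂, hν₂, hn₂⟩ := hall d d φ' b₂ G₂ hfr₂
  have hG₁ : G₁.det ≠ 0 := hfr₁.2.1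
  have hG₂ : G₂.det ≠ 0 := hfr₂.2.1
  have hN1 : Algebra.norm F G₁.det ≠ 0 := Algebra.norm_ne_zero_iff.mpr hG₁
  have htd : t ^ d ≠ 0 := pow_ne_zero _ ht
  have hsq : IsSquare (Algebra.norm F (G₂.det / G₁.det)) := by
    have hmul : Algebra.norm F (G₂.det / G₁.det) * Algebra.norm F G₁.det =
        Algebra.norm F G₂.det := by
      rw [← map_mul, div_mul_cancel₀ _ hG₁]
    refine ⟨ν₂ / ν₁, ?_⟩
    apply mul_right_cancel₀ hN1
    rw [hmul]
    apply mul_right_cancel₀ htd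
    rw [hn₂, mul_assoc (ν₂ / ν₁ * (ν₂ / ν₁)), hn₁]
    field_simp
  obtain ⟨μ, hμ⟩ := hNS h2F (G₂.det / G₁.det) (div_ne_zero hG₂ hG₁) hsq
  have hμ0 : μ ≠ 0 := by
    rintro rfl
    rw [mul_zero] at hμ
    exact div_ne_zero hG₂ hG₁ hμ
  have hdet : G₂.det = G₁.det * μ ^ 2 := by
    rw [pow_two, ← hμ]
    field_simp
  obtain ⟨P, hP, hPG⟩ := hCong L h2L d G₁ G₂ hfr₁.1 hG₁ hfr₂.1 μ hμ0 hdet
  obtain ⟨h, hh1, hh2⟩ := hGl d φ φ' τ d b₁ b₂ G₁ G₂ P hfr₁ hfr₂ hP hPG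
  refine ⟨h, hh1, ?_⟩
  have h3 := hh2 j₀
  rw [hφj, hφ'j] at h3
  exact h3

/-- The index arithmetic. -/
theorem idxO (hOBr : OBr.{u}) (hSqOm : SqOm.{u}) (hSqIdx : SqIdx.{u}) (hLJ : LJ.{u})
    (hLS : LStr.{u}) (hLD : LDisc0.{u}) (hNS : NormSq.{u}) (hDet : DetS0.{u}) (hEmb : EmbO.{u})
    (hCO : CardO.{u}) (hAr : IdxOArith)
    {q : ℕ} (hq : Fintype.card F = q) (h2F : (2 : F) ≠ 0) (d : ℕ) (hd : 1 ≤ d)
    (K : Subalgebra F (Mat d F)) (J : Mat d F) (l : F) (hl : ¬ IsSquare l)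
    (hJJ : J * J = l • 1) (hJs : S0 d F * J = Jᵀ * S0 d F)
    (hKJ : ∀ k, k ∈ K ↔ ∃ α β : F, k = α • 1 + β • J)
    (r : ℕ) (hr : r.Prime) (hr2 : r ≠ 2) (hrq : ¬ r ∣ q)
    (hΩ : r ∣ (Cfsg.Geo.subalgebraNormalizer K).relIndex
      (Cfsg.Geo.omegaGL (Cfsg.quadFormPlus d F))) :
    Odd (orderOf ((q : ZMod r) ^ 2)) ∧
      ((Odd (orderOf (q : ZMod r)) ∧ orderOf (q : ZMod r) ≤ d) ∨
        (Even (orderOf (q : ZMod r)) ∧ orderOf (q : ZMod r) + 2 ≤ 2 * d)) := by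
  classical
  have hq2 : 2 ≤ q := by rw [← hq]; exact Fintype.one_lt_card
  obtain ⟨L, iF, iFt, iA, j₀, hj₀, hcL, h2L, hm1, ⟨τ, hτ⟩, hφ⟩ := hLJ h2F l hl
  obtain ⟨φ, hφinj, hφj, hφab⟩ := hφ d hd J hJJ
  have hsa : ∀ c, S0 d F * φ c = (φ c)ᵀ * S0 d F := fun c => by
    obtain ⟨a, b, hab⟩ := hφab c
    rw [hab]
    exact sa_ab _ hJs a b
  obtain ⟨m', b, G, hfr⟩ := hLS h2F d φ hφinj hsa τ hτ
  have hm := frame_dim hcL φ τ b G hfr
  subst hm
  obtain ⟨Ψ, hΨinj, hΨ⟩ := hEmb d φ τ d b G hfr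
  have hcard : Nat.card ↥(OGrp G) = Bq q d := by
    obtain ⟨hO, hE⟩ := hCO h2L d hd G hfr.1 hfr.2.1
    rw [hcL, hq] at hO hE
    unfold Bq
    by_cases hev : Even d
    · rw [if_pos hev]
      apply hE hev
      obtain ⟨t, ht, hall⟩ := hLD h2F τ hτ
      obtain ⟨ν, hν, hn⟩ := hall d d φ b G hfr
      rw [hDet d, hev.neg_one_pow, mul_one] at hn
      obtain ⟨c, hc⟩ := hev
      have hd2 : d / 2 = c := by omega
      have htc : t ^ c ≠ 0 := pow_ne_zero _ ht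
      have hsq : IsSquare (Algebra.norm F G.det) := by
        refine ⟨ν / t ^ c, ?_⟩
        have htd : t ^ d = t ^ c * t ^ c := by rw [← pow_add, ← hc]
        rw [htd] at hn
        field_simp
        linear_combination hn
      obtain ⟨s, hs⟩ := hNS h2F G.det hfr.2.1 hsq
      obtain ⟨w, hw⟩ := hm1
      have hw0 : w ≠ 0 := by
        rintro rfl
        rw [mul_zero] at hw
        exact one_ne_zero (neg_eq_zero.mp hw)
      have hwc : w ^ c ≠ 0 := pow_ne_zero _ hw0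
      refine ⟨s / w ^ c, ?_⟩
      rw [hd2, hw, hs]
      field_simp
      ring
    · rw [if_neg hev]
      exact hO (Nat.not_even_iff_odd.mp hev)
  obtain ⟨Ω, hΩdef⟩ : ∃ Ω, Ω = Cfsg.Geo.omegaGL (Cfsg.quadFormPlus d F) := ⟨_, rfl⟩
  obtain ⟨NK, hNK⟩ : ∃ NK, NK = Cfsg.Geo.subalgebraNormalizer K := ⟨_, rfl⟩
  have hΨO : ∀ M, Ψ M ∈ Cfsg.isometryGroup F (Cfsg.quadFormPlus d F) := fun M =>
    (hOBr h2F d _).mpr (hΨ M).1
  have hΨN : ∀ M, Ψ M ∈ NK := by
    intro M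
    rw [hNK]
    apply cent_mem_normalizer K
    intro a ha
    obtain ⟨α, β, rfl⟩ := (hKJ a).mp ha
    have h1 := (hΨ M).2 j₀
    rw [hφj] at h1
    rw [Matrix.mul_add, Matrix.add_mul, Matrix.mul_smul, Matrix.smul_mul, Matrix.mul_smul,
      Matrix.smul_mul, Matrix.mul_one, Matrix.one_mul, h1]
  have h1 : r ^ padicValNat r (Bq q d) ∣ Nat.card ↥(Ψ.range) := by
    have h0 : Nat.card ↥(Ψ.range) = Nat.card ↥(OGrp G) :=
      (Nat.card_congr (MonoidHom.ofInjective hΨinj).toEquiv).symm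
    rw [h0, hcard]
    exact pow_padicValNat_dvd
  have h2 : r ^ padicValNat r (Bq q d) ∣ Nat.card ↥(Ψ.range ⊓ Ω) := by
    apply hSqIdx Ψ.range Ω _ r hr hr2 _ h1
    rintro h ⟨M, rfl⟩
    rw [hΩdef]
    exact hSqOm h2F d hd _ (hΨO M)
  have h3 : Nat.card ↥(Ψ.range ⊓ Ω) ∣ Nat.card ↥(NK ⊓ Ω) := by
    apply Subgroup.card_dvd_of_le
    apply inf_le_inf_right
    rintro h ⟨M, rfl⟩
    exact hΨN M
  have h4 : Nat.card ↥(NK ⊓ Ω) * NK.relIndex Ω = Nat.card ↥Ω := by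
    have h := Subgroup.relIndex_mul_relIndex (⊥ : Subgroup (GL (Fin d ⊕ Fin d) F)) (NK ⊓ Ω) Ω
      bot_le inf_le_right
    rw [Subgroup.relIndex_bot_left, Subgroup.relIndex_bot_left,
      Subgroup.inf_relIndex_right] at h
    exact h
  have h5 : Nat.card ↥Ω ∣ Aq q d := by
    have hle : Ω ≤ Cfsg.isometryGroup F (Cfsg.quadFormPlus d F) := by
      rw [hΩdef]
      exact omega_le _
    have h := Subgroup.card_dvd_of_le hle
    obtain ⟨k, rfl⟩ : ∃ k, d = k + 1 := ⟨d - 1, by omega⟩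
    rw [Cfsg.Agent.Lib.Helper45.OrthCard.card_plus hq k] at h
    unfold Aq
    rw [Nat.add_sub_cancel]
    exact h
  have hNpos : 0 < Nat.card ↥(NK ⊓ Ω) := Nat.card_pos
  exact hAr q d r (orderOf (q : ZMod r)) hq2 hd hr hr2 hrq rfl (Nat.card ↥(NK ⊓ Ω))
    (Nat.card ↥Ω) (h2.trans h3) ⟨_, h4.symm⟩ h5 (by
      rw [← h4, Nat.mul_div_cancel_left _ hNpos, hNK, hΩdef]
      exact hΩ)

end frames

section main
variable {F : Type u} [Field F] [Fintype F]

theorem main (hOBr : OBr.{u}) (hSaBr : SaBr.{u}) (hDet : DetS0.{u}) (hSqOm : SqOm.{u})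
    (hOmDet : OmDet.{u}) (hOmV : OmV.{u}) (hOmFix : OmFix.{u}) (hPL1 : PL1.{u}) (hPLM : PLM.{u})
    (hLJ : LJ.{u}) (hLS : LStr.{u}) (hLD : LDisc0.{u}) (hNS : NormSq.{u}) (hCong : Cong.{u})
    (hGl : Glue.{u}) (hSg : Siegel.{u}) (hEmb : EmbO.{u}) (hCO : CardO.{u}) (hSqIdx : SqIdx.{u})
    (hAr : IdxOArith) (hEO : EltOdd.{u}) (hEE : EltEven1.{u}) (hTr : Transport.{u})
    (hNC : NoCommO.{u}) (hRT : RankTrick.{u}) (hKD : KDim.{u}) (hAut : Aut.{u})
    (hQG : QuadGen.{u}) (hO2 : Ord2)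
    {p : ℕ} [Fact p.Prime] [CharP F p] {q : ℕ} (hq : Fintype.card F = q)
    (hodd : Odd q) (d : ℕ) (hd : 4 ≤ d)
    (K : Subalgebra F (Mat d F)) (hK : Cfsg.Geo.IsFieldSubalgebra 2 K)
    (hKf : Cfsg.Geo.IsSelfAdjointFor (QuadraticMap.polar (Cfsg.quadFormPlus d F)) K)
    (r : ℕ) [Fact r.Prime]
    (hΩ : r ∣ (Cfsg.Geo.subalgebraNormalizer K).relIndex
      (Cfsg.Geo.omegaGL (Cfsg.quadFormPlus d F))) :
    (∀ x ∈ Cfsg.Geo.omegaGL (Cfsg.quadFormPlus d F),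
      (∃ z : F, ((x ^ r : GL (Fin d ⊕ Fin d) F) : Mat d F) = z • (1 : Mat d F)) →
      (∀ z : F, (x : Mat d F) ≠ z • (1 : Mat d F)) →
      ∃ g ∈ Cfsg.Geo.omegaGL (Cfsg.quadFormPlus d F),
        g⁻¹ * x * g ∈ Cfsg.Geo.subalgebraNormalizer K) ↔ r = 2 := by
  classical
  have hr : r.Prime := Fact.out
  have hp : p.Prime := Fact.out
  have h2F : (2 : F) ≠ 0 := Cfsg.Agent.Lib.Helper40.FExt.two_ne_zero_of hq hodd
  obtain ⟨n, -, hn⟩ := FiniteField.card F p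
  have hqp : q = p ^ (n : ℕ) := by rw [← hq, hn]
  have hq2 : 2 ≤ q := by rw [← hq]; exact Fintype.one_lt_card
  have hp2 : p ≠ 2 := by
    intro h
    rw [hqp, h] at hodd
    have h1 : Even (2 ^ (n : ℕ)) := (Nat.even_pow' n.ne_zero).mpr even_two
    exact (Nat.not_even_iff_odd.mpr hodd) h1
  have hKs : ∀ a ∈ K, S0 d F * a = aᵀ * S0 d F := hSaBr d K hKf
  obtain ⟨J, a, l, hJK, hJJ0, hKJ, hirr, hdisc, hJq, ha0⟩ := hQG q hq d (by omega) K hK
  have ha := ha0 h2F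
  subst ha
  have hJJ : J * J = l • 1 := by rw [hJJ0, zero_smul, zero_add]
  have hl : ¬ IsSquare l := by
    rintro ⟨t, ht⟩
    exact hirr t (by rw [zero_mul, zero_add, ht])
  have hJs : S0 d F * J = Jᵀ * S0 d F := hKs J hJK
  have hΩO : Cfsg.Geo.omegaGL (Cfsg.quadFormPlus d F) ≤
      Cfsg.isometryGroup F (Cfsg.quadFormPlus d F) := omega_le _
  constructor
  · intro hAll
    by_contra hr2
    by_cases hrp : r = p
    · subst hrp
      obtain ⟨u, hu1, hu2, hu3, hu4, hu5⟩ := hSg (F := F) r hp2 d (by omega)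
      obtain ⟨g, hg, hmem⟩ := hAll u hu1
        ⟨1, by rw [Units.val_pow_eq_pow_val, hu2, one_smul]⟩ hu3
      obtain ⟨hc1, hc2, hc3, hc4⟩ := conj_facts g u
      have hcent := hRT d 2 K hK _ hmem (by rw [hc1, hu4]; omega)
      obtain ⟨y, hy⟩ : ∃ y : GL (Fin d ⊕ Fin d) F, y = g⁻¹ * u * g := ⟨_, rfl⟩
      rw [← hy] at hcent hc2 hmem
      have hcomm : ∀ a ∈ K, ((y.val - 1) * (y.val - 1)) * a = a * ((y.val - 1) * (y.val - 1)) := by
        intro a ha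
        have h1 : (y.val - 1) * a = a * (y.val - 1) := by
          rw [Matrix.sub_mul, Matrix.mul_sub, hcent a ha, Matrix.one_mul, Matrix.mul_one]
        rw [Matrix.mul_assoc, h1, ← Matrix.mul_assoc, h1, Matrix.mul_assoc]
      have h1 := hKD d 2 K hK (LinearMap.range ((y.val - 1) * (y.val - 1)).mulVecLin)
        (fun a ha => range_invt' _ a (hcomm a ha))
      have h2 : Module.finrank F (LinearMap.range ((y.val - 1) * (y.val - 1)).mulVecLin) = 1 := by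
        rw [← hu5, ← hc2]
        rfl
      rw [h2] at h1
      have := Nat.le_of_dvd one_pos h1
      omega
    · have hrq : ¬ r ∣ q := by
        rw [hqp]
        intro h
        exact hrp ((Nat.prime_dvd_prime_iff_eq hr hp).mp (hr.dvd_of_dvd_pow h))
      have hrF : ((r : ℕ) : F) ≠ 0 := by
        intro h
        have h1 := (CharP.cast_eq_zero_iff F p r).mp h
        exact hrp ((Nat.prime_dvd_prime_iff_eq hp hr).mp h1).symm
      obtain ⟨hoddE, hcase⟩ := idxO hOBr hSqOm hSqIdx hLJ hLS hLD hNS hDet hEmb hCO hAr hq h2F d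
        (by omega) K J l hl hJJ hJs hKJ r hr hr2 hrq hΩ
      have hΩmem : ∀ x ∈ Cfsg.isometryGroup F (Cfsg.quadFormPlus d F), x.val ^ r = 1 →
          x ∈ Cfsg.Geo.omegaGL (Cfsg.quadFormPlus d F) := by
        intro x hx hxr
        have hxr' : x ^ r = 1 := Units.ext (by rw [Units.val_pow_eq_pow_val, hxr]; rfl)
        obtain ⟨c, hc⟩ := hr.odd_of_ne_two hr2
        have h1 := hSqOm h2F d (by omega) (x ^ (c + 1)) (Subgroup.pow_mem _ hx _)
        have h2 : x ^ (c + 1) * x ^ (c + 1) = x := by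
          rw [← pow_add, show c + 1 + (c + 1) = r + 1 by omega, pow_succ, hxr', one_mul]
        rw [h2] at h1
        exact h1
      rcases hcase with ⟨hio, hid⟩ | ⟨hie, hid⟩
      · obtain ⟨x, P, R, hxO, hxr, hxns, hPi, hPm, hcp, hPR, hPodd⟩ :=
          hEO (F := F) p q hq d r hr2 hrp _ rfl hio hid
        obtain ⟨g, hg, hmem⟩ := hAll x (hΩmem x hxO hxr)
          ⟨1, by rw [Units.val_pow_eq_pow_val, hxr, one_smul]⟩ hxns
        obtain ⟨hc1, hc2, hc3, hc4⟩ := conj_facts g x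
        obtain ⟨y, hy⟩ : ∃ y : GL (Fin d ⊕ Fin d) F, y = g⁻¹ * x * g := ⟨_, rfl⟩
        rw [← hy] at hmem hc3 hc4
        have hyr : y.val ^ r = 1 := hc4 r hxr
        have hcent := hAut d 2 K Nat.prime_two hK y hmem r hr hr2 hyr
        have h1 := Cfsg.Agent.Lib.Helper40.FExtOdd.finrank_ker y.val r hrF hyr P R hPi hPm
          (by rw [hc3]; exact hcp) hPR
        have h2 := hKD d 2 K hK (LinearMap.ker (aeval (Matrix.toLin' y.val) P)) (by
          intro a ha u hu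
          have h3 := Cfsg.Agent.Lib.Helper40.FExtOdd.ker_invt y.val a (hcent a ha) P
          rw [Module.End.mem_invtSubmodule] at h3
          have h4 := h3 hu
          rw [Submodule.mem_comap, Matrix.toLin'_apply] at h4
          exact h4)
        rw [h1] at h2
        exact (Nat.not_even_iff_odd.mpr hPodd) (even_iff_two_dvd.mpr h2)
      · obtain ⟨e, he, hre⟩ := hO2 q r hr hrq (even_iff_two_dvd.mp hie) (by
          intro h
          exact (Nat.not_even_iff_odd.mpr hoddE) (even_iff_two_dvd.mpr h))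
        obtain ⟨x₁, S₁, P, R, μ, hS₁, hμ, hS₁d, hx₁S, hx₁r, hx₁ns, hPi, hPm, hcp, hPR⟩ :=
          hEE (F := F) p q hq h2F d r hr2 hrp _ rfl hie hid
        obtain ⟨x, hxO, hxcp, hxpow, hxns'⟩ := hTr h2F d x₁ S₁ μ hS₁ hμ hS₁d hx₁S
        have hxr := hxpow r hx₁r
        have hxns := hxns' hx₁ns
        have hxΩ := hΩmem x hxO hxr
        obtain ⟨g, hg, hmem⟩ := hAll x hxΩ
          ⟨1, by rw [Units.val_pow_eq_pow_val, hxr, one_smul]⟩ hxns
        obtain ⟨hc1, hc2, hc3, hc4⟩ := conj_facts g x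
        have hyΩ : g⁻¹ * x * g ∈ Cfsg.Geo.omegaGL (Cfsg.quadFormPlus d F) :=
          Subgroup.mul_mem _ (Subgroup.mul_mem _ (Subgroup.inv_mem _ hg) hxΩ) hg
        obtain ⟨y, hy⟩ : ∃ y : GL (Fin d ⊕ Fin d) F, y = g⁻¹ * x * g := ⟨_, rfl⟩
        rw [← hy] at hmem hc3 hc4 hyΩ
        have hyr : y.val ^ r = 1 := hc4 r hxr
        have hcent := hAut d 2 K Nat.prime_two hK y hmem r hr hr2 hyr
        have hyiso := (hOBr h2F d y).mp (hΩO hyΩ)
        have hyQ : y.val ^ (q ^ e + 1) = 1 := by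
          obtain ⟨t, ht⟩ := hre
          rw [ht, pow_mul, hyr, one_pow]
        exact hNC q hq d y.val hyiso r hrF hyr P R hPi hPm (by rw [hc3, hxcp]; exact hcp) hPR e he
          hyQ J 0 l hJJ0 hdisc hJq hJs (hcent J hJK)
  · intro hr2 x hx hxz hxns
    obtain ⟨z, hz⟩ := hxz
    rw [hr2, Units.val_pow_eq_pow_val, pow_two] at hz
    have hxiso := (hOBr h2F d x).mp (hΩO hx)
    have hzz : z = 1 ∨ z = -1 := by
      have h3 : (x.val * x.val)ᵀ * S0 d F * (x.val * x.val) = S0 d F := by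
        rw [Matrix.transpose_mul]
        calc x.valᵀ * x.valᵀ * S0 d F * (x.val * x.val)
            = x.valᵀ * (x.valᵀ * S0 d F * x.val) * x.val := by simp only [Matrix.mul_assoc]
          _ = S0 d F := by rw [hxiso, hxiso]
      rw [hz, Matrix.transpose_smul, Matrix.transpose_one, Matrix.smul_mul, Matrix.one_mul,
        Matrix.mul_smul, Matrix.mul_one, smul_smul] at h3
      have h4 : z * z = 1 := by
        have h5 := congrFun (congrFun h3 (Sum.inl ⟨0, by omega⟩)) (Sum.inr ⟨0, by omega⟩)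
        simpa [S0] using h5
      exact mul_self_eq_one_iff.mp h4
    have hJ' : ∃ (J' t : Mat d F) (ε : F), ε ≠ 0 ∧ J' * J' = l • 1 ∧
        S0 d F * J' = J'ᵀ * S0 d F ∧ x.val * J' = ε • (J' * x.val) ∧
        tᵀ * S0 d F * t = S0 d F ∧ t * t = 1 ∧ t.det = -1 ∧
        x.val * (t * J' * t) = ε • (t * J' * t * x.val) := by
      rcases hzz with h | h
      · have hdet : x.val.det = 1 := hOmDet d x hx
        obtain ⟨J', t, h1, h2, h3, h4, h5, h6, h7⟩ := hPL1 h2F d (by omega) l hl x.val hxiso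
          (by rw [hz, h, one_smul]) hdet
        refine ⟨J', t, 1, one_ne_zero, h1, h2, by rw [h3, one_smul], h4, h5, h6, ?_⟩
        rw [one_smul]
        calc x.val * (t * J' * t) = (x.val * t) * J' * t := by simp only [Matrix.mul_assoc]
          _ = t * (x.val * J') * t := by rw [← h7]; simp only [Matrix.mul_assoc]
          _ = t * J' * (x.val * t) := by rw [h3]; simp only [Matrix.mul_assoc]
          _ = t * J' * t * x.val := by rw [← h7]; simp only [Matrix.mul_assoc]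
      · obtain ⟨J', t, h1, h2, h3, h4, h5, h6, h7⟩ := hPLM h2F d (by omega) l hl x.val hxiso
          (by rw [hz, h, neg_smul, one_smul])
        exact ⟨J', t, -1, neg_ne_zero.mpr one_ne_zero, h1, h2, by rw [h3, neg_smul, one_smul],
          h4, h5, h6, by rw [h7, neg_smul, one_smul]⟩
    obtain ⟨J', t, ε, hε, hJ'J', hJ's, hxJ', ht1, ht2, ht3, hxJ''⟩ := hJ'
    obtain ⟨h, hh1, hh2⟩ := transO hLJ hLS hLD hNS hCong hGl h2F d (by omega) l hl J J' hJJ
      hJ'J' hJs hJ's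
    have hS0det : (S0 d F).det ≠ 0 := by
      rw [hDet d]
      exact pow_ne_zero _ (neg_ne_zero.mpr one_ne_zero)
    have hdeth : h.det = 1 ∨ h.det = -1 := by
      have h1 := congrArg Matrix.det hh1
      rw [Matrix.det_mul, Matrix.det_mul, Matrix.det_transpose] at h1
      have h2 : h.det * h.det = 1 := by
        apply mul_right_cancel₀ hS0det
        rw [one_mul]
        linear_combination h1
      exact mul_self_eq_one_iff.mp h2
    have hex : ∃ (J₁ h₁ : Mat d F), h₁ᵀ * S0 d F * h₁ = S0 d F ∧ h₁.det = 1 ∧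
        h₁ * J₁ = J * h₁ ∧ x.val * J₁ = ε • (J₁ * x.val) := by
      rcases hdeth with hd1 | hd1
      · exact ⟨J', h, hh1, hd1, hh2, hxJ'⟩
      · refine ⟨t * J' * t, h * t, ?_, ?_, ?_, hxJ''⟩
        · rw [Matrix.transpose_mul]
          calc tᵀ * hᵀ * S0 d F * (h * t) = tᵀ * (hᵀ * S0 d F * h) * t := by
                simp only [Matrix.mul_assoc]
            _ = S0 d F := by rw [hh1, ht1]
        · rw [Matrix.det_mul, hd1, ht3, neg_mul_neg, one_mul]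
        · calc h * t * (t * J' * t) = h * (t * t) * J' * t := by simp only [Matrix.mul_assoc]
            _ = (h * J') * t := by rw [ht2, Matrix.mul_one]
            _ = J * (h * t) := by rw [hh2, Matrix.mul_assoc]
    obtain ⟨J₁, h₁, hh₁1, hh₁d, hh₁J, hxJ₁⟩ := hex
    obtain ⟨H₁, hH₁⟩ : ∃ H₁ : GL (Fin d ⊕ Fin d) F, H₁.val = h₁ :=
      ⟨Matrix.GeneralLinearGroup.mkOfDetNeZero h₁ (by rw [hh₁d]; exact one_ne_zero), rfl⟩
    have hH₁O : H₁ ∈ Cfsg.isometryGroup F (Cfsg.quadFormPlus d F) :=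
      (hOBr h2F d H₁).mpr (by rw [hH₁]; exact hh₁1)
    obtain ⟨v, hv1, hv2⟩ := hOmV h2F d (by omega) l hl J hJJ hJs
    have hH₁inv_det : (H₁⁻¹).val.det = 1 := by
      have h1 : (H₁⁻¹).val.det * H₁.val.det = 1 := by
        rw [← Matrix.det_mul, Units.inv_mul, Matrix.det_one]
      rw [hH₁, hh₁d, mul_one] at h1
      exact h1
    obtain ⟨nn, hnO, hnJ, hnΩ⟩ := hOmFix h2F d (by omega) l hl J hJJ hJs v hv1 hv2 H₁⁻¹
      (Subgroup.inv_mem _ hH₁O) hH₁inv_det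
    refine ⟨H₁⁻¹ * nn, hnΩ, ?_⟩
    apply Cfsg.Agent.Lib.Helper40.FExt.mem_normalizer K J hKJ _ ε hε
    have e1 : (H₁⁻¹ * nn)⁻¹ * x * (H₁⁻¹ * nn) = nn⁻¹ * (H₁ * x * H₁⁻¹) * (nn⁻¹)⁻¹ := by
      simp only [_root_.mul_inv_rev, inv_inv, mul_assoc]
    rw [e1]
    have c1 := conj_semi H₁ x.val J J₁ ε (by rw [hH₁]; exact hh₁J) hxJ₁
    have hnJ' : (nn⁻¹).val * J = J * (nn⁻¹).val := by
      calc (nn⁻¹).val * J = (nn⁻¹).val * (J * nn.val) * (nn⁻¹).val := by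
            rw [Matrix.mul_assoc, Matrix.mul_assoc, Units.mul_inv, Matrix.mul_one]
        _ = (nn⁻¹).val * (nn.val * J) * (nn⁻¹).val := by rw [hnJ]
        _ = J * (nn⁻¹).val := by
            rw [← Matrix.mul_assoc (nn⁻¹).val, Units.inv_mul, Matrix.one_mul]
    have c2 := conj_semi nn⁻¹ (H₁.val * x.val * (H₁⁻¹).val) J J ε hnJ' c1
    simp only [Units.val_mul]
    exact c2

end main

end Cfsg.Agent.Lib.Helper41.OFAsm
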