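import Mathlib
import Cfsg.Agent.Lib.Helper41.OMStmt
import Cfsg.Agent.Lib.Helper41.OFAsm
import Cfsg.Agent.Lib.Helper40.FExt
import Cfsg.Agent.Lib.Helper40.FExtOdd
import Cfsg.Agent.Lib.Helper45.OrthCard

/-!
# S5978: assembly of the pieces of `OMStmt`
-/

set_option autoImplicit false

namespace Cfsg.Agent.Lib.Helper41.OMAsm

open Matrix Polynomial
open Cfsg.Agent.Lib.Helper41.SpFStmt (Ord2)
open Cfsg.Agent.Lib.Helper41.OFStmt (SaJ ReflS NormSq SqIdx CardO)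
open Cfsg.Agent.Lib.Helper41.OMStmt
open Cfsg.Agent.Lib.Helper37.OrtStmt (OGrp Cong)
open Cfsg.Agent.Lib.Helper41.OFAsm (omega_le conj_semi)

universe u

section basic
variable {F : Type u} [Field F] {ι : Type} [Fintype ι] [DecidableEq ι]

/-- Conjugation keeps ranks, characteristic polynomials and orders. -/
theorem conj_factsG (g X : GL ι F) :
    ((g⁻¹ * X * g).val - 1).rank = (X.val - 1).rank ∧
    (((g⁻¹ * X * g).val - 1) * ((g⁻¹ * X * g).val - 1)).rank =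
      ((X.val - 1) * (X.val - 1)).rank ∧
    (g⁻¹ * X * g).val.charpoly = X.val.charpoly ∧
    ∀ n : ℕ, X.val ^ n = 1 → (g⁻¹ * X * g).val ^ n = 1 := by
  have hval : (g⁻¹ * X * g).val = (g⁻¹).val * X.val * g.val := by
    rw [Units.val_mul, Units.val_mul]
  have h1 : (g⁻¹ * X * g).val - 1 = (g⁻¹).val * (X.val - 1) * g.val := by
    rw [hval, Matrix.mul_sub, Matrix.sub_mul, Matrix.mul_one, Units.inv_mul]
  have h2 : ((g⁻¹ * X * g).val - 1) * ((g⁻¹ * X * g).val - 1) =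
      (g⁻¹).val * ((X.val - 1) * (X.val - 1)) * g.val := by
    rw [h1]
    calc (g⁻¹).val * (X.val - 1) * g.val * ((g⁻¹).val * (X.val - 1) * g.val)
        = (g⁻¹).val * (X.val - 1) * (g.val * (g⁻¹).val) * ((X.val - 1) * g.val) := by
          simp only [Matrix.mul_assoc]
      _ = (g⁻¹).val * ((X.val - 1) * (X.val - 1)) * g.val := by
          rw [Units.mul_inv, Matrix.mul_one]
          simp only [Matrix.mul_assoc]
  have hdg : IsUnit g.val.det := (Matrix.isUnit_iff_isUnit_det _).mp g.isUnit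
  have hdgi : IsUnit (g⁻¹).val.det := (Matrix.isUnit_iff_isUnit_det _).mp (g⁻¹).isUnit
  refine ⟨?_, ?_, ?_, ?_⟩
  · rw [h1, Matrix.rank_mul_eq_left_of_isUnit_det _ _ hdg,
      Matrix.rank_mul_eq_right_of_isUnit_det _ _ hdgi]
  · rw [h2, Matrix.rank_mul_eq_left_of_isUnit_det _ _ hdg,
      Matrix.rank_mul_eq_right_of_isUnit_det _ _ hdgi]
  · rw [hval, Matrix.charpoly_mul_comm, ← Matrix.mul_assoc, Units.mul_inv, Matrix.one_mul]
  · intro n hn
    rw [hval, Units.conj_pow' g X.val n, hn, Matrix.mul_one, Units.inv_mul]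

/-- The image of `M` is invariant under everything commuting with `M`. -/
theorem range_invtG (M a : Matrix ι ι F) (h : M * a = a * M) :
    ∀ u ∈ LinearMap.range M.mulVecLin, a *ᵥ u ∈ LinearMap.range M.mulVecLin := by
  rintro u ⟨v, rfl⟩
  refine ⟨a *ᵥ v, ?_⟩
  rw [Matrix.mulVecLin_apply, Matrix.mulVecLin_apply, Matrix.mulVec_mulVec, Matrix.mulVec_mulVec,
    h]

theorem sa_abG (S J : Matrix ι ι F) (hJs : S * J = Jᵀ * S) (a b : F) :
    S * (a • 1 + b • J) = (a • 1 + b • J)ᵀ * S := by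
  rw [Matrix.mul_add, Matrix.transpose_add, Matrix.add_mul, Matrix.transpose_smul,
    Matrix.transpose_smul, Matrix.transpose_one, Matrix.mul_smul, Matrix.mul_smul,
    Matrix.smul_mul, Matrix.smul_mul, Matrix.mul_one, Matrix.one_mul, hJs]

theorem mem_normalizerG (K : Subalgebra F (Matrix ι ι F)) (J : Matrix ι ι F)
    (hKJ : ∀ k, k ∈ K ↔ ∃ a b : F, k = a • 1 + b • J) (g : GL ι F) (ε : F)
    (hε : ε ≠ 0) (hg : g.val * J = ε • (J * g.val)) : g ∈ Cfsg.Geo.subalgebraNormalizer K := by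
  show ∀ k, k ∈ K ↔ g.val * k * (g⁻¹).val ∈ K
  have h1 : g.val * J * (g⁻¹).val = ε • J := by
    rw [hg, Matrix.smul_mul, Matrix.mul_assoc, Units.mul_inv, Matrix.mul_one]
  have h3 : (g⁻¹).val * J * g.val = ε⁻¹ • J := by
    have h4 := Cfsg.Agent.Lib.Helper40.FExt.conj_cancel g J
    rw [h1, Matrix.mul_smul, Matrix.smul_mul] at h4
    calc (g⁻¹).val * J * g.val = ε⁻¹ • (ε • ((g⁻¹).val * J * g.val)) := by
          rw [smul_smul, inv_mul_cancel₀ hε, one_smul]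
      _ = ε⁻¹ • J := by rw [h4]
  intro k
  constructor
  · intro hk
    obtain ⟨a, b, rfl⟩ := (hKJ k).mp hk
    rw [hKJ]
    refine ⟨a, b * ε, ?_⟩
    rw [Matrix.mul_add, Matrix.add_mul, Matrix.mul_smul, Matrix.mul_smul, Matrix.smul_mul,
      Matrix.smul_mul, Matrix.mul_one, Units.mul_inv, h1, smul_smul]
  · intro hk
    obtain ⟨a, b, hab⟩ := (hKJ _).mp hk
    rw [hKJ]
    refine ⟨a, b * ε⁻¹, ?_⟩
    rw [← Cfsg.Agent.Lib.Helper40.FExt.conj_cancel g k, hab, Matrix.mul_add, Matrix.add_mul,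
      Matrix.mul_smul, Matrix.mul_smul, Matrix.smul_mul, Matrix.smul_mul, Matrix.mul_one,
      Units.inv_mul, h3, smul_smul]

/-- An element centralizing `K` normalizes it. -/
theorem cent_mem_normalizerG (K : Subalgebra F (Matrix ι ι F)) (g : GL ι F)
    (h : ∀ a ∈ K, g.val * a = a * g.val) : g ∈ Cfsg.Geo.subalgebraNormalizer K := by
  show ∀ k, k ∈ K ↔ g.val * k * (g⁻¹).val ∈ K
  intro k
  constructor
  · intro hk
    rw [h k hk, Matrix.mul_assoc, Units.mul_inv, Matrix.mul_one]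
    exact hk
  · intro hk
    have h1 := h _ hk
    have h3 : k = g.val * k * (g⁻¹).val := by
      calc k = (g⁻¹).val * (g.val * k * (g⁻¹).val) * g.val :=
            (Cfsg.Agent.Lib.Helper40.FExt.conj_cancel g k).symm
        _ = (g⁻¹).val * (g.val * k * (g⁻¹).val * g.val) := by rw [Matrix.mul_assoc]
        _ = (g⁻¹).val * (g.val * (g.val * k * (g⁻¹).val)) := by rw [h1]
        _ = g.val * k * (g⁻¹).val := by
            rw [← Matrix.mul_assoc (g⁻¹).val, Units.inv_mul, Matrix.one_mul]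
    rw [h3]
    exact hk

end basic

section frames
variable {F : Type u} [Field F] [Fintype F] {ι : Type} [Fintype ι] [DecidableEq ι]

theorem frame_dimG {L : Type u} [Field L] [Fintype L] [Algebra F L]
    (hcL : Fintype.card L = Fintype.card F ^ 2) {d m' : ℕ} (hcard : Fintype.card ι = 2 * d)
    (S : Matrix ι ι F) (φ : L →ₐ[F] Matrix ι ι F)
    (τ : L →ₗ[F] F) (b : Fin m' → (ι → F)) (G : Matrix (Fin m') (Fin m') L)
    (hfr : IsLFrameG S φ τ b G) : d = m' := by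
  classical
  have h1 := Fintype.card_of_bijective hfr.2.2.1
  rw [Fintype.card_fun, Fintype.card_fun, Fintype.card_fin, hcL, ← pow_mul, hcard] at h1
  have hq2 : 2 ≤ Fintype.card F := Fintype.one_lt_card
  have h2 := Nat.pow_right_injective hq2 h1
  omega

/-- Two self-adjoint square roots of `l` are conjugate under the isometry group of `S`. -/
theorem transM (hLJ : LJG.{u}) (hLS : LStrG.{u}) (hLD : LDiscG.{u}) (hNS : NormSq.{u})
    (hCong : Cong.{u}) (hGl : GlueG.{u}) (h2F : (2 : F) ≠ 0) [Nonempty ι] (d : ℕ)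
    (hcard : Fintype.card ι = 2 * d) (S : Matrix ι ι F) (hS : Sᵀ = S) (hSdet : S.det ≠ 0)
    (l : F) (hl : ¬ IsSquare l) (J J' : Matrix ι ι F) (hJ : J * J = l • 1)
    (hJ' : J' * J' = l • 1) (hJs : S * J = Jᵀ * S) (hJ's : S * J' = J'ᵀ * S) :
    ∃ h : Matrix ι ι F, hᵀ * S * h = S ∧ h * J' = J * h := by
  classical
  obtain ⟨L, iF, iFt, iA, j₀, hj₀, hcL, h2L, hm1, ⟨τ, hτ⟩, hφ⟩ := hLJ h2F l hl
  obtain ⟨φ, hφinj, hφj, hφab⟩ := hφ J hJ
  obtain ⟨φ', hφ'inj, hφ'j, hφ'ab⟩ := hφ J' hJ'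
  have hsa : ∀ c, S * φ c = (φ c)ᵀ * S := fun c => by
    obtain ⟨a, b, hab⟩ := hφab c
    rw [hab]
    exact sa_abG S _ hJs a b
  have hsa' : ∀ c, S * φ' c = (φ' c)ᵀ * S := fun c => by
    obtain ⟨a, b, hab⟩ := hφ'ab c
    rw [hab]
    exact sa_abG S _ hJ's a b
  obtain ⟨m₁, b₁, G₁, hfr₁⟩ := hLS h2F S hS hSdet φ hφinj hsa τ hτ
  obtain ⟨m₂, b₂, G₂, hfr₂⟩ := hLS h2F S hS hSdet φ' hφ'inj hsa' τ hτ
  have hm₁ := frame_dimG hcL hcard S φ τ b₁ G₁ hfr₁
  have hm₂ := frame_dimG hcL hcard S φ' τ b₂ G₂ hfr₂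
  subst hm₁
  subst hm₂
  obtain ⟨t, ht, hall⟩ := hLD h2F τ hτ
  obtain ⟨ν₁, hν₁, hn₁⟩ := hall S d φ b₁ G₁ hfr₁
  obtain ⟨ν₂, hν₂, hn₂⟩ := hall S d φ' b₂ G₂ hfr₂
  have hG₁ : G₁.det ≠ 0 := hfr₁.2.1
  have hG₂ : G₂.det ≠ 0 := hfr₂.2.1
  have hN1 : Algebra.norm F G₁.det ≠ 0 := Algebra.norm_ne_zero_iff.mpr hG₁
  have htd : t ^ d ≠ 0 := pow_ne_zero _ ht
  have hsq : IsSquare (Algebra.norm F (G₂.det / G₁.det)) := by
    have hmul : Algebra.norm F (G₂.det / G₁.det) * Algebra.norm F G₁.det =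
        Algebra.norm F G₂.det := by
      rw [← map_mul, div_mul_cancel₀ _ hG₁]
    refine ⟨ν₂ / ν₁, ?_⟩
    apply mul_right_cancel₀ hN1
    rw [hmul]
    apply mul_right_cancel₀ htd
    rw [hn₂, mul_assoc (ν₂ / ν₁ * (ν₂ / ν₁)), hn₁]
    field_simp
  obtain ⟨μ, hμ⟩ := hNS h2F (G₂.det / G₁.det) (div_ne_zero hG₂ hG₁) hsq
  have hμ0 : μ ≠ 0 := by
    rintro rfl
    rw [mul_zero] at hμ
    exact div_ne_zero hG₂ hG₁ hμ
  have hdet : G₂.det = G₁.det * μ ^ 2 := by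
    rw [pow_two, ← hμ]
    field_simp
  obtain ⟨P, hP, hPG⟩ := hCong L h2L d G₁ G₂ hfr₁.1 hG₁ hfr₂.1 μ hμ0 hdet
  obtain ⟨h, hh1, hh2⟩ := hGl S φ φ' τ d b₁ b₂ G₁ G₂ P hfr₁ hfr₂ hP hPG
  refine ⟨h, hh1, ?_⟩
  have h3 := hh2 j₀
  rw [hφj, hφ'j] at h3
  exact h3

end frames

section minus
variable {F : Type u} [Field F] [Fintype F]

/-- The index arithmetic. -/
theorem idxM (hSqOm : MSqOm.{u}) (hSqIdx : SqIdx.{u}) (hLJ : LJG.{u})
    (hLS : LStrG.{u}) (hLD : LDiscG.{u}) (hEmb : EmbOG.{u})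
    (hCO : CardO.{u}) (hCOM : CardOM.{u}) (hAr : MIdxArith)
    {q : ℕ} (hq : Fintype.card F = q) (h2F : (2 : F) ≠ 0) (d : ℕ) (hd : 2 ≤ d) (a b : F)
    (hab : ∀ x y : F, x ^ 2 + a * x * y + b * y ^ 2 = 0 → x = 0 ∧ y = 0)
    (hS : (Gm d a b)ᵀ = Gm d a b) (ν₀ : F) (hν₀ : ¬ IsSquare ν₀)
    (hSdet : (Gm d a b).det = (-1) ^ d * ν₀)
    (hObr : ∀ g : GL (Im d) F, g ∈ Cfsg.isometryGroup F (Cfsg.quadFormMinus (d - 1) F a b) ↔
      g.valᵀ * Gm d a b * g.val = Gm d a b)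
    (K : Subalgebra F (Matrix (Im d) (Im d) F)) (J : Matrix (Im d) (Im d) F) (l : F)
    (hl : ¬ IsSquare l) (hJJ : J * J = l • 1) (hJs : Gm d a b * J = Jᵀ * Gm d a b)
    (hKJ : ∀ k, k ∈ K ↔ ∃ α β : F, k = α • 1 + β • J)
    (r : ℕ) (hr : r.Prime) (hr2 : r ≠ 2) (hrq : ¬ r ∣ q)
    (hΩ : r ∣ (Cfsg.Geo.subalgebraNormalizer K).relIndex
      (Cfsg.Geo.omegaGL (Cfsg.quadFormMinus (d - 1) F a b))) :
    Odd (orderOf ((q : ZMod r) ^ 2)) ∧
      ((Odd (orderOf (q : ZMod r)) ∧ orderOf (q : ZMod r) + 1 ≤ d) ∨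
        (Even (orderOf (q : ZMod r)) ∧ orderOf (q : ZMod r) ≤ 2 * d)) := by
  classical
  have : Nonempty (Im d) := ⟨Sum.inr 0⟩
  have hcard : Fintype.card (Im d) = 2 * d := by
    simp only [Fintype.card_sum, Fintype.card_fin]
    omega
  have hq2 : 2 ≤ q := by rw [← hq]; exact Fintype.one_lt_card
  have hSdetne : (Gm d a b).det ≠ 0 := by
    rw [hSdet]
    exact mul_ne_zero (pow_ne_zero _ (neg_ne_zero.mpr one_ne_zero))
      (fun h => hν₀ (h ▸ IsSquare.zero))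
  obtain ⟨L, iF, iFt, iA, j₀, hj₀, hcL, h2L, hm1, ⟨τ, hτ⟩, hφ⟩ := hLJ h2F l hl
  obtain ⟨φ, hφinj, hφj, hφab⟩ := hφ J hJJ
  have hsa : ∀ c, Gm d a b * φ c = (φ c)ᵀ * Gm d a b := fun c => by
    obtain ⟨a', b', hab'⟩ := hφab c
    rw [hab']
    exact sa_abG _ _ hJs a' b'
  obtain ⟨m', bb, G, hfr⟩ := hLS h2F (Gm d a b) hS hSdetne φ hφinj hsa τ hτ
  have hm := frame_dimG hcL hcard (Gm d a b) φ τ bb G hfr
  subst hm
  obtain ⟨Ψ, hΨinj, hΨ⟩ := hEmb (Gm d a b) φ τ d bb G hfr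
  have hcardG : Nat.card ↥(OGrp G) = Bmq q d := by
    unfold Bmq
    by_cases hev : Even d
    · rw [if_pos hev]
      have h0 := hCOM h2L d (by omega) hev G hfr.1 hfr.2.1 (by
        rintro ⟨s, hs⟩
        apply hν₀
        obtain ⟨t, ht, hall⟩ := hLD h2F τ hτ
        obtain ⟨ν, hν, hn⟩ := hall (Gm d a b) d φ bb G hfr
        rw [hSdet, hev.neg_one_pow, one_mul] at hn
        obtain ⟨c, hc⟩ := hev
        have hd2 : d / 2 = c := by omega
        have htc : t ^ c ≠ 0 := pow_ne_zero _ ht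
        obtain ⟨w, hw⟩ := hm1
        have hw0 : w ≠ 0 := by
          rintro rfl
          rw [mul_zero] at hw
          exact one_ne_zero (neg_eq_zero.mp hw)
        have hwc : w ^ c ≠ 0 := pow_ne_zero _ hw0
        have h1 : (w ^ c * w ^ c) * G.det = s * s := by
          rw [← mul_pow, ← hw, ← hd2]
          exact hs
        have hGd : G.det = (s / w ^ c) * (s / w ^ c) := by
          field_simp
          linear_combination h1
        have htd : t ^ d = t ^ c * t ^ c := by rw [← pow_add, ← hc]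
        rw [hGd, map_mul, htd] at hn
        refine ⟨Algebra.norm F (s / w ^ c) * t ^ c / ν, ?_⟩
        field_simp
        linear_combination -hn)
      rw [hcL, hq] at h0
      exact h0
    · rw [if_neg hev]
      have h0 := (hCO h2L d (by omega) G hfr.1 hfr.2.1).1 (Nat.not_even_iff_odd.mp hev)
      rw [hcL, hq] at h0
      exact h0
  obtain ⟨Ω, hΩdef⟩ : ∃ Ω, Ω = Cfsg.Geo.omegaGL (Cfsg.quadFormMinus (d - 1) F a b) := ⟨_, rfl⟩
  obtain ⟨NK, hNK⟩ : ∃ NK, NK = Cfsg.Geo.subalgebraNormalizer K := ⟨_, rfl⟩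
  have hΨO : ∀ M, Ψ M ∈ Cfsg.isometryGroup F (Cfsg.quadFormMinus (d - 1) F a b) := fun M =>
    (hObr _).mpr (hΨ M).1
  have hΨN : ∀ M, Ψ M ∈ NK := by
    intro M
    rw [hNK]
    apply cent_mem_normalizerG K
    intro x hx
    obtain ⟨α, β, rfl⟩ := (hKJ x).mp hx
    have h1 := (hΨ M).2 j₀
    rw [hφj] at h1
    rw [Matrix.mul_add, Matrix.add_mul, Matrix.mul_smul, Matrix.smul_mul, Matrix.mul_smul,
      Matrix.smul_mul, Matrix.mul_one, Matrix.one_mul, h1]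
  have h1 : r ^ padicValNat r (Bmq q d) ∣ Nat.card ↥(Ψ.range) := by
    have h0 : Nat.card ↥(Ψ.range) = Nat.card ↥(OGrp G) :=
      (Nat.card_congr (MonoidHom.ofInjective hΨinj).toEquiv).symm
    rw [h0, hcardG]
    exact pow_padicValNat_dvd
  have h2 : r ^ padicValNat r (Bmq q d) ∣ Nat.card ↥(Ψ.range ⊓ Ω) := by
    apply hSqIdx Ψ.range Ω _ r hr hr2 _ h1
    rintro h ⟨M, rfl⟩
    rw [hΩdef]
    exact hSqOm h2F d hd a b hab _ (hΨO M)
  have h3 : Nat.card ↥(Ψ.range ⊓ Ω) ∣ Nat.card ↥(NK ⊓ Ω) := by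
    apply Subgroup.card_dvd_of_le
    apply inf_le_inf_right
    rintro h ⟨M, rfl⟩
    exact hΨN M
  have h4 : Nat.card ↥(NK ⊓ Ω) * NK.relIndex Ω = Nat.card ↥Ω := by
    have h := Subgroup.relIndex_mul_relIndex (⊥ : Subgroup (GL (Im d) F)) (NK ⊓ Ω) Ω
      bot_le inf_le_right
    rw [Subgroup.relIndex_bot_left, Subgroup.relIndex_bot_left,
      Subgroup.inf_relIndex_right] at h
    exact h
  have h5 : Nat.card ↥Ω ∣ Amq q d := by
    have hle : Ω ≤ Cfsg.isometryGroup F (Cfsg.quadFormMinus (d - 1) F a b) := by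
      rw [hΩdef]
      exact omega_le _
    have h := Subgroup.card_dvd_of_le hle
    rw [Cfsg.Agent.Lib.Helper45.OrthCard.card_minus hq a b hab (d - 1),
      Nat.sub_add_cancel (by omega : 1 ≤ d)] at h
    exact h
  have hNpos : 0 < Nat.card ↥(NK ⊓ Ω) := Nat.card_pos
  exact hAr q d r (orderOf (q : ZMod r)) hq2 (by omega) hr hr2 hrq rfl (Nat.card ↥(NK ⊓ Ω))
    (Nat.card ↥Ω) (h2.trans h3) ⟨_, h4.symm⟩ h5 (by
      rw [← h4, Nat.mul_div_cancel_left _ hNpos, hNK, hΩdef]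
      exact hΩ)

theorem main (hMBr : MBr.{u}) (hSqOm : MSqOm.{u}) (hOmDet : OmDetG.{u}) (hOmV : OmVG.{u})
    (hOmFix : MOmFix.{u}) (hPL1 : PL1G.{u}) (hPLM : PLMG.{u}) (hLJ : LJG.{u}) (hLS : LStrG.{u})
    (hLD : LDiscG.{u}) (hNS : NormSq.{u}) (hCong : Cong.{u}) (hGl : GlueG.{u})
    (hSg : MSiegel.{u}) (hEmb : EmbOG.{u}) (hCO : CardO.{u}) (hCOM : CardOM.{u})
    (hSqIdx : SqIdx.{u}) (hAr : MIdxArith) (hEO : MEltOdd.{u}) (hEE : MEltEven.{u})
    (hET : MEltTop.{u}) (hTr : TransportG.{u}) (hNC : NoCommG.{u}) (hRT : RankTrickG.{u})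
    (hKD : KDimG.{u}) (hAut : AutG.{u}) (hQG : QuadGenG.{u}) (hO2 : Ord2)
    {p : ℕ} [Fact p.Prime] [CharP F p] {q : ℕ} (hq : Fintype.card F = q)
    (hodd : Odd q) (d : ℕ) (hd : 4 ≤ d) (a b : F)
    (hab : ∀ x y : F, x ^ 2 + a * x * y + b * y ^ 2 = 0 → x = 0 ∧ y = 0)
    (K : Subalgebra F (Matrix (Im d) (Im d) F)) (hK : Cfsg.Geo.IsFieldSubalgebra 2 K)
    (hKf : Cfsg.Geo.IsSelfAdjointFor
      (QuadraticMap.polar (Cfsg.quadFormMinus (d - 1) F a b)) K)
    (r : ℕ) [Fact r.Prime]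
    (hΩ : r ∣ (Cfsg.Geo.subalgebraNormalizer K).relIndex
      (Cfsg.Geo.omegaGL (Cfsg.quadFormMinus (d - 1) F a b))) :
    (∀ x ∈ Cfsg.Geo.omegaGL (Cfsg.quadFormMinus (d - 1) F a b),
      (∃ z : F, ((x ^ r : GL (Im d) F) : Matrix (Im d) (Im d) F) =
        z • (1 : Matrix (Im d) (Im d) F)) →
      (∀ z : F, (x : Matrix (Im d) (Im d) F) ≠ z • (1 : Matrix (Im d) (Im d) F)) →
      ∃ g ∈ Cfsg.Geo.omegaGL (Cfsg.quadFormMinus (d - 1) F a b),
        g⁻¹ * x * g ∈ Cfsg.Geo.subalgebraNormalizer K) ↔ r = 2 := by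
  classical
  have : Nonempty (Im d) := ⟨Sum.inr 0⟩
  have hcard : Fintype.card (Im d) = 2 * d := by
    simp only [Fintype.card_sum, Fintype.card_fin]
    omega
  have hr : r.Prime := Fact.out
  have hp : p.Prime := Fact.out
  have h2F : (2 : F) ≠ 0 := Cfsg.Agent.Lib.Helper40.FExt.two_ne_zero_of hq hodd
  obtain ⟨n, -, hn⟩ := FiniteField.card F p
  have hqp : q = p ^ (n : ℕ) := by rw [← hq, hn]
  have hq2 : 2 ≤ q := by rw [← hq]; exact Fintype.one_lt_card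
  have hp2 : p ≠ 2 := by
    intro h
    rw [hqp, h] at hodd
    have h1 : Even (2 ^ (n : ℕ)) := (Nat.even_pow' n.ne_zero).mpr even_two
    exact (Nat.not_even_iff_odd.mpr hodd) h1
  obtain ⟨hS, hSdet0, hObr, hSa⟩ := hMBr h2F d a b
  obtain ⟨ν₀, hν₀def⟩ : ∃ ν₀ : F, ν₀ = a ^ 2 - 4 * b := ⟨_, rfl⟩
  have hν₀ : ¬ IsSquare ν₀ := by
    rintro ⟨s, hs⟩
    have h1 := hab ((s - a) / 2) 1 (by
      field_simp
      rw [hν₀def] at hs
      linear_combination -hs)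
    exact one_ne_zero h1.2
  have hSdet : (Gm d a b).det = (-1) ^ d * ν₀ := by
    have hpow : (-1 : F) ^ d = (-1) ^ (d - 1) * (-1) := by
      rw [← pow_succ, Nat.sub_add_cancel (by omega : 1 ≤ d)]
    rw [hSdet0, hpow, hν₀def]
    ring
  have hSdetne : (Gm d a b).det ≠ 0 := by
    rw [hSdet]
    exact mul_ne_zero (pow_ne_zero _ (neg_ne_zero.mpr one_ne_zero))
      (fun h => hν₀ (h ▸ IsSquare.zero))
  have hKs : ∀ k ∈ K, Gm d a b * k = kᵀ * Gm d a b := hSa K hKf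
  obtain ⟨J, a₀, l, hJK, hJJ0, hKJ, hirr, hdisc, hJq, ha0⟩ := hQG q hq K hK
  have ha := ha0 h2F
  subst ha
  have hJJ : J * J = l • 1 := by rw [hJJ0, zero_smul, zero_add]
  have hl : ¬ IsSquare l := by
    rintro ⟨t, ht⟩
    exact hirr t (by rw [zero_mul, zero_add, ht])
  have hJs : Gm d a b * J = Jᵀ * Gm d a b := hKs J hJK
  have hΩO : Cfsg.Geo.omegaGL (Cfsg.quadFormMinus (d - 1) F a b) ≤
      Cfsg.isometryGroup F (Cfsg.quadFormMinus (d - 1) F a b) := omega_le _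
  constructor
  · intro hAll
    by_contra hr2
    by_cases hrp : r = p
    · subst hrp
      obtain ⟨u, hu1, hu2, hu3, hu4, hu5⟩ := hSg (F := F) r hp2 d hd a b hab
      obtain ⟨g, hg, hmem⟩ := hAll u hu1
        ⟨1, by rw [Units.val_pow_eq_pow_val, hu2, one_smul]⟩ hu3
      obtain ⟨hc1, hc2, hc3, hc4⟩ := conj_factsG g u
      have hcent := hRT 2 K hK _ hmem (by rw [hc1, hu4, hcard]; omega)
      obtain ⟨y, hy⟩ : ∃ y : GL (Im d) F, y = g⁻¹ * u * g := ⟨_, rfl⟩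
      rw [← hy] at hcent hc2 hmem
      have hcomm : ∀ k ∈ K, ((y.val - 1) * (y.val - 1)) * k = k * ((y.val - 1) * (y.val - 1)) := by
        intro k hk
        have h1 : (y.val - 1) * k = k * (y.val - 1) := by
          rw [Matrix.sub_mul, Matrix.mul_sub, hcent k hk, Matrix.one_mul, Matrix.mul_one]
        rw [Matrix.mul_assoc, h1, ← Matrix.mul_assoc, h1, Matrix.mul_assoc]
      have h1 := hKD 2 K hK (LinearMap.range ((y.val - 1) * (y.val - 1)).mulVecLin)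
        (fun k hk => range_invtG _ k (hcomm k hk))
      have h2 : Module.finrank F (LinearMap.range ((y.val - 1) * (y.val - 1)).mulVecLin) = 1 := by
        have h3 : Module.finrank F (LinearMap.range ((y.val - 1) * (y.val - 1)).mulVecLin) =
            ((y.val - 1) * (y.val - 1)).rank := rfl
        exact h3.trans (hc2.trans hu5)
      rw [h2] at h1
      have := Nat.le_of_dvd one_pos h1
      omega
    · have hrq : ¬ r ∣ q := by
        rw [hqp]
        intro h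
        exact hrp ((Nat.prime_dvd_prime_iff_eq hr hp).mp (hr.dvd_of_dvd_pow h))
      have hrF : ((r : ℕ) : F) ≠ 0 := by
        intro h
        have h1 := (CharP.cast_eq_zero_iff F p r).mp h
        exact hrp ((Nat.prime_dvd_prime_iff_eq hp hr).mp h1).symm
      obtain ⟨hoddE, hcase⟩ := idxM hSqOm hSqIdx hLJ hLS hLD hEmb hCO hCOM hAr hq h2F d
        (by omega) a b hab hS ν₀ hν₀ hSdet hObr K J l hl hJJ hJs hKJ r hr hr2 hrq hΩ
      have hΩmem : ∀ x ∈ Cfsg.isometryGroup F (Cfsg.quadFormMinus (d - 1) F a b),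
          x.val ^ r = 1 → x ∈ Cfsg.Geo.omegaGL (Cfsg.quadFormMinus (d - 1) F a b) := by
        intro x hx hxr
        have hxr' : x ^ r = 1 := Units.ext (by rw [Units.val_pow_eq_pow_val, hxr]; rfl)
        obtain ⟨c, hc⟩ := hr.odd_of_ne_two hr2
        have h1 := hSqOm h2F d (by omega) a b hab (x ^ (c + 1)) (Subgroup.pow_mem _ hx _)
        have h2 : x ^ (c + 1) * x ^ (c + 1) = x := by
          rw [← pow_add, show c + 1 + (c + 1) = r + 1 by omega, pow_succ, hxr', one_mul]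
        rw [h2] at h1
        exact h1
      rcases hcase with ⟨hio, hid⟩ | ⟨hie, hid⟩
      · obtain ⟨x, P, R, hxO, hxr, hxns, hPi, hPm, hcp, hPR, hPodd⟩ :=
          hEO (F := F) p q hq d a b r hr2 hrp _ rfl hio hid
        obtain ⟨g, hg, hmem⟩ := hAll x (hΩmem x hxO hxr)
          ⟨1, by rw [Units.val_pow_eq_pow_val, hxr, one_smul]⟩ hxns
        obtain ⟨hc1, hc2, hc3, hc4⟩ := conj_factsG g x
        obtain ⟨y, hy⟩ : ∃ y : GL (Im d) F, y = g⁻¹ * x * g := ⟨_, rfl⟩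
        rw [← hy] at hmem hc3 hc4
        have hyr : y.val ^ r = 1 := hc4 r hxr
        have hcent := hAut 2 K Nat.prime_two hK y hmem r hr hr2 hyr
        have h1 := Cfsg.Agent.Lib.Helper40.FExtOdd.finrank_ker y.val r hrF hyr P R hPi hPm
          (by rw [hc3]; exact hcp) hPR
        have h2 := hKD 2 K hK (LinearMap.ker (aeval (Matrix.toLin' y.val) P)) (by
          intro k hk u hu
          have h3 := Cfsg.Agent.Lib.Helper40.FExtOdd.ker_invt y.val k (hcent k hk) P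
          rw [Module.End.mem_invtSubmodule] at h3
          have h4 := h3 hu
          rw [Submodule.mem_comap, Matrix.toLin'_apply] at h4
          exact h4)
        rw [h1] at h2
        exact (Nat.not_even_iff_odd.mpr hPodd) (even_iff_two_dvd.mpr h2)
      · obtain ⟨e, he, hre⟩ := hO2 q r hr hrq (even_iff_two_dvd.mp hie) (by
          intro h
          exact (Nat.not_even_iff_odd.mpr hoddE) (even_iff_two_dvd.mpr h))
        have hex : ∃ (x₁ S₁ : Matrix (Fin (2 * d)) (Fin (2 * d)) F) (P R : F[X]) (μ : F),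
            S₁ᵀ = S₁ ∧ μ ≠ 0 ∧ S₁.det = (-1) ^ d * ν₀ * μ ^ 2 ∧ x₁ᵀ * S₁ * x₁ = S₁ ∧
            x₁ ^ r = 1 ∧ (∀ z : F, x₁ ≠ z • 1) ∧ Irreducible P ∧ P.Monic ∧
            x₁.charpoly = P * R ∧ ¬ P ∣ R := by
          by_cases hi2 : orderOf (q : ZMod r) + 2 ≤ 2 * d
          · exact hEE (F := F) p q hq h2F d ν₀ hν₀ r hr2 hrp _ rfl hie hi2
          · have hi3 : 2 * d = orderOf (q : ZMod r) := by
              obtain ⟨c, hc⟩ := hie
              omega
            exact hET (F := F) p q hq h2F d (by omega) ν₀ hν₀ r hr2 hrp hi3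
        obtain ⟨x₁, S₁, P, R, μ, hS₁, hμ, hS₁d, hx₁S, hx₁r, hx₁ns, hPi, hPm, hcp, hPR⟩ := hex
        obtain ⟨x, hxiso, hxcp, hxpow, hxns'⟩ := hTr h2F (2 * d) hcard (Gm d a b) hS hSdetne
          x₁ S₁ μ hS₁ hμ (by rw [hS₁d, hSdet]) hx₁S
        have hxO := (hObr x).mpr hxiso
        have hxr := hxpow r hx₁r
        have hxns := hxns' hx₁ns
        have hxΩ := hΩmem x hxO hxr
        obtain ⟨g, hg, hmem⟩ := hAll x hxΩ
          ⟨1, by rw [Units.val_pow_eq_pow_val, hxr, one_smul]⟩ hxns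
        obtain ⟨hc1, hc2, hc3, hc4⟩ := conj_factsG g x
        have hyΩ : g⁻¹ * x * g ∈ Cfsg.Geo.omegaGL (Cfsg.quadFormMinus (d - 1) F a b) :=
          Subgroup.mul_mem _ (Subgroup.mul_mem _ (Subgroup.inv_mem _ hg) hxΩ) hg
        obtain ⟨y, hy⟩ : ∃ y : GL (Im d) F, y = g⁻¹ * x * g := ⟨_, rfl⟩
        rw [← hy] at hmem hc3 hc4 hyΩ
        have hyr : y.val ^ r = 1 := hc4 r hxr
        have hcent := hAut 2 K Nat.prime_two hK y hmem r hr hr2 hyr
        have hyiso := (hObr y).mp (hΩO hyΩ)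
        have hyQ : y.val ^ (q ^ e + 1) = 1 := by
          obtain ⟨t, ht⟩ := hre
          rw [ht, pow_mul, hyr, one_pow]
        exact hNC q hq (Gm d a b) y.val hS hSdetne hyiso r hrF hyr P R hPi hPm
          (by rw [hc3, hxcp]; exact hcp) hPR e he hyQ J 0 l hJJ0 hdisc hJq hJs (hcent J hJK)
  · intro hr2 x hx hxz hxns
    obtain ⟨z, hz⟩ := hxz
    rw [hr2, Units.val_pow_eq_pow_val, pow_two] at hz
    have hxiso := (hObr x).mp (hΩO hx)
    have hzz : z = 1 ∨ z = -1 := by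
      have h3 : (x.val * x.val)ᵀ * Gm d a b * (x.val * x.val) = Gm d a b := by
        rw [Matrix.transpose_mul]
        calc x.valᵀ * x.valᵀ * Gm d a b * (x.val * x.val)
            = x.valᵀ * (x.valᵀ * Gm d a b * x.val) * x.val := by simp only [Matrix.mul_assoc]
          _ = Gm d a b := by rw [hxiso, hxiso]
      rw [hz, Matrix.transpose_smul, Matrix.transpose_one, Matrix.smul_mul, Matrix.one_mul,
        Matrix.mul_smul, Matrix.mul_one, smul_smul] at h3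
      have h10 := congrFun (congrFun h3 (Sum.inr 0)) (Sum.inr 0)
      simp only [Matrix.smul_apply, Gm, Matrix.fromBlocks_apply₂₂, smul_eq_mul] at h10
      have h11 : z * z * 2 = 2 := by simpa using h10
      have h12 : z * z = 1 := by
        apply mul_right_cancel₀ h2F
        rw [h11, one_mul]
      exact mul_self_eq_one_iff.mp h12
    have hEvenι : Even (Fintype.card (Im d)) := by rw [hcard]; exact even_two_mul d
    have hJ' : ∃ (J' t : Matrix (Im d) (Im d) F) (ε : F), ε ≠ 0 ∧ J' * J' = l • 1 ∧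
        Gm d a b * J' = J'ᵀ * Gm d a b ∧ x.val * J' = ε • (J' * x.val) ∧
        tᵀ * Gm d a b * t = Gm d a b ∧ t * t = 1 ∧ t.det = -1 ∧
        x.val * (t * J' * t) = ε • (t * J' * t * x.val) := by
      rcases hzz with h | h
      · have hdet : x.val.det = 1 := hOmDet _ x hx
        obtain ⟨J', t, h1, h2, h3, h4, h5, h6, h7⟩ := hPL1 h2F hEvenι (Gm d a b) hS hSdetne l hl
          x.val hxiso (by rw [hz, h, one_smul]) hdet
        refine ⟨J', t, 1, one_ne_zero, h1, h2, by rw [h3, one_smul], h4, h5, h6, ?_⟩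
        rw [one_smul]
        calc x.val * (t * J' * t) = (x.val * t) * J' * t := by simp only [Matrix.mul_assoc]
          _ = t * (x.val * J') * t := by rw [← h7]; simp only [Matrix.mul_assoc]
          _ = t * J' * (x.val * t) := by rw [h3]; simp only [Matrix.mul_assoc]
          _ = t * J' * t * x.val := by rw [← h7]; simp only [Matrix.mul_assoc]
      · obtain ⟨J', t, h1, h2, h3, h4, h5, h6, h7⟩ := hPLM h2F (Gm d a b) hS hSdetne l hl
          x.val hxiso (by rw [hz, h, neg_smul, one_smul])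
        exact ⟨J', t, -1, neg_ne_zero.mpr one_ne_zero, h1, h2, by rw [h3, neg_smul, one_smul],
          h4, h5, h6, by rw [h7, neg_smul, one_smul]⟩
    obtain ⟨J', t, ε, hε, hJ'J', hJ's, hxJ', ht1, ht2, ht3, hxJ''⟩ := hJ'
    obtain ⟨h, hh1, hh2⟩ := transM hLJ hLS hLD hNS hCong hGl h2F d hcard (Gm d a b) hS hSdetne
      l hl J J' hJJ hJ'J' hJs hJ's
    have hdeth : h.det = 1 ∨ h.det = -1 := by
      have h1 := congrArg Matrix.det hh1
      rw [Matrix.det_mul, Matrix.det_mul, Matrix.det_transpose] at h1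
      have h2 : h.det * h.det = 1 := by
        apply mul_right_cancel₀ hSdetne
        rw [one_mul]
        linear_combination h1
      exact mul_self_eq_one_iff.mp h2
    have hex : ∃ (J₁ h₁ : Matrix (Im d) (Im d) F), h₁ᵀ * Gm d a b * h₁ = Gm d a b ∧
        h₁.det = 1 ∧ h₁ * J₁ = J * h₁ ∧ x.val * J₁ = ε • (J₁ * x.val) := by
      rcases hdeth with hd1 | hd1
      · exact ⟨J', h, hh1, hd1, hh2, hxJ'⟩
      · refine ⟨t * J' * t, h * t, ?_, ?_, ?_, hxJ''⟩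
        · rw [Matrix.transpose_mul]
          calc tᵀ * hᵀ * Gm d a b * (h * t) = tᵀ * (hᵀ * Gm d a b * h) * t := by
                simp only [Matrix.mul_assoc]
            _ = Gm d a b := by rw [hh1, ht1]
        · rw [Matrix.det_mul, hd1, ht3, neg_mul_neg, one_mul]
        · calc h * t * (t * J' * t) = h * (t * t) * J' * t := by simp only [Matrix.mul_assoc]
            _ = (h * J') * t := by rw [ht2, Matrix.mul_one]
            _ = J * (h * t) := by rw [hh2, Matrix.mul_assoc]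
    obtain ⟨J₁, h₁, hh₁1, hh₁d, hh₁J, hxJ₁⟩ := hex
    obtain ⟨H₁, hH₁⟩ : ∃ H₁ : GL (Im d) F, H₁.val = h₁ :=
      ⟨Matrix.GeneralLinearGroup.mkOfDetNeZero h₁ (by rw [hh₁d]; exact one_ne_zero), rfl⟩
    have hH₁O : H₁ ∈ Cfsg.isometryGroup F (Cfsg.quadFormMinus (d - 1) F a b) :=
      (hObr H₁).mpr (by rw [hH₁]; exact hh₁1)
    obtain ⟨v, hv1, hv2⟩ := hOmV h2F (by rw [hcard]; omega) (Gm d a b) hS hSdetne l hl J hJJ hJs
    have hH₁inv_det : (H₁⁻¹).val.det = 1 := by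
      have h1 : (H₁⁻¹).val.det * H₁.val.det = 1 := by
        rw [← Matrix.det_mul, Units.inv_mul, Matrix.det_one]
      rw [hH₁, hh₁d, mul_one] at h1
      exact h1
    obtain ⟨nn, hnO, hnJ, hnΩ⟩ := hOmFix h2F d (by omega) a b hab l hl J hJJ hJs v hv1 hv2 H₁⁻¹
      (Subgroup.inv_mem _ hH₁O) hH₁inv_det
    refine ⟨H₁⁻¹ * nn, hnΩ, ?_⟩
    apply mem_normalizerG K J hKJ _ ε hε
    have e1 : (H₁⁻¹ * nn)⁻¹ * x * (H₁⁻¹ * nn) = nn⁻¹ * (H₁ * x * H₁⁻¹) * (nn⁻¹)⁻¹ := by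
      simp only [_root_.mul_inv_rev, inv_inv, mul_assoc]
    rw [e1]
    have c1 := conj_semi H₁ x.val J J₁ ε (by rw [hH₁]; exact hh₁J) hxJ₁
    have hnJ' : (nn⁻¹).val * J = J * (nn⁻¹).val := by
      calc (nn⁻¹).val * J = (nn⁻¹).val * (J * nn.val) * (nn⁻¹).val := by
            rw [Matrix.mul_assoc, Matrix.mul_assoc, Units.mul_inv, Matrix.mul_one]
        _ = (nn⁻¹).val * (nn.val * J) * (nn⁻¹).val := by rw [hnJ]
        _ = J * (nn⁻¹).val := by
            rw [← Matrix.mul_assoc (nn⁻¹).val, Units.inv_mul, Matrix.one_mul]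
    have c2 := conj_semi nn⁻¹ (H₁.val * x.val * (H₁⁻¹).val) J J ε hnJ' c1
    simp only [Units.val_mul]
    exact c2

end minus

end Cfsg.Agent.Lib.Helper41.OMAsm
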