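import Mathlib
import Cfsg.Agent.Lib.Helper41.OMStmt
import Cfsg.Agent.Lib.Helper41.OFLDISC0

/-!
# S5978 piece LDISCG: discriminant transfer for an `L`-frame (any index type)
-/

set_option autoImplicit false

namespace Cfsg.Agent.Lib.Helper41.OMLDISCG

open Matrix Module
open scoped Kronecker
open Cfsg.Agent.Lib.Helper41.OMStmt
open Cfsg.Agent.Lib.Helper41.OFLDISC0 (t_ne_zero)

universe u

theorem main : LDiscG.{u} := by
  intro F _ _ h2 L _ _ _ τ hτ
  classical
  obtain ⟨k, ω⟩ : ∃ k : ℕ, Nonempty (Basis (Fin k) F L) :=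
    ⟨Module.finrank F L, ⟨Module.finBasis F L⟩⟩
  obtain ⟨ω⟩ := ω
  have hkL : Module.finrank F L = k := by
    rw [Module.finrank_eq_card_basis ω, Fintype.card_fin]
  obtain ⟨T, hT⟩ : ∃ T : Matrix (Fin k) (Fin k) F, T = Matrix.of fun a a' => τ (ω a * ω a') :=
    ⟨_, rfl⟩
  have ht : T.det ≠ 0 := by rw [hT]; exact t_ne_zero ω τ hτ
  refine ⟨T.det, ht, ?_⟩
  intro ι _ _ S m' φ b G hfr
  obtain ⟨hGs, hGdet, hbij, hform⟩ := hfr
  obtain ⟨β, hβ⟩ : ∃ β : Basis (Fin k × Fin m') F (Fin m' → L),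
      ∀ a j, β (a, j) = Pi.single j (ω a) := by
    refine ⟨ω.smulTower (Pi.basisFun L (Fin m')), ?_⟩
    intro a j
    rw [Basis.smulTower_apply, Pi.basisFun_apply]
    ext i
    by_cases hij : i = j
    · subst hij
      simp
    · simp [Pi.single_eq_of_ne hij]
  obtain ⟨f, hf⟩ : ∃ f : (Fin m' → L) →ₗ[F] (Fin m' → L),
      f = (Matrix.toLin' G).restrictScalars F := ⟨_, rfl⟩
  obtain ⟨R, hR⟩ : ∃ R : Matrix (Fin k × Fin m') (Fin k × Fin m') F,
      R = LinearMap.toMatrix β β f := ⟨_, rfl⟩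
  have hRdet : R.det = Algebra.norm F G.det := by
    rw [hR, LinearMap.det_toMatrix, hf, LinearMap.det_restrictScalars, LinearMap.det_toLin']
  have hexp : ∀ y, G *ᵥ β y = ∑ z, R z y • β z := by
    intro y
    have h1 := β.sum_repr (f (β y))
    rw [hf, LinearMap.restrictScalars_apply, Matrix.toLin'_apply] at h1
    rw [← h1]
    apply Finset.sum_congr rfl
    intro z _
    rw [hR, LinearMap.toMatrix_apply, hf, LinearMap.restrictScalars_apply, Matrix.toLin'_apply]
  obtain ⟨Tb, hTb⟩ : ∃ Tb : Matrix (Fin k × Fin m') (Fin k × Fin m') F,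
      Tb = Matrix.of fun x z => τ (β x ⬝ᵥ β z) := ⟨_, rfl⟩
  have hTbK : Tb = T ⊗ₖ (1 : Matrix (Fin m') (Fin m') F) := by
    ext ⟨a, j⟩ ⟨a', j'⟩
    rw [hTb, Matrix.of_apply, hβ, hβ, Matrix.kroneckerMap_apply, hT, Matrix.of_apply,
      single_dotProduct, Matrix.one_apply]
    by_cases hjj : j = j'
    · subst hjj
      simp
    · rw [if_neg hjj, mul_zero, Pi.single_eq_of_ne hjj, mul_zero, map_zero]
  have hTbdet : Tb.det = T.det ^ m' := by
    rw [hTbK, Matrix.det_kronecker, Matrix.det_one, one_pow, mul_one, Fintype.card_fin]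
  have hM : ∀ x y, CoordG φ b (β x) ⬝ᵥ (S *ᵥ CoordG φ b (β y)) = (Tb * R) x y := by
    intro x y
    rw [hform, hexp, Matrix.mul_apply, dotProduct_sum, map_sum]
    apply Finset.sum_congr rfl
    intro z _
    rw [dotProduct_smul, map_smul, hTb, Matrix.of_apply, smul_eq_mul, mul_comm]
  have hcard : Fintype.card (Fin k × Fin m') = Fintype.card ι := by
    have h1 := Fintype.card_of_bijective hbij
    rw [Fintype.card_fun, Fintype.card_fun, Fintype.card_fin,
      Module.card_eq_pow_finrank (K := F) (V := L), hkL, ← pow_mul] at h1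
    have hq2 : 2 ≤ Fintype.card F := Fintype.one_lt_card
    have h3 := Nat.pow_right_injective hq2 h1
    rw [Fintype.card_prod, Fintype.card_fin, Fintype.card_fin]
    exact h3
  obtain ⟨e⟩ : Nonempty ((Fin k × Fin m') ≃ ι) := ⟨Fintype.equivOfCardEq hcard⟩
  obtain ⟨Pq, hPq⟩ : ∃ Pq : Matrix ι ι F, ∀ i i', Pq i i' = CoordG φ b (β (e.symm i')) i :=
    ⟨Matrix.of fun i i' => CoordG φ b (β (e.symm i')) i, fun _ _ => rfl⟩
  have hPM : Pqᵀ * S * Pq = (Tb * R).submatrix e.symm e.symm := by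
    ext i' i''
    rw [Matrix.submatrix_apply, ← hM, Matrix.mul_assoc, Matrix.mul_apply]
    simp only [dotProduct, Matrix.mulVec, Matrix.mul_apply, Matrix.transpose_apply, hPq]
  have hdet := congrArg Matrix.det hPM
  rw [Matrix.det_submatrix_equiv_self, Matrix.det_mul, Matrix.det_mul, Matrix.det_mul,
    Matrix.det_transpose, hTbdet, hRdet] at hdet
  have hne : Algebra.norm F G.det * T.det ^ m' ≠ 0 :=
    mul_ne_zero (Algebra.norm_ne_zero_iff.mpr hGdet) (pow_ne_zero _ ht)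
  refine ⟨Pq.det, ?_, ?_⟩
  · intro h0
    apply hne
    rw [mul_comm, ← hdet, h0, zero_mul, zero_mul]
  · rw [mul_comm, ← hdet]
    ring

end Cfsg.Agent.Lib.Helper41.OMLDISCG
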