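import Mathlib
import Cfsg.Agent.Lib.Helper41.OMStmt
import Cfsg.Agent.Lib.Helper29.NoCommGen

/-!
# S5978 piece NOCOMMG (from `Helper29.NoCommGen.no_comm_gram`)
-/

set_option autoImplicit false

namespace Cfsg.Agent.Lib.Helper41.OMNOCOMMG

open Matrix Polynomial
open Cfsg.Agent.Lib.Helper41.OMStmt

universe u

theorem main : NoCommG.{u} := by
  intro F _ _ q hq ι _ _ S x hS hSdet hx N hN hxN P R hP hPm hχ hPR e he hxQ J a b hJJ hdisc hJq
    hJs hc
  exact Cfsg.Agent.Lib.Helper29.NoCommGen.no_comm_gram hq S hSdet x hx N hN hxN P R hP hPm hχ hPR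
    e he hxQ J a b hJJ hdisc hJq hJs hc

end Cfsg.Agent.Lib.Helper41.OMNOCOMMG
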