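import Mathlib
import Cfsg.Agent.Lib.Helper41.SubfStmt
import Cfsg.Agent.S5964
import Cfsg.Agent.Lib.Helper40.PrimeFix
import Cfsg.Agent.Lib.Helper40.RootPow
import Cfsg.Agent.Lib.Helper40.PGLPrime

/-!
# S5965: assembly of the pieces of `SubfStmt`
-/

set_option autoImplicit false
universe u
open scoped MatrixGroups

namespace Cfsg.Agent.Lib.Helper41.SubfAsm

open Cfsg.Agent.Lib.Helper41.SubfStmt

/-- [MEM] the matrix form of "conjugate in `SL_n(F)` into the subfield subgroup". -/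
theorem mem_iff {F : Type u} [Field F] {n : ℕ} (F₀ : Subfield F)
    (x : Matrix.SpecialLinearGroup (Fin n) F) :
    (∃ P : Matrix.SpecialLinearGroup (Fin n) F, P⁻¹ * x * P ∈
      ((Cfsg.Geo.subfieldSubgroup F₀ 1).comap (Matrix.SpecialLinearGroup.toGL :
        Matrix.SpecialLinearGroup (Fin n) F →* GL (Fin n) F))) ↔
      Good F₀ (x : Matrix (Fin n) (Fin n) F) := by
  constructor
  · rintro ⟨P, hP⟩
    rw [Subgroup.mem_comap] at hP
    obtain ⟨A', c, hc, hA', hg⟩ := Cfsg.Agent.S5964.of_mem_B F₀ _ hP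
    have hg' : ((P⁻¹ * x * P : Matrix.SpecialLinearGroup (Fin n) F) :
        Matrix (Fin n) (Fin n) F) = c • A' := hg
    refine ⟨((P⁻¹ : Matrix.SpecialLinearGroup (Fin n) F) : Matrix (Fin n) (Fin n) F), c,
      Matrix.of (fun i j => (⟨A' i j, hA' i j⟩ : F₀)), (P⁻¹).2, hc, ?_⟩
    have hmap : (Matrix.of (fun i j => (⟨A' i j, hA' i j⟩ : F₀))).map (F₀.subtype : F₀ →+* F) =
        A' := by
      ext i j
      rfl
    rw [hmap, ← hg', ← Matrix.SpecialLinearGroup.coe_mul, ← Matrix.SpecialLinearGroup.coe_mul,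
      mul_inv_cancel_right]
  · rintro ⟨S, c, A₀, hS, hc, hSx⟩
    obtain ⟨Ss, hSs⟩ : ∃ Ss : Matrix.SpecialLinearGroup (Fin n) F,
        (Ss : Matrix (Fin n) (Fin n) F) = S := ⟨⟨S, hS⟩, rfl⟩
    refine ⟨Ss⁻¹, ?_⟩
    rw [Subgroup.mem_comap, inv_inv]
    have hcoe : ((Ss * x * Ss⁻¹ : Matrix.SpecialLinearGroup (Fin n) F) :
        Matrix (Fin n) (Fin n) F) = c • A₀.map (F₀.subtype : F₀ →+* F) := by
      have h1 : ((Ss * x * Ss⁻¹ : Matrix.SpecialLinearGroup (Fin n) F) :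
          Matrix (Fin n) (Fin n) F) * S = (c • A₀.map (F₀.subtype : F₀ →+* F)) * S := by
        rw [← hSx, ← hSs, ← Matrix.SpecialLinearGroup.coe_mul, ← Matrix.SpecialLinearGroup.coe_mul,
          inv_mul_cancel_right]
      have h2 := congrArg (fun M => M * ((Ss⁻¹ : Matrix.SpecialLinearGroup (Fin n) F) :
        Matrix (Fin n) (Fin n) F)) h1
      simp only [Matrix.mul_assoc] at h2
      rw [← hSs, ← Matrix.SpecialLinearGroup.coe_mul, mul_inv_cancel,
        Matrix.SpecialLinearGroup.coe_one, Matrix.mul_one, Matrix.mul_one] at h2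
      exact h2
    have hdet : (A₀.map (F₀.subtype : F₀ →+* F)).det ≠ 0 := by
      intro h0
      have h3 := congrArg Matrix.det hcoe
      rw [Matrix.det_smul, h0, mul_zero] at h3
      have h4 : ((Ss * x * Ss⁻¹ : Matrix.SpecialLinearGroup (Fin n) F) :
          Matrix (Fin n) (Fin n) F).det = 1 := (Ss * x * Ss⁻¹).2
      rw [h4] at h3
      exact one_ne_zero h3
    have hdet₀ : A₀.det ≠ 0 := by
      intro h0
      apply hdet
      have h5 : (A₀.map (F₀.subtype : F₀ →+* F)).det = (F₀.subtype : F₀ →+* F) A₀.det :=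
        (RingHom.map_det (F₀.subtype : F₀ →+* F) A₀).symm
      rw [h5, h0, map_zero]
    apply Cfsg.Agent.S5964.mem_B F₀ _ (Matrix.GeneralLinearGroup.mkOfDetNeZero A₀ hdet₀) c hc
    show ((Ss * x * Ss⁻¹ : Matrix.SpecialLinearGroup (Fin n) F) :
        Matrix (Fin n) (Fin n) F) = _
    rw [hcoe]
    congr 1

theorem dvd_sub_one_iff (r a : ℕ) (ha : 1 ≤ a) : r ∣ a - 1 ↔ ((a : ℕ) : ZMod r) = 1 := by
  rw [← ZMod.natCast_eq_zero_iff, Nat.cast_sub ha, Nat.cast_one, sub_eq_zero]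

theorem fermat_modEq (r a : ℕ) [Fact r.Prime] : a ^ r ≡ a [MOD r] := by
  rw [← ZMod.natCast_eq_natCast_iff, Nat.cast_pow, ZMod.pow_card]

/-- [POWK] for `r = k` the scalar `x ^ r` is an `r`-th power. -/
theorem powK {F : Type u} [Field F] [Fintype F] {p : ℕ} [Fact p.Prime] [CharP F p] (n : ℕ)
    (hn : 1 ≤ n) (q₀ r : ℕ) [Fact r.Prime] (hr2 : r ≠ 2) (hrp : r ≠ p)
    (hq : Fintype.card F = q₀ ^ r)
    (hgapk : r ∣ q₀ - 1 → padicValNat r n ≤ padicValNat r (Fintype.card F - 1))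
    (x : Matrix (Fin n) (Fin n) F) (hdet : x.det = 1) (z : F)
    (hz : x ^ r = z • (1 : Matrix (Fin n) (Fin n) F)) : ∃ d : F, d ^ r = z := by
  have hr : r.Prime := Fact.out
  by_cases hrq : r ∣ Fintype.card F - 1
  · by_contra hns
    push Not at hns
    have h1 := Cfsg.Agent.Lib.Helper40.PrimeFix.nonpower_arith r
      (Cfsg.Agent.Lib.Helper40.PrimeFix.cast_ne_zero' (p := p) r hrp) hn x hdet z hns hz
    apply h1
    refine ⟨hgapk ?_, fun h => absurd h hr2⟩
    have hq₀ : 1 ≤ q₀ := by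
      rcases Nat.eq_zero_or_pos q₀ with h0 | h0
      · rw [h0, zero_pow hr.ne_zero] at hq
        exact absurd hq Fintype.card_ne_zero
      · exact h0
    rw [dvd_sub_one_iff r _ Fintype.card_pos, hq, Nat.cast_pow, ZMod.pow_card] at hrq
    exact (dvd_sub_one_iff r q₀ hq₀).mpr hrq
  · exact Cfsg.Agent.Lib.Helper40.RootPow.exists_root r hr hrq z

theorem scalar_ne_zero {F : Type u} [Field F] (n : ℕ) (hn : 1 ≤ n) (r : ℕ)
    (x : Matrix (Fin n) (Fin n) F) (hdet : x.det = 1) (z : F)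
    (hz : x ^ r = z • (1 : Matrix (Fin n) (Fin n) F)) : z ≠ 0 := by
  rintro rfl
  have h1 := congrArg Matrix.det hz
  rw [Matrix.det_pow, hdet, one_pow, zero_smul] at h1
  have : Nonempty (Fin n) := ⟨⟨0, by omega⟩⟩
  rw [Matrix.det_zero] at h1
  exact one_ne_zero h1

/-- [SUFK] sufficiency for `r = k`. -/
theorem sufK (hFrob : Frob.{u}) (hConj : Conj.{u}) {F : Type u} [Field F] [Fintype F] {p : ℕ}
    [Fact p.Prime] [CharP F p] (n : ℕ) (hn : 1 ≤ n) (F₀ : Subfield F) (q₀ r : ℕ) [Fact r.Prime]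
    (hr2 : r ≠ 2) (hrp : r ≠ p) (hF₀ : Nat.card F₀ = q₀) (hq : Fintype.card F = q₀ ^ r)
    (hgapk : r ∣ q₀ - 1 → padicValNat r n ≤ padicValNat r (Fintype.card F - 1))
    (x : Matrix (Fin n) (Fin n) F) (hdet : x.det = 1) (z : F)
    (hz : x ^ r = z • (1 : Matrix (Fin n) (Fin n) F)) : Good F₀ x := by
  have hr : r.Prime := Fact.out
  obtain ⟨d, hd⟩ := powK n hn q₀ r hr2 hrp hq hgapk x hdet z hz
  have hz0 : z ≠ 0 := scalar_ne_zero n hn r x hdet z hz
  have hd0 : d ≠ 0 := by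
    rintro rfl
    rw [zero_pow hr.ne_zero] at hd
    exact hz0 hd.symm
  have hy : (d⁻¹ • x) ^ r = 1 := by
    rw [smul_pow, hz, smul_smul, inv_pow, hd, inv_mul_cancel₀ hz0, one_smul]
  have hpow : (d⁻¹ • x) ^ (q₀ ^ r) = (d⁻¹ • x) ^ q₀ := by
    rw [pow_eq_pow_mod (q₀ ^ r) hy, pow_eq_pow_mod q₀ hy]
    congr 1
    exact fermat_modEq r q₀
  have hcp : ((d⁻¹ • x) ^ Nat.card F₀).charpoly = (d⁻¹ • x).charpoly := by
    rw [hF₀, ← hpow, ← hq]
    exact FiniteField.Matrix.charpoly_pow_card _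
  obtain ⟨χ₀, hχ⟩ := hFrob F n F₀ (d⁻¹ • x) hcp
  exact hConj F p n hn F₀ r hr.pos
    (Cfsg.Agent.Lib.Helper40.PrimeFix.cast_ne_zero' (p := p) r hrp) x hdet z hz d⁻¹
    (inv_ne_zero hd0) χ₀ hχ

theorem sq_sub_one (a : ℕ) : a ^ 2 - 1 = (a - 1) * (a + 1) := by
  rcases a with _ | a
  · simp
  · have : (a + 1) ^ 2 = a * (a + 1 + 1) + 1 := by ring
    rw [this]
    simp

/-- [SUF2] sufficiency for `k = 2`, `r = n ∈ {3, 5}`, `(q₀ + 1)_r = r`. -/
theorem suf2 (hFrob : Frob.{u}) (hConj : Conj.{u}) (hZOne : ZOne.{u}) (hRefl : Refl.{u})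
    (hUnit : UnitPow.{u}) {F : Type u} [Field F] [Fintype F] {p : ℕ} [Fact p.Prime] [CharP F p]
    (F₀ : Subfield F) (q₀ r : ℕ) [Fact r.Prime] (hr2 : r ≠ 2) (hrp : r ≠ p)
    (hr35 : r = 3 ∨ r = 5) (hF₀ : Nat.card F₀ = q₀) (hq : Fintype.card F = q₀ ^ 2)
    (hv : padicValNat r (q₀ + 1) = 1)
    (x : Matrix (Fin r) (Fin r) F) (hdet : x.det = 1) (z : F)
    (hz : x ^ r = z • (1 : Matrix (Fin r) (Fin r) F)) : Good F₀ x := by
  have hr : r.Prime := Fact.out
  have hx1 := hZOne F p q₀ r hr2 hrp hq hv x hdet z hz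
  have hrq0 : r ∣ q₀ + 1 := dvd_of_one_le_padicValNat (by omega)
  have hrq : r ∣ Fintype.card F - 1 := by
    rw [hq, sq_sub_one]
    exact hrq0.mul_left _
  obtain ⟨ω, hω, hy⟩ := hRefl F r hr35 hrq x hdet hx1
  obtain ⟨c, hc0, hc⟩ := hUnit F q₀ r hq hrq0 ω hω
  have hxy : x * x ^ q₀ = 1 := by
    rw [← pow_succ']
    obtain ⟨t, ht⟩ := hrq0
    rw [ht, pow_mul, hx1, one_pow]
  have h1 := hy (x ^ q₀) hxy
  have hcp : ((c • x) ^ Nat.card F₀).charpoly = (c • x).charpoly := by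
    rw [hF₀, smul_pow, hc, mul_smul, Cfsg.Agent.Lib.Helper40.PGLPrime.charpoly_smul c hc0,
      Cfsg.Agent.Lib.Helper40.PGLPrime.charpoly_smul c hc0, h1]
  obtain ⟨χ₀, hχ⟩ := hFrob F r F₀ (c • x) hcp
  exact hConj F p r hr.one_le F₀ r hr.pos
    (Cfsg.Agent.Lib.Helper40.PrimeFix.cast_ne_zero' (p := p) r hrp) x hdet z hz c hc0 χ₀ hχ

/-- [BADGEN] a diagonal element without symmetry is a bad element. -/
theorem badGen (hDiag : DiagBad.{u}) {F : Type u} [Field F] [Fintype F] (n : ℕ)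
    (F₀ : Subfield F) (q₀ : ℕ) (hF₀ : Nat.card F₀ = q₀) (r : ℕ) [Fact r.Prime] (lam : F)
    (hlam : orderOf lam = r) (d : F) (hd : d ≠ 0) (e : Fin n → ZMod r)
    (hdet : d ^ n * lam ^ (∑ j, (e j).val) = 1) (hnc : ∃ j j', e j ≠ e j')
    (hns : ¬ Sym e ((q₀ : ℕ) : ZMod r)) :
    ∃ x : Matrix (Fin n) (Fin n) F, x.det = 1 ∧
      (∃ z : F, x ^ r = z • (1 : Matrix (Fin n) (Fin n) F)) ∧
      (∀ z : F, x ≠ z • (1 : Matrix (Fin n) (Fin n) F)) ∧ ¬ Good F₀ x := by
  have hr : r.Prime := Fact.out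
  have hlamr : lam ^ r = 1 := by
    rw [← hlam]
    exact pow_orderOf_eq_one lam
  refine ⟨d • Matrix.diagonal (fun j => lam ^ (e j).val), ?_, ⟨d ^ r, ?_⟩, ?_,
    fun h => hns (hDiag F n F₀ q₀ hF₀ r lam hlam d hd e h)⟩
  · rw [Matrix.det_smul, Matrix.det_diagonal, Finset.prod_pow_eq_pow_sum, Fintype.card_fin]
    exact hdet
  · rw [smul_pow, Matrix.diagonal_pow]
    congr 1
    rw [← Matrix.diagonal_one]
    congr 1
    funext j
    show (lam ^ (e j).val) ^ r = 1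
    rw [← pow_mul, mul_comm, pow_mul, hlamr, one_pow]
  · intro z hz
    obtain ⟨j, j', hjj⟩ := hnc
    have h1 := congrFun (congrFun hz j) j
    have h2 := congrFun (congrFun hz j') j'
    rw [Matrix.smul_apply, Matrix.diagonal_apply_eq, Matrix.smul_apply, Matrix.one_apply_eq]
      at h1 h2
    have h3 : lam ^ (e j).val = lam ^ (e j').val := mul_left_cancel₀ hd (h1.trans h2.symm)
    have hprim : IsPrimitiveRoot lam r := by
      rw [← hlam]
      exact IsPrimitiveRoot.orderOf lam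
    have h4 := hprim.pow_inj (ZMod.val_lt _) (ZMod.val_lt _) h3
    exact hjj (ZMod.val_injective r h4)

/-- [ROOTD] if `r ^ 2 ∣ q - 1`, an element of order `r` is an `r`-th power. -/
theorem rootD {F : Type u} [Field F] [Fintype F] (r : ℕ) [Fact r.Prime]
    (h2 : r ^ 2 ∣ Fintype.card F - 1) (lam : F) (hlam : orderOf lam = r) :
    ∃ d : F, d ^ r = lam⁻¹ := by
  have hr : r.Prime := Fact.out
  suffices h : ∃ d : F, d ^ r = lam by
    obtain ⟨d, hd⟩ := h
    exact ⟨d⁻¹, by rw [inv_pow, hd]⟩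
  by_contra hns
  push Not at hns
  have h1 := Cfsg.Agent.Lib.Helper40.RootPow.pow_dvd_orderOf r lam hns
  rw [hlam] at h1
  have h3 : 2 ≤ padicValNat r (Fintype.card F - 1) :=
    (padicValNat_dvd_iff_le Cfsg.Agent.Lib.Helper40.RootPow.card_sub_one_ne_zero).mp h2
  have h4 : r ^ 2 ∣ r := (pow_dvd_pow r h3).trans h1
  have h5 := Nat.le_of_dvd hr.pos h4
  nlinarith [hr.two_le]

theorem exists_lam {F : Type u} [Field F] [Fintype F] (r : ℕ) [Fact r.Prime]
    (h : r ∣ Fintype.card F - 1) : ∃ lam : F, orderOf lam = r := by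
  have h1 : r ∣ Nat.card Fˣ := by
    rw [Cfsg.Agent.Lib.Helper40.RootPow.card_units']
    exact h
  obtain ⟨u, hu⟩ := exists_prime_orderOf_dvd_card' r h1
  exact ⟨(u : F), by rw [orderOf_units]; exact hu⟩

/-- The statement of S5965 from the pieces. -/
theorem main (hFrob : Frob.{u}) (hConj : Conj.{u}) (hZOne : ZOne.{u}) (hRefl : Refl.{u})
    (hUnit : UnitPow.{u}) (hIdx1 : Idx1.{u}) (hIdx2 : Idx2) (hBadI : BadI.{u})
    (hDiag : DiagBad.{u}) (h3A : Comb3A) (h3B1 : Comb3B1) (h3B2 : Comb3B2) (h3B3 : Comb3B3)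
    {F : Type u} [Field F] [Fintype F] {p : ℕ} [Fact p.Prime] [CharP F p] {q : ℕ}
    (hq : Fintype.card F = q) (n : ℕ) (hn : 2 ≤ n)
    (F₀ : Subfield F) (k q₀ : ℕ) (hk : k.Prime) (hF₀ : Nat.card ↥F₀ = q₀) (hqk : q = q₀ ^ k)
    (r : ℕ) [Fact r.Prime] (hr2 : r ≠ 2) (hrp : r ≠ p) (hgap : ¬ (n = 6 ∧ r = 3))
    (hgapk : r = k → r ∣ q₀ - 1 → padicValNat r n ≤ padicValNat r (q - 1))
    (hΩ : r ∣ ((Cfsg.Geo.subfieldSubgroup F₀ 1).comap (Matrix.SpecialLinearGroup.toGL :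
      Matrix.SpecialLinearGroup (Fin n) F →* GL (Fin n) F)).index) :
    (∀ x : Matrix.SpecialLinearGroup (Fin n) F,
      (∃ z : F, ((x ^ r : Matrix.SpecialLinearGroup (Fin n) F) : Matrix (Fin n) (Fin n) F) =
        z • (1 : Matrix (Fin n) (Fin n) F)) →
      (∀ z : F, (x : Matrix (Fin n) (Fin n) F) ≠ z • (1 : Matrix (Fin n) (Fin n) F)) →
      ∃ P : Matrix.SpecialLinearGroup (Fin n) F, P⁻¹ * x * P ∈
        ((Cfsg.Geo.subfieldSubgroup F₀ 1).comap (Matrix.SpecialLinearGroup.toGL :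
          Matrix.SpecialLinearGroup (Fin n) F →* GL (Fin n) F))) ↔
    (r = k ∨ (k = 2 ∧ r = n ∧ (n = 3 ∨ n = 5) ∧ padicValNat r (q₀ + 1) = 1)) := by
  classical
  subst hq
  have hr : r.Prime := Fact.out
  have hqk' : Fintype.card F = q₀ ^ k := hqk
  constructor
  · intro hall
    by_contra hcon
    have hrk : r ≠ k := fun h => hcon (Or.inl h)
    have hexc : ¬ (k = 2 ∧ r = n ∧ (n = 3 ∨ n = 5) ∧ padicValNat r (q₀ + 1) = 1) :=
      fun h => hcon (Or.inr h)
    have hall' : ∀ x : Matrix (Fin n) (Fin n) F, x.det = 1 →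
        (∃ z : F, x ^ r = z • (1 : Matrix (Fin n) (Fin n) F)) →
        (∀ z : F, x ≠ z • (1 : Matrix (Fin n) (Fin n) F)) → Good F₀ x := by
      intro x hdet hz hns
      obtain ⟨z, hz⟩ := hz
      obtain ⟨xs, hxs⟩ : ∃ xs : Matrix.SpecialLinearGroup (Fin n) F,
          (xs : Matrix (Fin n) (Fin n) F) = x := ⟨⟨x, hdet⟩, rfl⟩
      have h1 := hall xs ⟨z, by rw [Matrix.SpecialLinearGroup.coe_pow, hxs]; exact hz⟩
        (by rw [hxs]; exact hns)
      have h2 := (mem_iff F₀ xs).mp h1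
      rw [hxs] at h2
      exact h2
    have hq₀2 : 2 ≤ q₀ := by
      by_contra hlt
      have h1 : q₀ ^ k ≤ 1 := by
        rcases Nat.lt_or_ge q₀ 1 with h0 | h0
        · have : q₀ = 0 := by omega
          rw [this, zero_pow hk.ne_zero]
          omega
        · have : q₀ = 1 := by omega
          rw [this, one_pow]
      have h2 := Fintype.one_lt_card (α := F)
      omega
    have hrq₀ : ¬ r ∣ q₀ := by
      intro h
      apply Cfsg.Agent.Lib.Helper40.PrimeFix.not_dvd_card (F := F) (p := p) r hrp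
      rw [hqk']
      exact h.trans (dvd_pow_self q₀ hk.ne_zero)
    have hdiv := hIdx1 F n (by omega) F₀ q₀ hF₀
    rw [hqk'] at hdiv
    obtain ⟨j, hj2, hjn, hj1, hj0⟩ := hIdx2 n q₀ k r hn hq₀2 hk hr hr2 hrk hrq₀
      (dvd_trans (mul_dvd_mul_right (mul_dvd_mul_right hΩ _) _) hdiv)
    by_cases hrq : r ∣ Fintype.card F - 1
    · obtain ⟨lam, hlam⟩ := exists_lam r hrq
      have hlam0 : lam ≠ 0 := by
        rintro rfl
        have h1 : (0 : F) ^ r = 1 := by
          rw [← hlam]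
          exact pow_orderOf_eq_one _
        rw [zero_pow hr.ne_zero] at h1
        exact zero_ne_one h1
      have hq₀1 : ¬ r ∣ q₀ - 1 := by
        intro h
        apply hj0
        have h1 := Nat.sub_dvd_pow_sub_pow q₀ 1 j
        rw [one_pow] at h1
        exact h.trans h1
      have hu1 : ((q₀ : ℕ) : ZMod r) ≠ 1 := by
        rw [Ne, ← dvd_sub_one_iff r q₀ (by omega)]
        exact hq₀1
      have hgen : ∀ e : Fin n → ZMod r, (∑ j, e j = 0) → (∃ j j', e j ≠ e j') →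
          ¬ Sym e ((q₀ : ℕ) : ZMod r) → False := by
        intro e hsum hnc hns
        have h1 : r ∣ ∑ j, (e j).val := by
          rw [← ZMod.natCast_eq_zero_iff, Nat.cast_sum]
          rw [← hsum]
          apply Finset.sum_congr rfl
          intro j _
          exact ZMod.natCast_zmod_val (e j)
        have h2 : lam ^ (∑ j, (e j).val) = 1 := by
          apply orderOf_dvd_iff_pow_eq_one.mp
          rw [hlam]
          exact h1
        obtain ⟨x, hdet, hz, hnsc, hbad⟩ := badGen hDiag n F₀ q₀ hF₀ r lam hlam 1 one_ne_zero e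
          (by rw [one_pow, one_mul, h2]) hnc hns
        exact hbad (hall' x hdet hz hnsc)
      by_cases hk2 : k = 2
      · subst hk2
        have hq₀p1 : r ∣ q₀ + 1 := by
          rw [hqk', sq_sub_one] at hrq
          exact (hr.dvd_mul.mp hrq).resolve_left hq₀1
        have hum : ((q₀ : ℕ) : ZMod r) = -1 := by
          have h1 : ((q₀ + 1 : ℕ) : ZMod r) = 0 := (ZMod.natCast_eq_zero_iff _ _).mpr hq₀p1
          rw [Nat.cast_add, Nat.cast_one] at h1
          exact eq_neg_of_add_eq_zero_left h1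
        have hn3 : 3 ≤ n := by
          by_contra hlt
          have hj : j = 2 := by omega
          apply hj0
          rw [hj, ← hqk']
          exact hrq
        have hB2 : r = n → padicValNat r (q₀ + 1) ≠ 1 → False := by
          intro hrn hv
          have h1 : 1 ≤ padicValNat r (q₀ + 1) := one_le_padicValNat_of_dvd (by omega) hq₀p1
          have h2 : r ^ 2 ∣ q₀ + 1 := (padicValNat_dvd_iff_le (by omega)).mpr (by omega)
          have h3 : r ^ 2 ∣ Fintype.card F - 1 := by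
            rw [hqk', sq_sub_one]
            exact h2.mul_left _
          obtain ⟨d, hd⟩ := rootD r h3 lam hlam
          have hd0 : d ≠ 0 := by
            rintro rfl
            rw [zero_pow hr.ne_zero] at hd
            exact inv_ne_zero hlam0 hd.symm
          obtain ⟨e, hsum, hnc, hns⟩ := h3B2 n r hn3 hr2
          obtain ⟨x, hdet, hz, hnsc, hbad⟩ := badGen hDiag n F₀ q₀ hF₀ r lam hlam d hd0 e
            (by rw [hsum, pow_one, ← hrn, hd, inv_mul_cancel₀ hlam0]) hnc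
            (by rw [hum]; exact hns)
          exact hbad (hall' x hdet hz hnsc)
        by_cases hr3 : r = 3
        · by_cases hn3' : n = 3
          · exact hB2 (by omega) (fun hv => hexc ⟨rfl, by omega, Or.inl hn3', hv⟩)
          · have hn6 : n ≠ 6 := fun h => hgap ⟨h, hr3⟩
            obtain ⟨e, hsum, hnc, hns⟩ := h3B3 n r hr3 (by omega) hn6
            exact hgen e hsum hnc (by rw [hum]; exact hns)
        · by_cases h55 : n = 5 ∧ r = 5
          · exact hB2 (by omega) (fun hv => hexc ⟨rfl, by omega, Or.inr h55.1, hv⟩)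
          · obtain ⟨e, hsum, hnc, hns⟩ := h3B1 n r hn3 hr2 hr3 h55
            exact hgen e hsum hnc (by rw [hum]; exact hns)
      · have huk : ((q₀ : ℕ) : ZMod r) ^ k = 1 := by
          rw [← Nat.cast_pow, ← hqk']
          exact (dvd_sub_one_iff r _ Fintype.card_pos).mp hrq
        obtain ⟨e, hsum, hnc, hns⟩ := h3A n r k hn hr2 hk hk2 _ huk hu1
        exact hgen e hsum hnc hns
    · obtain ⟨x, hdet, hxr, hnsc, hbad⟩ := hBadI F p n hn F₀ k q₀ hk hF₀ hqk' r hr2 hrp hrq j hjn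
        (by rw [hqk']; exact hj1) hj0
      exact hbad (hall' x hdet ⟨1, by rw [hxr, one_smul]⟩ hnsc)
  · rintro (hrk | ⟨hk2, hrn, hn35, hv⟩) x ⟨z, hz⟩ hns
    · subst hrk
      rw [mem_iff]
      exact sufK hFrob hConj n (by omega) F₀ q₀ r hr2 hrp hF₀ hqk' (hgapk rfl)
        (x : Matrix (Fin n) (Fin n) F) x.2 z (by rw [← Matrix.SpecialLinearGroup.coe_pow]; exact hz)
    · subst hk2
      subst hrn
      rw [mem_iff]
      exact suf2 hFrob hConj hZOne hRefl hUnit F₀ q₀ r hr2 hrp hn35 hF₀ hqk' hv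
        (x : Matrix (Fin r) (Fin r) F) x.2 z (by rw [← Matrix.SpecialLinearGroup.coe_pow]; exact hz)

end Cfsg.Agent.Lib.Helper41.SubfAsm
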