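import Mathlib
import Cfsg.Agent.Lib.Helper41.SubfStmt
import Cfsg.Agent.Lib.Helper41.SubfAsm
import Cfsg.Agent.Lib.Helper37.EluStmt
import Cfsg.Agent.Lib.Helper82.EluBLK
import Cfsg.Agent.Lib.Helper65.EluFIXMOD
import Cfsg.Agent.Lib.Helper40.SSConj
import Cfsg.Agent.Lib.Helper40.PrimeElts
import Cfsg.Agent.Lib.Helper40.PrimeFix
import Cfsg.Agent.Lib.Helper40.RootPow

/-!
# S5965 piece BADI (second seat)
-/

set_option autoImplicit false
universe u

namespace Cfsg.Agent.Lib.Helper41.SubfBADI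

open Cfsg.Agent.Lib.Helper41.SubfStmt Cfsg.Agent.Lib.Helper41.SubfAsm

theorem conj_pow {F : Type u} [Field F] {n : ℕ} (S x B : Matrix (Fin n) (Fin n) F)
    (h : S * x = B * S) (m : ℕ) : S * x ^ m = B ^ m * S := by
  induction m with
  | zero => simp
  | succ m ih => rw [pow_succ, ← Matrix.mul_assoc, ih, Matrix.mul_assoc, h, ← Matrix.mul_assoc,
      ← pow_succ]

theorem main (hRM : RootMult.{u}) : BadI.{u} := by
  intro F _ _ p _ _ n hn F₀ k q₀ hk hF₀ hqk r _ hr2 hrp hrq j hjn hj1 hj0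
  classical
  have hr : r.Prime := Fact.out
  have hr0 : (r : F) ≠ 0 := Cfsg.Agent.Lib.Helper40.PrimeFix.cast_ne_zero' (p := p) r hrp
  obtain ⟨i, hi⟩ : ∃ i, i = orderOf ((Fintype.card F : ℕ) : ZMod r) := ⟨_, rfl⟩
  have hj1' : ((Fintype.card F : ℕ) : ZMod r) ^ j = 1 := by
    rw [← Nat.cast_pow]
    exact (dvd_sub_one_iff r _ (Nat.one_le_pow _ _ Fintype.card_pos)).mp hj1
  have hij : i ∣ j := by
    rw [hi]
    exact orderOf_dvd_of_pow_eq_one hj1'
  have hj0' : j ≠ 0 := by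
    rintro rfl
    exact hj0 (by simp)
  have hi1 : i ≠ 1 := by
    intro h
    rw [hi, orderOf_eq_one_iff] at h
    exact hrq ((dvd_sub_one_iff r _ Fintype.card_pos).mpr h)
  have hi0 : i ≠ 0 := by
    rintro rfl
    exact hj0' (Nat.eq_zero_of_zero_dvd hij)
  have hin : i ≤ n := (Nat.le_of_dvd (by omega) hij).trans hjn
  obtain ⟨x, hdet, hxr, hfix⟩ := Cfsg.Agent.Lib.Helper82.EluBLK.main F p r hrp
    (by rw [← hi]; omega) n 1 (by rw [← hi]; omega)
  rw [← hi, mul_one] at hfix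
  have hroot : ∀ c : F, c ^ r = 1 → c = 1 := fun c hc =>
    Cfsg.Agent.Lib.Helper40.PrimeElts.root_trivial r hr (by rw [← hi]; exact hi1) c hc
  refine ⟨x, hdet, hxr, ?_, ?_⟩
  · intro z hz
    have hzr : z ^ r = 1 := by
      have h1 := hxr
      rw [hz, smul_pow, one_pow] at h1
      have h2 := congrFun (congrFun h1 ⟨0, by omega⟩) ⟨0, by omega⟩
      simpa using h2
    rw [hz, hroot z hzr, one_smul] at hfix
    have h3 : LinearMap.ker (Matrix.toLin' (1 : Matrix (Fin n) (Fin n) F) - 1) = ⊤ := by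
      rw [Matrix.toLin'_one]
      show LinearMap.ker ((1 : Module.End F (Fin n → F)) - 1) = ⊤
      rw [sub_self]
      exact LinearMap.ker_zero
    rw [h3, finrank_top, Module.finrank_fintype_fun_eq_card, Fintype.card_fin] at hfix
    omega
  · rintro ⟨S, c, A₀, hS, hc, hSx⟩
    obtain ⟨B, hB⟩ : ∃ B : Matrix (Fin n) (Fin n) F,
        B = c • A₀.map (F₀.subtype : F₀ →+* F) := ⟨_, rfl⟩
    rw [← hB] at hSx
    have hSu : IsUnit S.det := by rw [hS]; exact isUnit_one
    have hSS : S * S⁻¹ = 1 := Matrix.mul_nonsing_inv S hSu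
    have hBr : B ^ r = 1 := by
      have h1 := conj_pow S x B hSx r
      rw [hxr, Matrix.mul_one] at h1
      have h2 := congrArg (fun M => M * S⁻¹) h1
      simp only [Matrix.mul_assoc, hSS, Matrix.mul_one] at h2
      exact h2.symm
    have hBx : B = S * x * S⁻¹ := by
      rw [hSx, Matrix.mul_assoc, hSS, Matrix.mul_one]
    have hcp : B.charpoly = x.charpoly := by
      obtain ⟨Su, hSu'⟩ : ∃ Su : (Matrix (Fin n) (Fin n) F)ˣ, (Su : Matrix (Fin n) (Fin n) F) = S :=
        ⟨Matrix.nonsingInvUnit S hSu, rfl⟩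
      have h1 := Matrix.charpoly_units_conj Su x
      rw [hBx, ← h1, hSu']
    have hinj : Function.Injective (F₀.subtype : F₀ →+* F) := Subtype.val_injective
    have hchar : CharP F₀ p := RingHom.charP (F₀.subtype : F₀ →+* F) hinj p
    let _ : Fintype F₀ := Fintype.ofFinite F₀
    have hcard₀ : Fintype.card F₀ = q₀ := by rw [← Nat.card_eq_fintype_card, hF₀]
    have hq₀pos : 1 ≤ q₀ := by
      rw [← hcard₀]
      exact Fintype.card_pos
    -- `c ^ r` lies in `F₀`
    have hmapmat : ∀ M : Matrix (Fin n) (Fin n) F₀,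
        (F₀.subtype : F₀ →+* F).mapMatrix M = M.map (F₀.subtype : F₀ →+* F) := fun M => rfl
    have hBr' : c ^ r • (A₀ ^ r).map (F₀.subtype : F₀ →+* F) = 1 := by
      rw [← hBr, hB, smul_pow, ← hmapmat, ← hmapmat, map_pow]
    have h00 := congrFun (congrFun hBr' ⟨0, by omega⟩) ⟨0, by omega⟩
    rw [Matrix.smul_apply, Matrix.map_apply, Matrix.one_apply_eq, smul_eq_mul] at h00
    obtain ⟨a₀, ha₀⟩ : ∃ a₀ : F₀, a₀ = (A₀ ^ r) ⟨0, by omega⟩ ⟨0, by omega⟩ := ⟨_, rfl⟩
    rw [← ha₀] at h00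
    have ha₀0 : a₀ ≠ 0 := by
      rintro rfl
      rw [map_zero, mul_zero] at h00
      exact zero_ne_one h00
    have hrq₀ : ¬ r ∣ Fintype.card F₀ - 1 := by
      rw [hcard₀]
      intro h
      apply hrq
      rw [hqk]
      have h1 := Nat.sub_dvd_pow_sub_pow q₀ 1 k
      rw [one_pow] at h1
      exact h.trans h1
    obtain ⟨c₀, hc₀⟩ := Cfsg.Agent.Lib.Helper40.RootPow.exists_root r hr hrq₀ a₀⁻¹
    have hc₀0 : c₀ ≠ 0 := by
      rintro rfl
      rw [zero_pow hr.ne_zero] at hc₀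
      exact inv_ne_zero ha₀0 hc₀.symm
    have hcc : c = (F₀.subtype : F₀ →+* F) c₀ := by
      have h1 : (c * ((F₀.subtype : F₀ →+* F) c₀)⁻¹) ^ r = 1 := by
        rw [mul_pow, inv_pow, ← map_pow, hc₀, map_inv₀, inv_inv]
        exact h00
      have h2 := hroot _ h1
      have h3 : (F₀.subtype : F₀ →+* F) c₀ ≠ 0 := by
        rw [Ne, map_eq_zero]
        exact hc₀0
      field_simp at h2
      exact h2
    obtain ⟨y, hy⟩ : ∃ y : Matrix (Fin n) (Fin n) F₀, y = c₀ • A₀ := ⟨_, rfl⟩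
    have hymap : y.map (F₀.subtype : F₀ →+* F) = B := by
      rw [hy, hB, hcc]
      exact Matrix.map_smul' _ _ _ (fun a b => map_mul _ a b)
    have hyr : y ^ r = 1 := by
      apply Matrix.map_injective hinj
      show (F₀.subtype : F₀ →+* F).mapMatrix (y ^ r) = (F₀.subtype : F₀ →+* F).mapMatrix 1
      rw [map_pow, map_one, hmapmat, hymap, hBr]
    have hr0₀ : (r : F₀) ≠ 0 := Cfsg.Agent.Lib.Helper40.PrimeFix.cast_ne_zero' (p := p) r hrp
    have hssy := Cfsg.Agent.Lib.Helper40.SSConj.isSemisimple_toLin' y r hr0₀ hyr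
    have hssx := Cfsg.Agent.Lib.Helper40.SSConj.isSemisimple_toLin' x r hr0 hxr
    have hfy := hRM F₀ n y hssy
    have hfx := hRM F n x hssx
    obtain ⟨m, hm⟩ := Cfsg.Agent.Lib.Helper65.EluFIXMOD.main F₀ p r hrp (Fin n → F₀)
      (Matrix.toLin' y) (by
        have h2 := congrArg (Matrix.toLinAlgEquiv' (R := F₀) (n := Fin n)) hyr
        rw [map_pow, map_one] at h2
        exact h2) ⊤ (fun v _ => Submodule.mem_top)
    rw [finrank_top, Module.finrank_fintype_fun_eq_card, Fintype.card_fin, top_inf_eq, hfy,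
      hcard₀] at hm
    have hrm : y.charpoly.rootMultiplicity 1 = x.charpoly.rootMultiplicity 1 := by
      rw [← hcp, ← hymap, Matrix.charpoly_map]
      have h1 := Polynomial.eq_rootMultiplicity_map (p := y.charpoly) hinj (1 : F₀)
      rw [map_one] at h1
      exact h1
    rw [hrm, ← hfx] at hm
    have him : i = orderOf ((q₀ : ℕ) : ZMod r) * m := by omega
    apply hj0
    rw [dvd_sub_one_iff r _ (Nat.one_le_pow _ _ hq₀pos), Nat.cast_pow]
    apply orderOf_dvd_iff_pow_eq_one.mp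
    exact (Dvd.intro m him.symm).trans hij

end Cfsg.Agent.Lib.Helper41.SubfBADI
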