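import Mathlib

set_option autoImplicit false

namespace Cfsg.Agent.Lib.Helper41.SymLocal

open Polynomial

section basics

variable {F Λ : Type*} [Field F] [Ring Λ] [Algebra F Λ]

/-- Products of elements of powers of a two-sided ideal. -/
theorem mm (J : Ideal Λ) [J.IsTwoSided] {i j : ℕ} {x y : Λ} (hx : x ∈ J ^ i) (hy : y ∈ J ^ j) :
    x * y ∈ J ^ (i + j) := by
  rw [Ideal.IsTwoSided.pow_add]
  exact Ideal.mul_mem_mul hx hy

/-- Nilpotency: a power of `J` contained in the next one vanishes. -/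
theorem pow_eq_bot_of_le (J : Ideal Λ) (hnil : ∃ N : ℕ, J ^ N = ⊥) (i : ℕ)
    (h : J ^ i ≤ J ^ (i + 1)) : J ^ i = ⊥ := by
  obtain ⟨N, hN⟩ := hnil
  have key : ∀ k : ℕ, J ^ i ≤ J ^ (i + k) := by
    intro k
    induction k with
    | zero => exact le_rfl
    | succ k ih =>
      have h1 : J ^ (i + 1) ≤ J ^ (i + k + 1) := by
        rw [Submodule.pow_succ J, Submodule.pow_succ J]
        exact Ideal.mul_mono ih le_rfl
      exact h.trans h1
  have h2 : J ^ (i + N) ≤ J ^ N := Ideal.pow_le_pow_right (Nat.le_add_left N i)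
  rw [hN] at h2
  exact le_bot_iff.1 ((key N).trans h2)

/-- A local algebra whose radical is generated modulo its square by one element is
commutative. -/
theorem comm_of_one_gen (π : Λ →ₐ[F] F) (hnil : ∃ N : ℕ, (RingHom.ker (π : Λ →+* F)) ^ N = ⊥)
    (a : Λ) (ha : a ∈ RingHom.ker (π : Λ →+* F))
    (h : ∀ x ∈ RingHom.ker (π : Λ →+* F), ∃ α : F, x - α • a ∈ (RingHom.ker (π : Λ →+* F)) ^ 2) :
    ∀ x y : Λ, x * y = y * x := by
  obtain ⟨J, hJ⟩ : ∃ J : Ideal Λ, J = RingHom.ker (π : Λ →+* F) := ⟨_, rfl⟩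
  haveI : J.IsTwoSided := by rw [hJ]; infer_instance
  rw [← hJ] at hnil ha h
  have hmem : ∀ x, x ∈ J ↔ π x = 0 := by
    intro x
    rw [hJ, RingHom.mem_ker]
    rfl
  have Q : ∀ i : ℕ, ∀ x ∈ J ^ i, ∃ α : F, x - α • a ^ i ∈ J ^ (i + 1) := by
    intro i
    induction i with
    | zero =>
      intro x _
      refine ⟨π x, ?_⟩
      rw [zero_add, Submodule.pow_one, hmem, pow_zero, map_sub, ← Algebra.algebraMap_eq_smul_one,
        AlgHom.commutes]
      simp
    | succ i ih =>
      intro x hx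
      rw [Submodule.pow_succ J] at hx
      refine Submodule.mul_induction_on hx ?_ ?_
      · intro r hr n hn
        obtain ⟨α, hα⟩ := ih r hr
        obtain ⟨β, hβ⟩ := h n hn
        refine ⟨α * β, ?_⟩
        have e : r * n - (α * β) • a ^ (i + 1) = (r - α • a ^ i) * n + (α • a ^ i) * (n - β • a) := by
          simp only [pow_succ, sub_mul, mul_sub, mul_smul_comm, smul_mul_assoc, smul_smul]
          module
        rw [e]
        have hn1 : n ∈ J ^ 1 := by rw [Submodule.pow_one]; exact hn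
        have h1 : (r - α • a ^ i) * n ∈ J ^ (i + 1 + 1) := mm J hα hn1
        have h2 : (α • a ^ i) * (n - β • a) ∈ J ^ (i + 2) :=
          mm J (Submodule.smul_of_tower_mem _ α (Ideal.pow_mem_pow ha i)) hβ
        exact add_mem h1 h2
      · intro x y ⟨α, hα⟩ ⟨β, hβ⟩
        refine ⟨α + β, ?_⟩
        have e : x + y - (α + β) • a ^ (i + 1) = (x - α • a ^ (i + 1)) + (y - β • a ^ (i + 1)) := by
          rw [add_smul]
          abel
        rw [e]
        exact add_mem hα hβ
  have R : ∀ i : ℕ, ∀ x : Λ, ∃ p : F[X], x - aeval a p ∈ J ^ i := by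
    intro i
    induction i with
    | zero =>
      intro x
      refine ⟨0, ?_⟩
      rw [Submodule.pow_zero, Ideal.one_eq_top]
      exact Submodule.mem_top
    | succ i ih =>
      intro x
      obtain ⟨p, hp⟩ := ih x
      obtain ⟨α, hα⟩ := Q i _ hp
      refine ⟨p + monomial i α, ?_⟩
      have e : x - aeval a (p + monomial i α) = x - aeval a p - α • a ^ i := by
        rw [map_add, aeval_monomial, Algebra.smul_def]
        abel
      rw [e]
      exact hα
  obtain ⟨N, hN⟩ := hnil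
  intro x y
  obtain ⟨p, hp⟩ := R N x
  obtain ⟨q, hq⟩ := R N y
  rw [hN, Submodule.mem_bot, sub_eq_zero] at hp hq
  rw [hp, hq, ← map_mul, ← map_mul, mul_comm]

/-- Core computation: `J = Fa + Fb + J²`, `J² = F[a,b] + J³`, `a² ∈ J³` force `J³ = 0`. -/
theorem cube_eq_bot_aux (J : Ideal Λ) [J.IsTwoSided] (hnil : ∃ N : ℕ, J ^ N = ⊥)
    (a b : Λ) (ha : a ∈ J) (hb : b ∈ J)
    (hJ1 : ∀ x ∈ J, ∃ α β : F, x - α • a - β • b ∈ J ^ 2)
    (hJ2 : ∀ x ∈ J ^ 2, ∃ γ : F, x - γ • (a * b - b * a) ∈ J ^ 3)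
    (haa : a * a ∈ J ^ 3) : J ^ 3 = ⊥ := by
  obtain ⟨c, hc⟩ : ∃ c, c = a * b - b * a := ⟨_, rfl⟩
  rw [← hc] at hJ2
  have ha1 : a ∈ J ^ 1 := by rw [Submodule.pow_one]; exact ha
  have hb1 : b ∈ J ^ 1 := by rw [Submodule.pow_one]; exact hb
  have hab : a * b ∈ J ^ 2 := mm J ha1 hb1
  have hba : b * a ∈ J ^ 2 := mm J hb1 ha1
  have hbb : b * b ∈ J ^ 2 := mm J hb1 hb1
  have hc2 : c ∈ J ^ 2 := by rw [hc]; exact sub_mem hab hba
  obtain ⟨β₁, hβ₁⟩ := hJ2 _ hab
  obtain ⟨β₂, hβ₂⟩ := hJ2 _ hba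
  obtain ⟨δ, hδ⟩ := hJ2 _ hbb
  have h1 : (1 - β₁ + β₂) • c ∈ J ^ 3 := by
    have e : (1 - β₁ + β₂) • c = (a * b - β₁ • c) - (b * a - β₂ • c) := by
      rw [hc]
      module
    rw [e]
    exact sub_mem hβ₁ hβ₂
  by_cases hne : 1 - β₁ + β₂ = 0
  · -- the main case
    have E1 : β₁ • (a * c) ∈ J ^ 4 := by
      have e : β₁ • (a * c) = a * a * b - a * (a * b - β₁ • c) := by
        simp only [mul_sub, mul_smul_comm, mul_assoc]
        abel
      rw [e]
      exact sub_mem (mm J haa hb1) (mm J ha1 hβ₁)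
    have E2 : β₂ • (c * a) ∈ J ^ 4 := by
      have e : β₂ • (c * a) = b * (a * a) - (b * a - β₂ • c) * a := by
        simp only [sub_mul, smul_mul_assoc, mul_assoc]
        abel
      rw [e]
      exact sub_mem (mm J hb1 haa) (mm J hβ₂ ha1)
    have E3 : β₂ • (a * c) - β₁ • (c * a) ∈ J ^ 4 := by
      have e : β₂ • (a * c) - β₁ • (c * a) = (a * b - β₁ • c) * a - a * (b * a - β₂ • c) := by
        simp only [sub_mul, mul_sub, smul_mul_assoc, mul_smul_comm, mul_assoc]
        abel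
      rw [e]
      exact sub_mem (mm J hβ₁ ha1) (mm J ha1 hβ₂)
    have hac : a * c ∈ J ^ 4 ∧ c * a ∈ J ^ 4 := by
      by_cases hb0 : β₁ = 0
      · have hb2 : β₂ ≠ 0 := by
          intro h0
          rw [hb0, h0] at hne
          simp at hne
        have h2 : c * a ∈ J ^ 4 := by
          have := Submodule.smul_of_tower_mem (J ^ 4) β₂⁻¹ E2
          rwa [smul_smul, inv_mul_cancel₀ hb2, one_smul] at this
        have h3 : a * c ∈ J ^ 4 := by
          rw [hb0, zero_smul, sub_zero] at E3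
          have := Submodule.smul_of_tower_mem (J ^ 4) β₂⁻¹ E3
          rwa [smul_smul, inv_mul_cancel₀ hb2, one_smul] at this
        exact ⟨h3, h2⟩
      · have h3 : a * c ∈ J ^ 4 := by
          have := Submodule.smul_of_tower_mem (J ^ 4) β₁⁻¹ E1
          rwa [smul_smul, inv_mul_cancel₀ hb0, one_smul] at this
        have h2 : c * a ∈ J ^ 4 := by
          have h4 : β₁ • (c * a) ∈ J ^ 4 := by
            have e : β₁ • (c * a) = β₂ • (a * c) - (β₂ • (a * c) - β₁ • (c * a)) := by abel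
            rw [e]
            exact sub_mem (Submodule.smul_of_tower_mem _ β₂ h3) E3
          have := Submodule.smul_of_tower_mem (J ^ 4) β₁⁻¹ h4
          rwa [smul_smul, inv_mul_cancel₀ hb0, one_smul] at this
        exact ⟨h3, h2⟩
    obtain ⟨hac4, hca4⟩ := hac
    have E4 : β₂ • (b * c) ∈ J ^ 4 := by
      have e : β₂ • (b * c) = (b * b - δ • c) * a + δ • (c * a) - b * (b * a - β₂ • c) := by
        simp only [sub_mul, mul_sub, smul_mul_assoc, mul_smul_comm, mul_assoc]
        abel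
      rw [e]
      exact sub_mem (add_mem (mm J hδ ha1) (Submodule.smul_of_tower_mem _ δ hca4)) (mm J hb1 hβ₂)
    have E5 : β₁ • (c * b) ∈ J ^ 4 := by
      have e : β₁ • (c * b) = a * (b * b - δ • c) + δ • (a * c) - (a * b - β₁ • c) * b := by
        simp only [sub_mul, mul_sub, smul_mul_assoc, mul_smul_comm, mul_assoc]
        abel
      rw [e]
      exact sub_mem (add_mem (mm J ha1 hδ) (Submodule.smul_of_tower_mem _ δ hac4)) (mm J hβ₁ hb1)
    apply pow_eq_bot_of_le J hnil 3
    by_cases hb2 : β₂ = 0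
    · have hb1' : β₁ = 1 := by
        rw [hb2, add_zero, sub_eq_zero] at hne
        exact hne.symm
      have hcb : c * b ∈ J ^ 4 := by
        rw [hb1', one_smul] at E5
        exact E5
      intro x hx
      have hx' : x ∈ J ^ 2 * J := by
        rw [← Submodule.pow_succ J]
        exact hx
      refine Submodule.mul_induction_on hx' ?_ ?_
      · intro n hn r hr
        obtain ⟨α, β, hr2⟩ := hJ1 r hr
        obtain ⟨γ, hn3⟩ := hJ2 n hn
        have e : n * r = (γ * α) • (c * a) + (γ * β) • (c * b) + (γ • c) * (r - α • a - β • b)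
            + (n - γ • c) * r := by
          simp only [sub_mul, mul_sub, smul_mul_assoc, mul_smul_comm, smul_smul]
          module
        rw [e]
        have hr1 : r ∈ J ^ 1 := by rw [Submodule.pow_one]; exact hr
        exact add_mem (add_mem (add_mem (Submodule.smul_of_tower_mem _ _ hca4)
          (Submodule.smul_of_tower_mem _ _ hcb))
          (mm J (i := 2) (j := 2) (Submodule.smul_of_tower_mem _ γ hc2) hr2))
          (mm J (i := 3) (j := 1) hn3 hr1)
      · intro x y hx hy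
        exact add_mem hx hy
    · have hbc : b * c ∈ J ^ 4 := by
        have := Submodule.smul_of_tower_mem (J ^ 4) β₂⁻¹ E4
        rwa [smul_smul, inv_mul_cancel₀ hb2, one_smul] at this
      intro x hx
      have hx' : x ∈ J * J ^ 2 := by
        rw [← Ideal.IsTwoSided.pow_succ]
        exact hx
      refine Submodule.mul_induction_on hx' ?_ ?_
      · intro r hr n hn
        obtain ⟨α, β, hr2⟩ := hJ1 r hr
        obtain ⟨γ, hn3⟩ := hJ2 n hn
        have e : r * n = (α * γ) • (a * c) + (β * γ) • (b * c) + (r - α • a - β • b) * n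
            + (α • a + β • b) * (n - γ • c) := by
          simp only [sub_mul, mul_sub, add_mul, smul_mul_assoc, mul_smul_comm]
          module
        rw [e]
        exact add_mem (add_mem (add_mem (Submodule.smul_of_tower_mem _ _ hac4)
          (Submodule.smul_of_tower_mem _ _ hbc)) (mm J (i := 2) (j := 2) hr2 hn))
          (mm J (i := 1) (j := 3)
            (add_mem (Submodule.smul_of_tower_mem _ α ha1) (Submodule.smul_of_tower_mem _ β hb1))
            hn3)
      · intro x y hx hy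
        exact add_mem hx hy
  · have hc3 : c ∈ J ^ 3 := by
      have := Submodule.smul_of_tower_mem (J ^ 3) (1 - β₁ + β₂)⁻¹ h1
      rwa [smul_smul, inv_mul_cancel₀ hne, one_smul] at this
    have h23 : J ^ 2 ≤ J ^ (2 + 1) := by
      intro x hx
      obtain ⟨γ, hγ⟩ := hJ2 x hx
      have e : x = (x - γ • c) + γ • c := by abel
      rw [e]
      exact add_mem hγ (Submodule.smul_of_tower_mem _ γ hc3)
    have h2 : J ^ 2 = ⊥ := pow_eq_bot_of_le J hnil 2 h23
    have h32 : J ^ 3 ≤ J ^ 2 := Ideal.pow_le_pow_right (by norm_num)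
    rw [h2] at h32
    exact le_bot_iff.1 h32

/-- `J = Fa + Fb + J²` and `J² = F[a,b] + J³` force `J³ = 0` (over an algebraically closed
field). -/
theorem cube_eq_bot [IsAlgClosed F] (J : Ideal Λ) [J.IsTwoSided] (hnil : ∃ N : ℕ, J ^ N = ⊥)
    (a b : Λ) (ha : a ∈ J) (hb : b ∈ J)
    (hJ1 : ∀ x ∈ J, ∃ α β : F, x - α • a - β • b ∈ J ^ 2)
    (hJ2 : ∀ x ∈ J ^ 2, ∃ γ : F, x - γ • (a * b - b * a) ∈ J ^ 3) : J ^ 3 = ⊥ := by
  have ha1 : a ∈ J ^ 1 := by rw [Submodule.pow_one]; exact ha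
  have hb1 : b ∈ J ^ 1 := by rw [Submodule.pow_one]; exact hb
  have haa : a * a ∈ J ^ 2 := mm J ha1 ha1
  have hab : a * b ∈ J ^ 2 := mm J ha1 hb1
  have hba : b * a ∈ J ^ 2 := mm J hb1 ha1
  have hbb : b * b ∈ J ^ 2 := mm J hb1 hb1
  obtain ⟨α, hα⟩ := hJ2 _ haa
  obtain ⟨β₁, hβ₁⟩ := hJ2 _ hab
  obtain ⟨β₂, hβ₂⟩ := hJ2 _ hba
  obtain ⟨δ, hδ⟩ := hJ2 _ hbb
  by_cases hα0 : α = 0
  · rw [hα0, zero_smul, sub_zero] at hα
    exact cube_eq_bot_aux J hnil a b ha hb hJ1 hJ2 hα
  · have hdeg : (C α * X ^ 2 + C (β₁ + β₂) * X + C δ : F[X]).degree ≠ 0 := by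
      rw [degree_quadratic hα0]
      norm_num
    obtain ⟨s, hs⟩ := IsAlgClosed.exists_root _ hdeg
    have hs' : α * s ^ 2 + (β₁ + β₂) * s + δ = 0 := by
      have := hs
      simp only [IsRoot, eval_add, eval_mul, eval_C, eval_pow, eval_X] at this
      exact this
    refine cube_eq_bot_aux (F := F) J hnil (s • a + b) a
      (add_mem (Submodule.smul_of_tower_mem J s ha) hb) ha ?_ ?_ ?_
    · intro x hx
      obtain ⟨α₀, β₀, h⟩ := hJ1 x hx
      refine ⟨β₀, α₀ - β₀ * s, ?_⟩
      have e : x - β₀ • (s • a + b) - (α₀ - β₀ * s) • a = x - α₀ • a - β₀ • b := by module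
      rw [e]
      exact h
    · intro x hx
      obtain ⟨γ, h⟩ := hJ2 x hx
      refine ⟨-γ, ?_⟩
      have e : x - (-γ) • ((s • a + b) * a - a * (s • a + b)) = x - γ • (a * b - b * a) := by
        simp only [add_mul, mul_add, smul_mul_assoc, mul_smul_comm]
        module
      rw [e]
      exact h
    · have e : (s • a + b) * (s • a + b) = (s ^ 2) • (a * a - α • (a * b - b * a))
          + s • (a * b - β₁ • (a * b - b * a)) + s • (b * a - β₂ • (a * b - b * a))
          + (b * b - δ • (a * b - b * a))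
          + (α * s ^ 2 + (β₁ + β₂) * s + δ) • (a * b - b * a) := by
        simp only [add_mul, mul_add, smul_mul_assoc, mul_smul_comm, smul_smul]
        module
      rw [e, hs', zero_smul, add_zero]
      exact add_mem (add_mem (add_mem (Submodule.smul_of_tower_mem _ _ hα)
        (Submodule.smul_of_tower_mem _ _ hβ₁)) (Submodule.smul_of_tower_mem _ _ hβ₂)) hδ

end basics

/-- A symmetric local algebra (over an algebraically closed field) whose centre is spanned by
four elements is commutative. -/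
theorem comm_of_center_le_four {F Λ : Type*} [Field F] [IsAlgClosed F] [Ring Λ] [Algebra F Λ]
    [FiniteDimensional F Λ] (lam : Λ →ₗ[F] F) (hsym : ∀ x y, lam (x * y) = lam (y * x))
    (hnd : ∀ x, x ≠ 0 → ∃ y, lam (x * y) ≠ 0)
    (π : Λ →ₐ[F] F) (hnil : ∃ N : ℕ, (RingHom.ker (π : Λ →+* F)) ^ N = ⊥)
    (c : Fin 4 → Λ) (hcen : ∀ w : Λ, (∀ x, w * x = x * w) → ∃ t : Fin 4 → F, w = ∑ i, t i • c i) :
    ∀ x y : Λ, x * y = y * x := by
  classical
  obtain ⟨J, hJ⟩ : ∃ J : Ideal Λ, J = RingHom.ker (π : Λ →+* F) := ⟨_, rfl⟩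
  haveI : J.IsTwoSided := by rw [hJ]; infer_instance
  have hnil0 := hnil
  rw [← hJ] at hnil
  have hmem : ∀ x, x ∈ J ↔ π x = 0 := by
    intro x
    rw [hJ, RingHom.mem_ker]
    rfl
  have hsub : ∀ x, x - π x • (1 : Λ) ∈ J := by
    intro x
    rw [hmem, map_sub, map_smul, map_one]
    simp
  have hsub1 : ∀ x, x - π x • (1 : Λ) ∈ J ^ 1 := by
    intro x
    rw [Submodule.pow_one]
    exact hsub x
  have hJ2le : J ^ 2 ≤ J := Ideal.pow_le_self two_ne_zero
  have hnd' : ∀ x, (∀ y, lam (x * y) = 0) → x = 0 := by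
    intro x h
    by_contra hx
    obtain ⟨y, hy⟩ := hnd x hx
    exact hy (h y)
  -- commutators lie in `J ^ 2`
  have hcomm2 : ∀ u v : Λ, u * v - v * u ∈ J ^ 2 := by
    intro u v
    have e : u * v - v * u = (u - π u • 1) * (v - π v • 1) - (v - π v • 1) * (u - π u • 1) := by
      simp only [sub_mul, mul_sub, smul_mul_assoc, mul_smul_comm, one_mul, mul_one, smul_smul]
      module
    rw [e]
    exact sub_mem (mm J (hsub1 u) (hsub1 v)) (mm J (hsub1 v) (hsub1 u))
  -- the case `J ^ 3 = ⊥`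
  have h4 : J ^ 3 = ⊥ → ∀ u v : Λ, u * v = v * u := by
    intro h3 u v
    have hk := hcomm2 u v
    have h0 : u * v - v * u = 0 := by
      apply hnd'
      intro y
      have e : (u * v - v * u) * y = π y • (u * v - v * u) + (u * v - v * u) * (y - π y • 1) := by
        simp only [mul_sub, mul_smul_comm, mul_one]
        abel
      have h0 : (u * v - v * u) * (y - π y • 1) = 0 := by
        have := mm J (i := 2) (j := 1) hk (hsub1 y)
        rw [h3] at this
        exact (Submodule.mem_bot _).1 this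
      rw [e, h0, add_zero, map_smul, map_sub, hsym u v, sub_self, smul_zero]
    exact sub_eq_zero.1 h0
  by_cases h3 : J ^ 3 = ⊥
  · exact h4 h3
  by_cases hone : ∃ a ∈ J, ∀ x ∈ J, ∃ α : F, x - α • a ∈ J ^ 2
  · obtain ⟨a, ha, h⟩ := hone
    exact comm_of_one_gen π hnil0 a (by rw [← hJ]; exact ha) (by rw [← hJ]; exact h)
  push Not at hone
  exfalso
  apply h3
  obtain ⟨a, ha, ha2⟩ := hone 0 J.zero_mem
  have ha2' : a ∉ J ^ 2 := by
    have := ha2 0
    simpa using this
  obtain ⟨b, hb, hb2⟩ := hone a ha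
  have hind : ∀ β γ : F, β • a + γ • b ∈ J ^ 2 → β = 0 ∧ γ = 0 := by
    intro β γ h
    have hγ : γ = 0 := by
      by_contra hγ
      apply hb2 (-β / γ)
      have e : b - (-β / γ) • a = γ⁻¹ • (β • a + γ • b) := by
        rw [smul_add, smul_smul, smul_smul, inv_mul_cancel₀ hγ, one_smul]
        module
      rw [e]
      exact Submodule.smul_of_tower_mem _ _ h
    refine ⟨?_, hγ⟩
    by_contra hβ
    apply ha2'
    rw [hγ, zero_smul, add_zero] at h
    have := Submodule.smul_of_tower_mem (J ^ 2) β⁻¹ h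
    rwa [smul_smul, inv_mul_cancel₀ hβ, one_smul] at this
  -- the span of the commutators
  obtain ⟨K, hK⟩ : ∃ K : Submodule F Λ,
      K = Submodule.span F {z | ∃ x y : Λ, z = x * y - y * x} := ⟨_, rfl⟩
  have hKlam : ∀ k ∈ K, lam k = 0 := by
    intro k hk
    rw [hK] at hk
    refine Submodule.span_induction ?_ ?_ ?_ ?_ hk
    · rintro z ⟨x, y, rfl⟩
      rw [map_sub, hsym, sub_self]
    · exact map_zero _
    · intro x y _ _ hx hy
      rw [map_add, hx, hy, add_zero]
    · intro α x _ hx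
      rw [map_smul, hx, smul_zero]
  have hK2 : ∀ k ∈ K, k ∈ J ^ 2 := by
    intro k hk
    rw [hK] at hk
    refine Submodule.span_induction ?_ ?_ ?_ ?_ hk
    · rintro z ⟨x, y, rfl⟩
      exact hcomm2 x y
    · exact zero_mem _
    · intro x y _ _ hx hy
      exact add_mem hx hy
    · intro α x _ hx
      exact Submodule.smul_of_tower_mem _ α hx
  have hKπ : ∀ k ∈ K, π k = 0 := fun k hk => (hmem k).1 (hJ2le (hK2 k hk))
  -- codimension of `K`
  have hCD : ∀ x, (∀ i, lam (c i * x) = 0) → x ∈ K := by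
    intro x hx
    by_contra hxK
    obtain ⟨φ, hφx, hφK⟩ := Submodule.exists_dual_map_eq_bot_of_notMem hxK inferInstance
    have hφK' : ∀ k ∈ K, φ k = 0 := by
      intro k hk
      have : φ k ∈ Submodule.map φ K := Submodule.mem_map_of_mem hk
      rw [hφK] at this
      exact (Submodule.mem_bot _).1 this
    obtain ⟨T, hT⟩ : ∃ T : Λ →ₗ[F] Module.Dual F Λ, T = (LinearMap.mul F Λ).compr₂ lam :=
      ⟨_, rfl⟩
    have hTapp : ∀ w y, T w y = lam (w * y) := by
      intro w y
      rw [hT]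
      rfl
    have hinj : Function.Injective T := by
      rw [injective_iff_map_eq_zero]
      intro w hw
      apply hnd'
      intro y
      rw [← hTapp, hw]
      rfl
    have hsurj : Function.Surjective T :=
      (LinearMap.injective_iff_surjective_of_finrank_eq_finrank
        (Subspace.dual_finrank_eq (K := F) (V := Λ)).symm).1 hinj
    obtain ⟨w, hw⟩ := hsurj φ
    have hwφ : ∀ y, lam (w * y) = φ y := by
      intro y
      rw [← hTapp, hw]
    have hwc : ∀ u, w * u = u * w := by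
      intro u
      have h0 : w * u - u * w = 0 := by
        apply hnd'
        intro y
        have h1 : lam (u * (w * y)) = lam (w * (y * u)) := by
          rw [hsym u (w * y), mul_assoc]
        have h2 : (w * u - u * w) * y = w * (u * y) - u * (w * y) := by
          rw [sub_mul, mul_assoc, mul_assoc]
        rw [h2, map_sub, h1, ← map_sub, ← mul_sub, hwφ]
        apply hφK'
        rw [hK]
        exact Submodule.subset_span ⟨u, y, rfl⟩
      exact sub_eq_zero.1 h0
    obtain ⟨t, ht⟩ := hcen w hwc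
    apply hφx
    rw [← hwφ, ht, Finset.sum_mul, map_sum]
    apply Finset.sum_eq_zero
    intro i _
    rw [smul_mul_assoc, map_smul, hx i, smul_zero]
  -- a socle element in `J ^ 3`
  have hs : ∃ s ∈ J ^ 3, s ≠ 0 ∧ ∀ j ∈ J, s * j = 0 := by
    have hN₀ : J ^ (Nat.find hnil) = ⊥ := Nat.find_spec hnil
    have hmin : ∀ k < Nat.find hnil, J ^ k ≠ ⊥ := fun k hk => Nat.find_min hnil hk
    have h4le : 4 ≤ Nat.find hnil := by
      by_contra hlt
      have h5 : J ^ 3 ≤ J ^ (Nat.find hnil) := Ideal.pow_le_pow_right (by omega)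
      rw [hN₀] at h5
      exact h3 (le_bot_iff.1 h5)
    obtain ⟨s, hsm, hs0⟩ := Submodule.exists_mem_ne_zero_of_ne_bot (hmin (Nat.find hnil - 1) (by omega))
    refine ⟨s, Ideal.pow_le_pow_right (by omega : 3 ≤ Nat.find hnil - 1) hsm, hs0, ?_⟩
    intro j hj
    have hj1 : j ∈ J ^ 1 := by rw [Submodule.pow_one]; exact hj
    have h5 : s * j ∈ J ^ (Nat.find hnil - 1 + 1) := mm J hsm hj1
    rw [Nat.sub_add_cancel (by omega), hN₀] at h5
    exact (Submodule.mem_bot _).1 h5
  obtain ⟨s, hs3, hs0, hsJ⟩ := hs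
  have hs2 : s ∈ J ^ 2 := Ideal.pow_le_pow_right (by norm_num : 2 ≤ 3) hs3
  have hs1 : s ∈ J := hJ2le hs2
  have hlams : lam s ≠ 0 := by
    obtain ⟨y, hy⟩ := hnd s hs0
    intro h0
    apply hy
    have e : s * y = π y • s + s * (y - π y • 1) := by
      simp only [mul_sub, mul_smul_comm, mul_one]
      abel
    rw [e, hsJ _ (hsub y), add_zero, map_smul, h0, smul_zero]
  -- independence of `1, a, b, s` modulo `K`
  have hindK : ∀ g₀ g₁ g₂ g₃ : F, g₀ • (1 : Λ) + g₁ • a + g₂ • b + g₃ • s ∈ K →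
      g₀ = 0 ∧ g₁ = 0 ∧ g₂ = 0 ∧ g₃ = 0 := by
    intro g₀ g₁ g₂ g₃ h
    have h0 : g₀ = 0 := by
      have := hKπ _ h
      simp only [map_add, map_smul, map_one, (hmem a).1 ha, (hmem b).1 hb, (hmem s).1 hs1,
        mul_zero, add_zero, smul_eq_mul, mul_one] at this
      exact this
    have h12 : g₁ • a + g₂ • b ∈ J ^ 2 := by
      have e : g₁ • a + g₂ • b = (g₀ • (1 : Λ) + g₁ • a + g₂ • b + g₃ • s) - g₃ • s := by
        rw [h0]
        module
      rw [e]
      exact sub_mem (hK2 _ h) (Submodule.smul_of_tower_mem _ g₃ hs2)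
    obtain ⟨h1, h2⟩ := hind g₁ g₂ h12
    refine ⟨h0, h1, h2, ?_⟩
    rw [h0, h1, h2, zero_smul, zero_smul, zero_smul, zero_add, zero_add, zero_add] at h
    have h5 := hKlam _ h
    rw [map_smul, smul_eq_mul] at h5
    rcases mul_eq_zero.1 h5 with h6 | h6
    · exact h6
    · exact absurd h6 hlams
  -- `1, a, b, s` span modulo `K`
  have hspan : ∀ x : Λ, ∃ α₀ α₁ α₂ α₃ : F,
      x - (α₀ • (1 : Λ) + α₁ • a + α₂ • b + α₃ • s) ∈ K := by
    intro x
    obtain ⟨Φ, hΦ⟩ : ∃ Φ : Λ →ₗ[F] (Fin 4 → F),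
        Φ = LinearMap.pi (fun i => lam.comp (LinearMap.mulLeft F (c i))) := ⟨_, rfl⟩
    have hΦapp : ∀ z i, Φ z i = lam (c i * z) := by
      intro z i
      rw [hΦ]
      rfl
    obtain ⟨e, he⟩ : ∃ e : Fin 5 → Λ, e = ![1, a, b, s, x] := ⟨_, rfl⟩
    have hdep : ¬ LinearIndependent F (fun i => Φ (e i)) := by
      intro hli
      have := hli.fintype_card_le_finrank
      simp at this
    obtain ⟨g, hg, i₀, hi₀⟩ := Fintype.not_linearIndependent_iff.1 hdep
    have hz : ∑ i, g i • e i ∈ K := by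
      apply hCD
      intro i
      have h2 : Φ (∑ j, g j • e j) = 0 := by
        rw [map_sum]
        simp only [map_smul]
        exact hg
      rw [← hΦapp, h2]
      rfl
    rw [Fin.sum_univ_five, he] at hz
    have hz' : g 0 • (1 : Λ) + g 1 • a + g 2 • b + g 3 • s + g 4 • x ∈ K := hz
    have hg4 : g 4 ≠ 0 := by
      intro h4
      rw [h4, zero_smul, add_zero] at hz'
      obtain ⟨h0, h1, h2, h3'⟩ := hindK _ _ _ _ hz'
      apply hi₀
      fin_cases i₀
      exacts [h0, h1, h2, h3', h4]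
    refine ⟨-(g 4)⁻¹ * g 0, -(g 4)⁻¹ * g 1, -(g 4)⁻¹ * g 2, -(g 4)⁻¹ * g 3, ?_⟩
    have e2 : x - ((-(g 4)⁻¹ * g 0) • (1 : Λ) + (-(g 4)⁻¹ * g 1) • a + (-(g 4)⁻¹ * g 2) • b
        + (-(g 4)⁻¹ * g 3) • s)
        = (g 4)⁻¹ • (g 0 • (1 : Λ) + g 1 • a + g 2 • b + g 3 • s + g 4 • x) := by
      rw [smul_add (g 4)⁻¹ _ (g 4 • x), smul_smul, inv_mul_cancel₀ hg4, one_smul]
      module
    rw [e2]
    exact K.smul_mem _ hz'
  have hJ1 : ∀ x ∈ J, ∃ α β : F, x - α • a - β • b ∈ J ^ 2 := by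
    intro x hx
    obtain ⟨α₀, α₁, α₂, α₃, hk⟩ := hspan x
    have h0 : α₀ = 0 := by
      have := hKπ _ hk
      simp only [map_sub, map_add, map_smul, map_one, (hmem x).1 hx, (hmem a).1 ha,
        (hmem b).1 hb, (hmem s).1 hs1, mul_zero, add_zero, smul_eq_mul, mul_one, zero_sub,
        neg_eq_zero] at this
      exact this
    refine ⟨α₁, α₂, ?_⟩
    have e : x - α₁ • a - α₂ • b = (x - (α₀ • (1 : Λ) + α₁ • a + α₂ • b + α₃ • s)) + α₃ • s := by
      rw [h0]
      module
    rw [e]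
    exact add_mem (hK2 _ hk) (Submodule.smul_of_tower_mem _ α₃ hs2)
  have ha1 : a ∈ J ^ 1 := by rw [Submodule.pow_one]; exact ha
  have hb1 : b ∈ J ^ 1 := by rw [Submodule.pow_one]; exact hb
  have hK3 : ∀ k ∈ K, ∃ γ : F, k - γ • (a * b - b * a) ∈ J ^ 3 := by
    intro k hk
    rw [hK] at hk
    refine Submodule.span_induction ?_ ?_ ?_ ?_ hk
    · rintro z ⟨u, v, rfl⟩
      obtain ⟨α, β, hu⟩ := hJ1 _ (hsub u)
      obtain ⟨α', β', hv⟩ := hJ1 _ (hsub v)
      refine ⟨α * β' - β * α', ?_⟩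
      have e : u * v - v * u - (α * β' - β * α') • (a * b - b * a) =
          ((α • a + β • b) * (v - π v • 1 - α' • a - β' • b)
            - (v - π v • 1 - α' • a - β' • b) * (α • a + β • b))
          + ((u - π u • 1 - α • a - β • b) * (α' • a + β' • b)
            - (α' • a + β' • b) * (u - π u • 1 - α • a - β • b))
          + ((u - π u • 1 - α • a - β • b) * (v - π v • 1 - α' • a - β' • b)
            - (v - π v • 1 - α' • a - β' • b) * (u - π u • 1 - α • a - β • b)) := by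
        simp only [sub_mul, mul_sub, add_mul, mul_add, smul_mul_assoc, mul_smul_comm, one_mul,
          mul_one, smul_smul]
        module
      rw [e]
      have hab1 : α • a + β • b ∈ J ^ 1 :=
        add_mem (Submodule.smul_of_tower_mem _ α ha1) (Submodule.smul_of_tower_mem _ β hb1)
      have hab1' : α' • a + β' • b ∈ J ^ 1 :=
        add_mem (Submodule.smul_of_tower_mem _ α' ha1) (Submodule.smul_of_tower_mem _ β' hb1)
      have h43 : J ^ 4 ≤ J ^ 3 := Ideal.pow_le_pow_right (by norm_num)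
      exact add_mem (add_mem
        (sub_mem (mm J (i := 1) (j := 2) hab1 hv) (mm J (i := 2) (j := 1) hv hab1))
        (sub_mem (mm J (i := 2) (j := 1) hu hab1') (mm J (i := 1) (j := 2) hab1' hu)))
        (sub_mem (h43 (mm J (i := 2) (j := 2) hu hv)) (h43 (mm J (i := 2) (j := 2) hv hu)))
    · exact ⟨0, by simp⟩
    · rintro x y _ _ ⟨γ, hγ⟩ ⟨γ', hγ'⟩
      refine ⟨γ + γ', ?_⟩
      have e : x + y - (γ + γ') • (a * b - b * a)
          = (x - γ • (a * b - b * a)) + (y - γ' • (a * b - b * a)) := by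
        module
      rw [e]
      exact add_mem hγ hγ'
    · rintro α x _ ⟨γ, hγ⟩
      refine ⟨α * γ, ?_⟩
      have e : α • x - (α * γ) • (a * b - b * a) = α • (x - γ • (a * b - b * a)) := by
        module
      rw [e]
      exact Submodule.smul_of_tower_mem _ α hγ
  have hJ2 : ∀ x ∈ J ^ 2, ∃ γ : F, x - γ • (a * b - b * a) ∈ J ^ 3 := by
    intro x hx
    obtain ⟨α₀, α₁, α₂, α₃, hk⟩ := hspan x
    have h0 : α₀ = 0 := by
      have := hKπ _ hk
      simp only [map_sub, map_add, map_smul, map_one, (hmem x).1 (hJ2le hx), (hmem a).1 ha,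
        (hmem b).1 hb, (hmem s).1 hs1, mul_zero, add_zero, smul_eq_mul, mul_one, zero_sub,
        neg_eq_zero] at this
      exact this
    have h12 : α₁ • a + α₂ • b ∈ J ^ 2 := by
      have e : α₁ • a + α₂ • b
          = x - (x - (α₀ • (1 : Λ) + α₁ • a + α₂ • b + α₃ • s)) - α₃ • s := by
        rw [h0]
        module
      rw [e]
      exact sub_mem (sub_mem hx (hK2 _ hk)) (Submodule.smul_of_tower_mem _ α₃ hs2)
    obtain ⟨h1, h2⟩ := hind _ _ h12
    obtain ⟨γ, hγ⟩ := hK3 _ hk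
    refine ⟨γ, ?_⟩
    have e : x - γ • (a * b - b * a)
        = (x - (α₀ • (1 : Λ) + α₁ • a + α₂ • b + α₃ • s) - γ • (a * b - b * a)) + α₃ • s := by
      rw [h0, h1, h2]
      module
    rw [e]
    exact add_mem hγ (Submodule.smul_of_tower_mem _ α₃ hs3)
  exact cube_eq_bot J hnil a b ha hb hJ1 hJ2

end Cfsg.Agent.Lib.Helper41.SymLocal
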