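import Mathlib
import Cfsg.Agent.Lib.Helper41.TMTwoStmt
import Cfsg.Agent.Lib.Helper24.MinusNegSq

/-!
# S5987, the `r = 2` block: assembly of the pieces of `Helper41.TMTwoStmt`

`two_iff_of`: for `q` odd and `m + 1 ≤ d`, every `x ∈ Omega^-_(2d)(q)` with `x ^ 2` scalar and
`x` not scalar fixes a totally singular `m`-space iff `Even d ∨ Even m ∨ q % 8 ≠ 7`
(the left side is literally the left side of S5987 at `r = 2`).
-/

set_option autoImplicit false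

universe u

open scoped Matrix MatrixGroups

namespace Cfsg.Agent.Lib.Helper41.TMTwoAsm

open Cfsg.Agent.Lib.Helper45.OMiStmt (M Aniso FxM NDegM StabM ScalM NegSqExM)
open Cfsg.Agent.Lib.Helper41.TMTwoStmt

theorem two_iff_of (hScal : ScalM.{u}) (hEx : NegSqExM.{u}) (hInv : InvFix.{u})
    (hSq3 : SqNeg3.{u}) (hNoOdd : NoOdd.{u})
    {F : Type u} [Field F] [Fintype F] (hodd : Odd (Fintype.card F)) (d m : ℕ) (hmd : m + 1 ≤ d)
    (a b : F) (hab : ∀ x y : F, x ^ 2 + a * x * y + b * y ^ 2 = 0 → x = 0 ∧ y = 0) :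
    (∀ x : GL ((Fin (d - 1) ⊕ Fin (d - 1)) ⊕ Fin 2) F, x ∈ Cfsg.Geo.omegaGL (Cfsg.quadFormMinus (d - 1) F a b) →
      (∃ z : F, ((x ^ 2 : GL ((Fin (d - 1) ⊕ Fin (d - 1)) ⊕ Fin 2) F) : Matrix ((Fin (d - 1) ⊕ Fin (d - 1)) ⊕ Fin 2) ((Fin (d - 1) ⊕ Fin (d - 1)) ⊕ Fin 2) F) = z • (1 : Matrix ((Fin (d - 1) ⊕ Fin (d - 1)) ⊕ Fin 2) ((Fin (d - 1) ⊕ Fin (d - 1)) ⊕ Fin 2) F)) →
      (∀ z : F, (x : Matrix ((Fin (d - 1) ⊕ Fin (d - 1)) ⊕ Fin 2) ((Fin (d - 1) ⊕ Fin (d - 1)) ⊕ Fin 2) F) ≠ z • (1 : Matrix ((Fin (d - 1) ⊕ Fin (d - 1)) ⊕ Fin 2) ((Fin (d - 1) ⊕ Fin (d - 1)) ⊕ Fin 2) F)) →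
      ∃ W : Submodule F ((Fin (d - 1) ⊕ Fin (d - 1)) ⊕ Fin 2 → F), (Module.finrank F ↥W = m ∧ Cfsg.Geo.IsTotallySingularQuad (Cfsg.quadFormMinus (d - 1) F a b) W) ∧ W.map (Matrix.toLin' (x : Matrix ((Fin (d - 1) ⊕ Fin (d - 1)) ⊕ Fin 2) ((Fin (d - 1) ⊕ Fin (d - 1)) ⊕ Fin 2) F)) ≤ W) ↔
    (Even d ∨ Even m ∨ Fintype.card F % 8 ≠ 7) := by
  have hAn : Aniso a b := hab
  have hiso : ∀ x : GL (M d) F, x ∈ Cfsg.Geo.omegaGL (Cfsg.quadFormMinus (d - 1) F a b) →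
      x ∈ Cfsg.isometryGroup F (Cfsg.quadFormMinus (d - 1) F a b) := by
    intro x hx
    obtain ⟨y, _, rfl⟩ := Subgroup.mem_map.mp hx
    exact y.2
  constructor
  · intro h
    by_contra hcon
    have hd : ¬ Even d := fun h' => hcon (Or.inl h')
    have hm : ¬ Even m := fun h' => hcon (Or.inr (Or.inl h'))
    have hq : Fintype.card F % 8 = 7 := by
      by_contra h'
      exact hcon (Or.inr (Or.inr h'))
    have hd' : Odd d := Nat.not_even_iff_odd.mp hd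
    have hq4 : Fintype.card F % 4 = 3 := by omega
    obtain ⟨x, hxΩ, hxx⟩ := hEx F hq d hd' a b hAn
    have hsq : ((x ^ 2 : GL (M d) F) : Matrix (M d) (M d) F) =
        (-1 : F) • (1 : Matrix (M d) (M d) F) := by
      rw [pow_two, Units.val_mul, hxx]; simp
    have hns : ∀ z : F, (x : Matrix (M d) (M d) F) ≠ z • (1 : Matrix (M d) (M d) F) := by
      intro z hz
      have h1 : (z * z) • (1 : Matrix (M d) (M d) F) = -1 := by
        rw [← hxx, hz]; simp [smul_smul]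
      have h2 : z * z = -1 := by
        have := congrFun (congrFun h1 (Sum.inr 0)) (Sum.inr 0)
        simpa using this
      have hsqm : IsSquare (-1 : F) := ⟨z, h2.symm⟩
      rw [FiniteField.isSquare_neg_one_iff] at hsqm
      exact hsqm hq4
    obtain ⟨W, ⟨hWm, _⟩, hWs⟩ := h x hxΩ ⟨-1, hsq⟩ hns
    have hev := hNoOdd F hq4 d (x : Matrix (M d) (M d) F) hxx W hWs
    rw [hWm] at hev
    exact hm hev
  · intro hcond x hxΩ hz hns
    obtain ⟨z, hz⟩ := hz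
    have hxi := hiso x hxΩ
    have hx2i : x ^ 2 ∈ Cfsg.isometryGroup F (Cfsg.quadFormMinus (d - 1) F a b) :=
      Subgroup.pow_mem _ hxi 2
    rcases hScal F d a b (x ^ 2) hx2i z hz with rfl | rfl
    · have hx21 : x ^ 2 = 1 := by
        apply Units.ext
        rw [hz]; simp
      obtain ⟨W, hWm, hWt, hWs⟩ := hInv F hodd d m hmd a b hAn x hxi hx21
      exact ⟨W, ⟨hWm, hWt⟩, hWs⟩
    · have hxx : (x : Matrix (M d) (M d) F) * (x : Matrix (M d) (M d) F) = -1 := by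
        rw [← Units.val_mul, ← pow_two, hz]; simp
      obtain ⟨hdo, hq7⟩ :=
        Cfsg.Agent.Lib.Helper24.MinusNegSq.main hodd d (by omega) a b hab x hxΩ hxx
      have hq4 : Fintype.card F % 4 = 3 := by omega
      have hme : Even m := by
        rcases hcond with h | h | h
        · exact absurd h (Nat.not_even_iff_odd.mpr hdo)
        · exact h
        · exact absurd hq7 h
      obtain ⟨W, hWm, hWt, hWs⟩ := hSq3 F hq4 d m a b hme hmd x hxi hxx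
      exact ⟨W, ⟨hWm, hWt⟩, hWs⟩

end Cfsg.Agent.Lib.Helper41.TMTwoAsm
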