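import Mathlib
import Cfsg.Prelude.Def_Classical
import Cfsg.Prelude.Def_GeometricClasses
import Cfsg.Agent.Lib.Helper41.TMStmt
import Cfsg.Agent.Lib.Helper41.TMTwoAsm

/-!
# S5987: final assembly from the pieces of `Helper41.TMStmt` and the `r = 2` block `TMTwoAsm`
(port of helper44's `TPFin`).
-/

set_option autoImplicit false

universe u

open scoped Matrix MatrixGroups

namespace Cfsg.Agent.Lib.Helper41.TMFin

open Cfsg.Agent.Lib.Helper45.OMiStmt (M Aniso FxM NDegM StabM ScalM NegSqExM)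
open Cfsg.Agent.Lib.Helper41.TMTwoStmt (TSubM PlusM FixTSM InvFix SqNeg3 NoOdd)
open Cfsg.Agent.Lib.Helper41.TMStmt

theorem omegaGL_le {F : Type u} [Field F] (d : ℕ) (a b : F) :
    Cfsg.Geo.omegaGL (Cfsg.quadFormMinus (d - 1) F a b) ≤
      Cfsg.isometryGroup F (Cfsg.quadFormMinus (d - 1) F a b) := by
  intro x hx
  unfold Cfsg.Geo.omegaGL at hx
  obtain ⟨y, -, rfl⟩ := Subgroup.mem_map.mp hx
  exact y.2

theorem stab_scalar {F : Type u} [Field F] {d : ℕ} (z : F) (W : Submodule F (M d → F)) :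
    StabM (z • (1 : Matrix (M d) (M d) F)) W := by
  unfold StabM
  rintro _ ⟨w, hw, rfl⟩
  have h : Matrix.toLin' (z • (1 : Matrix (M d) (M d) F)) w = z • w := by
    rw [Matrix.toLin'_apply, Matrix.smul_mulVec, Matrix.one_mulVec]
  rw [h]
  exact W.smul_mem z hw

theorem bad_fin (hTsEx : TsEx.{u}) {F : Type u} [Field F] [Fintype F] (d m : ℕ) (hmd : m + 1 ≤ d)
    (a b : F) (hAn : Aniso a b) (r : ℕ)
    (hbad : ∃ x : Matrix.GeneralLinearGroup (M d) F,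
      x ∈ Cfsg.Geo.omegaGL (Cfsg.quadFormMinus (d - 1) F a b) ∧ x ^ r = 1 ∧
        ¬ FixTSM d m F a b (x : Matrix (M d) (M d) F))
    (h : ∀ x : Matrix.GeneralLinearGroup (M d) F,
      x ∈ Cfsg.Geo.omegaGL (Cfsg.quadFormMinus (d - 1) F a b) →
      (∃ z : F, ((x ^ r : Matrix.GeneralLinearGroup (M d) F) : Matrix (M d) (M d) F) =
        z • (1 : Matrix (M d) (M d) F)) →
      (∀ z : F, (x : Matrix (M d) (M d) F) ≠ z • (1 : Matrix (M d) (M d) F)) →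
      ∃ W : Submodule F (M d → F), (Module.finrank F ↥W = m ∧
        Cfsg.Geo.IsTotallySingularQuad (Cfsg.quadFormMinus (d - 1) F a b) W) ∧
        W.map (Matrix.toLin' (x : Matrix (M d) (M d) F)) ≤ W) : False := by
  obtain ⟨x, hxΩ, hxr, hxW⟩ := hbad
  have hxz : ∃ z : F, ((x ^ r : Matrix.GeneralLinearGroup (M d) F) :
      Matrix (M d) (M d) F) = z • (1 : Matrix (M d) (M d) F) :=
    ⟨1, by rw [hxr, one_smul]; rfl⟩
  have hxns : ∀ z : F, (x : Matrix (M d) (M d) F) ≠ z • (1 : Matrix (M d) (M d) F) := by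
    intro z hz
    obtain ⟨W, hW1, hW2⟩ := hTsEx F a b hAn d m hmd
    exact hxW ⟨W, hW1, hW2, by rw [hz]; exact stab_scalar z W⟩
  obtain ⟨W, ⟨hW1, hW2⟩, hW3⟩ := h x hxΩ hxz hxns
  exact hxW ⟨W, hW1, hW2, hW3⟩

theorem good_fin (hProj : Proj.{u}) {F : Type u} [Field F] [Fintype F] (d m : ℕ) (hd : 1 ≤ d)
    (a b : F) (hAn : Aniso a b) (r : ℕ) (hrodd : Odd r)
    (hy : ∀ y : Matrix.GeneralLinearGroup (M d) F,
      y ∈ Cfsg.isometryGroup F (Cfsg.quadFormMinus (d - 1) F a b) → y ^ r = 1 →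
        FixTSM d m F a b (y : Matrix (M d) (M d) F)) :
    ∀ x : Matrix.GeneralLinearGroup (M d) F,
      x ∈ Cfsg.Geo.omegaGL (Cfsg.quadFormMinus (d - 1) F a b) →
      (∃ z : F, ((x ^ r : Matrix.GeneralLinearGroup (M d) F) : Matrix (M d) (M d) F) =
        z • (1 : Matrix (M d) (M d) F)) →
      (∀ z : F, (x : Matrix (M d) (M d) F) ≠ z • (1 : Matrix (M d) (M d) F)) →
      ∃ W : Submodule F (M d → F), (Module.finrank F ↥W = m ∧
        Cfsg.Geo.IsTotallySingularQuad (Cfsg.quadFormMinus (d - 1) F a b) W) ∧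
        W.map (Matrix.toLin' (x : Matrix (M d) (M d) F)) ≤ W := by
  intro x hxΩ hxz _
  obtain ⟨y, hyiso, hyr, hyW⟩ := hProj F a b hAn d hd r hrodd x (omegaGL_le d a b hxΩ) hxz
  obtain ⟨W, hW1, hW2, hW3⟩ := hy y hyiso hyr
  exact ⟨W, ⟨hW1, hW2⟩, hyW W hW3⟩

theorem final (hNd : NdArith) (hCnt : CntId.{u}) (hTsEx : TsEx.{u})
    (hProj : Proj.{u}) (hG1O : G1O.{u}) (hG1E : G1E.{u}) (hB2Low : B2Low.{u})
    (hB2Odd : B2Odd.{u}) (hB2Even : B2Even.{u})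
    (hScal : ScalM.{u}) (hEx : NegSqExM.{u}) (hInv : InvFix.{u}) (hSq3 : SqNeg3.{u})
    (hNoOdd : NoOdd.{u})
    {F : Type u} [Field F] [Fintype F] {p : ℕ} [Fact p.Prime] [CharP F p] {q : ℕ} (hq : Fintype.card F = q)
    (d m : ℕ) (hd : 4 ≤ d) (hm : 1 ≤ m) (hmd : m + 1 ≤ d) (a b : F) (hab : ∀ x y : F, x ^ 2 + a * x * y + b * y ^ 2 = 0 → x = 0 ∧ y = 0)
    (r : ℕ) [Fact r.Prime]
    (hrΩ : r ∣ Nat.card {W : Submodule F ((Fin (d - 1) ⊕ Fin (d - 1)) ⊕ Fin 2 → F) // Module.finrank F ↥W = m ∧ Cfsg.Geo.IsTotallySingularQuad (Cfsg.quadFormMinus (d - 1) F a b) W})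
    (i c : ℕ) (hi : i = orderOf (q : ZMod r)) (hc : c = if Even i then i else 2 * i) :
    (∀ x : GL ((Fin (d - 1) ⊕ Fin (d - 1)) ⊕ Fin 2) F, x ∈ Cfsg.Geo.omegaGL (Cfsg.quadFormMinus (d - 1) F a b) →
      (∃ z : F, ((x ^ r : GL ((Fin (d - 1) ⊕ Fin (d - 1)) ⊕ Fin 2) F) : Matrix ((Fin (d - 1) ⊕ Fin (d - 1)) ⊕ Fin 2) ((Fin (d - 1) ⊕ Fin (d - 1)) ⊕ Fin 2) F) = z • (1 : Matrix ((Fin (d - 1) ⊕ Fin (d - 1)) ⊕ Fin 2) ((Fin (d - 1) ⊕ Fin (d - 1)) ⊕ Fin 2) F)) →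
      (∀ z : F, (x : Matrix ((Fin (d - 1) ⊕ Fin (d - 1)) ⊕ Fin 2) ((Fin (d - 1) ⊕ Fin (d - 1)) ⊕ Fin 2) F) ≠ z • (1 : Matrix ((Fin (d - 1) ⊕ Fin (d - 1)) ⊕ Fin 2) ((Fin (d - 1) ⊕ Fin (d - 1)) ⊕ Fin 2) F)) →
      ∃ W : Submodule F ((Fin (d - 1) ⊕ Fin (d - 1)) ⊕ Fin 2 → F), (Module.finrank F ↥W = m ∧ Cfsg.Geo.IsTotallySingularQuad (Cfsg.quadFormMinus (d - 1) F a b) W) ∧ W.map (Matrix.toLin' (x : Matrix ((Fin (d - 1) ⊕ Fin (d - 1)) ⊕ Fin 2) ((Fin (d - 1) ⊕ Fin (d - 1)) ⊕ Fin 2) F)) ≤ W) ↔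
    ((r = 2 ∧ p ≠ 2 ∧ (Even d ∨ Even m ∨ q % 8 ≠ 7)) ∨
     (r ≠ p ∧ 2 < r ∧ Odd i ∧ i ≤ m ∧ ((2 * d) % c = 0 ∨ 2 * (m % i) < (2 * d) % c)) ∨
     (r ≠ p ∧ 2 < r ∧ Even i ∧ i ≤ m ∧ (r - 1) / i + 2 * (m / i) ≤ (2 * d) / i ∧
       ((2 * (m % i) ≤ i ∧ (2 * d) % c = 0 ∧ Even ((2 * d) / i) ∧ (r - 1) / i + 2 * (m / i) < (2 * d) / i) ∨
        (2 * (m % i) ≤ (2 * d) % c ∧ Odd ((2 * d) / i)) ∨
        (2 * (m % i) < (2 * d) % c ∧ Even ((2 * d) / i))))) := by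
  subst hq
  have hr : r.Prime := Fact.out
  have hp : p.Prime := Fact.out
  have hq2 : 2 ≤ Fintype.card F := Fintype.one_lt_card
  have hAn : Aniso a b := hab
  have hmd' : m < d := by omega
  have hNTS : r ∣ NTS d F a b m := hrΩ
  have hid := hCnt F a b hAn d m hmd'.le
  have h1 : r ∣ ∏ j ∈ Finset.range m,
      ((Fintype.card F ^ (d - j) + 1) * (Fintype.card F ^ (d - 1 - j) - 1)) := by
    rw [← hid]
    exact Dvd.dvd.mul_right hNTS _
  obtain ⟨hrq, hj⟩ := hNd (Fintype.card F) d m r hr hq2 hm hmd' h1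
  obtain ⟨f, -, hf⟩ := FiniteField.card F p
  have hrp : r ≠ p := by
    intro hrp
    apply hrq
    rw [hf, hrp]
    exact dvd_pow_self _ f.pos.ne'
  by_cases hr2 : r = 2
  · subst hr2
    have hp2 : p ≠ 2 := fun h => hrp h.symm
    have hFodd : Odd (Fintype.card F) := by
      rcases Nat.even_or_odd (Fintype.card F) with h | h
      · exact absurd h.two_dvd hrq
      · exact h
    have htwo := Cfsg.Agent.Lib.Helper41.TMTwoAsm.two_iff_of hScal hEx hInv hSq3 hNoOdd hFodd d m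
      hmd a b hab
    constructor
    · intro h
      exact Or.inl ⟨rfl, hp2, htwo.mp h⟩
    · rintro (⟨-, -, h⟩ | ⟨-, h, -⟩ | ⟨-, h, -⟩)
      · exact htwo.mpr h
      · omega
      · omega
  · have h2r : 2 < r := by
      have := hr.two_le
      omega
    obtain ⟨j, hjm, hjj⟩ := hj hr2
    have hrodd : Odd r := hr.odd_of_ne_two hr2
    subst hi
    rcases Nat.even_or_odd (orderOf ((Fintype.card F : ℕ) : ZMod r)) with hev | hodd
    · have hcc : c = orderOf ((Fintype.card F : ℕ) : ZMod r) := by rw [hc, if_pos hev]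
      subst hcc
      constructor
      · intro h
        right
        by_contra hcon
        apply bad_fin hTsEx d m hmd a b hAn r _ h
        by_cases hlow : m < orderOf ((Fintype.card F : ℕ) : ZMod r)
        · exact hB2Low F a b hAn p d m (by omega) hm hmd' r hr2 hrp hlow ⟨j, hjm, hjj⟩
        · rw [not_lt] at hlow
          apply hB2Even F a b hAn p d m (by omega) hm hmd' r hr2 hrp hev hlow
          intro hh
          exact hcon (Or.inr ⟨hrp, h2r, hev, hlow, hh.1, hh.2⟩)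
      · rintro (⟨h, -⟩ | ⟨-, -, hodd', -⟩ | ⟨-, -, -, h1, h2, h3⟩)
        · exact absurd h hr2
        · exact absurd hev (Nat.not_even_iff_odd.mpr hodd')
        · exact good_fin hProj d m (by omega) a b hAn r hrodd
            (hG1E F a b hAn p d m hm hmd' r hr2 hrp hev h1 ⟨h2, h3⟩)
    · have hcc : c = 2 * orderOf ((Fintype.card F : ℕ) : ZMod r) := by
        rw [hc, if_neg (Nat.not_even_iff_odd.mpr hodd)]
      subst hcc
      constructor
      · intro h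
        right
        by_contra hcon
        apply bad_fin hTsEx d m hmd a b hAn r _ h
        by_cases hlow : m < orderOf ((Fintype.card F : ℕ) : ZMod r)
        · exact hB2Low F a b hAn p d m (by omega) hm hmd' r hr2 hrp hlow ⟨j, hjm, hjj⟩
        · rw [not_lt] at hlow
          apply hB2Odd F a b hAn p d m (by omega) hm hmd' r hr2 hrp hodd hlow
          intro hh
          exact hcon (Or.inl ⟨hrp, h2r, hodd, hlow, hh⟩)
      · rintro (⟨h, -⟩ | ⟨-, -, -, h1, h2⟩ | ⟨-, -, hev', -⟩)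
        · exact absurd h hr2
        · exact good_fin hProj d m (by omega) a b hAn r hrodd
            (hG1O F a b hAn p d m hm hmd' r hr2 hrp hodd h1 h2)
        · exact absurd hev' (Nat.not_even_iff_odd.mpr hodd)

end Cfsg.Agent.Lib.Helper41.TMFin
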