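import Mathlib
import Cfsg.Agent.Lib.Helper41.TMTwoAsm
import Cfsg.Agent.Lib.Helper15.OMiSCALM
import Cfsg.Agent.Lib.Helper15.OMiTOPNDM
import Cfsg.Agent.Lib.Helper37.OMiNEGSQEXM
import Cfsg.Agent.Lib.Helper89.TM2INVDEC
import Cfsg.Agent.Lib.Helper15.TM2INVFIX
import Cfsg.Agent.Lib.Helper73.TM2TSBIG
import Cfsg.Agent.Lib.Helper13.TM2TWOMINUS
import Cfsg.Agent.Lib.Helper89.TM2SQNEG3
import Cfsg.Agent.Lib.Helper89.TM2SQNEGTS
import Cfsg.Agent.Lib.Helper15.TM2TSEXT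
import Cfsg.Agent.Lib.Helper31.TM2NOODD

/-!
# S5987, the `r = 2` block: the five top-level Props of `TMTwoAsm.two_iff_of`, proved from the
landed pieces.
-/

set_option autoImplicit false

universe u

namespace Cfsg.Agent.Lib.Helper41.TMTwoFin

open Cfsg.Agent.Lib.Helper45.OMiStmt (ScalM NegSqExM)
open Cfsg.Agent.Lib.Helper41.TMTwoStmt

theorem scal : ScalM.{u} := Cfsg.Agent.Lib.Helper15.OMiSCALM.main

theorem negSqEx : NegSqExM.{u} := Cfsg.Agent.Lib.Helper37.OMiNEGSQEXM.main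

theorem invFix : InvFix.{u} :=
  Cfsg.Agent.Lib.Helper15.TM2INVFIX.main
    (Cfsg.Agent.Lib.Helper89.TM2INVDEC.main Cfsg.Agent.Lib.Helper15.OMiTOPNDM.main)
    Cfsg.Agent.Lib.Helper73.TM2TSBIG.main Cfsg.Agent.Lib.Helper13.TM2TWOMINUS.main

theorem sqNeg3 : SqNeg3.{u} :=
  Cfsg.Agent.Lib.Helper89.TM2SQNEG3.main
    (Cfsg.Agent.Lib.Helper89.TM2SQNEGTS.main Cfsg.Agent.Lib.Helper15.TM2TSEXT.main)

theorem noOdd : NoOdd.{u} := Cfsg.Agent.Lib.Helper31.TM2NOODD.main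

end Cfsg.Agent.Lib.Helper41.TMTwoFin
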