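import Mathlib
import Cfsg.Agent.Lib.Helper41.UnitStmt
import Cfsg.Agent.Lib.Helper41.SubfAsm
import Cfsg.Agent.Lib.Helper37.EluStmt
import Cfsg.Agent.Lib.Helper82.EluBLK
import Cfsg.Agent.Lib.Helper40.PrimeElts
import Cfsg.Agent.Lib.Helper40.PrimeFix
import Cfsg.Agent.Lib.Helper40.PGLPrime
import Cfsg.Agent.Lib.Helper45.GUCard

/-!
# S5982: assembly of the pieces of `UnitStmt`
-/

set_option autoImplicit false
universe u
open scoped MatrixGroups

namespace Cfsg.Agent.Lib.Helper41.UnitAsm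

open Cfsg.Agent.Lib.Helper40.HermAdj Cfsg.Agent.Lib.Helper40.RecipPoly
open Cfsg.Agent.Lib.Helper41.SubfStmt Cfsg.Agent.Lib.Helper41.UnitStmt
open Cfsg.Agent.Lib.Helper41.SubfAsm

/-- [MEMU] `SL`-conjugacy into the similarity group in matrix form. -/
theorem memU (hComm : CommDet.{u}) {F : Type u} [Field F] [Fintype F] {n : ℕ} (hn : 1 ≤ n)
    (φ : F →+* F) (Δ : Subgroup (GL (Fin n) F)) (Z : Matrix (Fin n) (Fin n) F)
    (hZ : IsUnit Z.det)
    (hΔ : ∀ g : GL (Fin n) F, g ∈ Δ ↔ ∃ (c : F) (B : Matrix (Fin n) (Fin n) F), c ≠ 0 ∧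
      adj φ B * B = 1 ∧ Z * (g : Matrix (Fin n) (Fin n) F) = (c • B) * Z)
    (r : ℕ) (hr : r.Prime) (hr' : r = 2 ∨ (r : F) ≠ 0) (x : GL (Fin n) F) (z : F) (hz : z ≠ 0)
    (hx : (x : Matrix (Fin n) (Fin n) F) ^ r = z • (1 : Matrix (Fin n) (Fin n) F)) :
    (∃ g ∈ Cfsg.Geo.specialLinear (Fin n) F, g⁻¹ * x * g ∈ Δ) ↔
      GoodU φ (x : Matrix (Fin n) (Fin n) F) := by
  constructor
  · rintro ⟨g, -, hmem⟩
    obtain ⟨c, B, hc, hB, hZg⟩ := (hΔ _).mp hmem
    refine ⟨Z * ((g⁻¹ : GL (Fin n) F) : Matrix (Fin n) (Fin n) F), B, c, ?_, hc, hB, ?_⟩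
    · rw [Matrix.det_mul]
      exact hZ.mul ((Matrix.isUnit_iff_isUnit_det _).mp (g⁻¹).isUnit)
    · have h1 : ((g⁻¹ * x * g : GL (Fin n) F) : Matrix (Fin n) (Fin n) F) *
          ((g⁻¹ : GL (Fin n) F) : Matrix (Fin n) (Fin n) F) =
          ((g⁻¹ : GL (Fin n) F) : Matrix (Fin n) (Fin n) F) * (x : Matrix (Fin n) (Fin n) F) := by
        rw [← Units.val_mul, ← Units.val_mul, mul_inv_cancel_right]
      calc Z * ((g⁻¹ : GL (Fin n) F) : Matrix (Fin n) (Fin n) F) * (x : Matrix (Fin n) (Fin n) F)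
          = Z * ((g⁻¹ * x * g : GL (Fin n) F) : Matrix (Fin n) (Fin n) F) *
              ((g⁻¹ : GL (Fin n) F) : Matrix (Fin n) (Fin n) F) := by
            rw [Matrix.mul_assoc, ← h1, Matrix.mul_assoc]
        _ = (c • B) * (Z * ((g⁻¹ : GL (Fin n) F) : Matrix (Fin n) (Fin n) F)) := by
            rw [hZg, Matrix.mul_assoc]
  · rintro ⟨S, B, c, hS, hc, hB, hSx⟩
    obtain ⟨Zu, hZu⟩ : ∃ Zu : GL (Fin n) F, (Zu : Matrix (Fin n) (Fin n) F) = Z :=
      ⟨Matrix.nonsingInvUnit Z hZ, rfl⟩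
    obtain ⟨Su, hSu⟩ : ∃ Su : GL (Fin n) F, (Su : Matrix (Fin n) (Fin n) F) = S :=
      ⟨Matrix.nonsingInvUnit S hS, rfl⟩
    obtain ⟨g₀, hg₀⟩ : ∃ g₀ : GL (Fin n) F, g₀ = Su⁻¹ * Zu := ⟨_, rfl⟩
    have hy : g₀⁻¹ * x * g₀ ∈ Δ := by
      rw [hΔ]
      refine ⟨c, B, hc, hB, ?_⟩
      have h1 : Zu * (g₀⁻¹ * x * g₀) = Su * x * Su⁻¹ * Zu := by
        rw [hg₀]
        group
      have h2 := congrArg (fun u : GL (Fin n) F => (u : Matrix (Fin n) (Fin n) F)) h1
      simp only [Units.val_mul] at h2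
      rw [hZu, hSu] at h2
      rw [Units.val_mul, Units.val_mul, h2, hSx, Matrix.mul_assoc (c • B), ← hSu,
        ← Units.val_mul, mul_inv_cancel, Units.val_one, Matrix.mul_one]
    have hdet0 : (g₀ : Matrix (Fin n) (Fin n) F).det ≠ 0 :=
      ((Matrix.isUnit_iff_isUnit_det _).mp g₀.isUnit).ne_zero
    obtain ⟨D, hD, hDdet⟩ := hComm F n hn r hr hr' (x : Matrix (Fin n) (Fin n) F) z hz hx
      ((g₀ : Matrix (Fin n) (Fin n) F).det)⁻¹
    have hDu : IsUnit D.det := by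
      rw [hDdet]
      exact (inv_ne_zero hdet0).isUnit
    obtain ⟨Du, hDu'⟩ : ∃ Du : GL (Fin n) F, (Du : Matrix (Fin n) (Fin n) F) = D :=
      ⟨Matrix.nonsingInvUnit D hDu, rfl⟩
    have hcomm : Du * x = x * Du := by
      apply Units.ext
      rw [Units.val_mul, Units.val_mul, hDu']
      exact hD
    refine ⟨Du * g₀, ?_, ?_⟩
    · show Du * g₀ ∈ (Matrix.GeneralLinearGroup.det : GL (Fin n) F →* Fˣ).ker
      rw [MonoidHom.mem_ker]
      apply Units.ext
      show ((Du * g₀ : GL (Fin n) F) : Matrix (Fin n) (Fin n) F).det = 1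
      rw [Units.val_mul, Matrix.det_mul, hDu', hDdet, inv_mul_cancel₀ hdet0]
    · have h3 : (Du * g₀)⁻¹ * x * (Du * g₀) = g₀⁻¹ * x * g₀ := by
        have h4 : Du⁻¹ * x * Du = x := by
          rw [mul_assoc, ← hcomm, ← mul_assoc, inv_mul_cancel, one_mul]
        calc (Du * g₀)⁻¹ * x * (Du * g₀) = g₀⁻¹ * (Du⁻¹ * x * Du) * g₀ := by group
          _ = g₀⁻¹ * x * g₀ := by rw [h4]
      rw [h3]
      exact hy

/-- [GOOD2] a matrix whose square is the square of a scalar is `GoodU`. -/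
theorem good2 (hInv : InvSym.{u}) {F : Type u} [Field F] {n : ℕ} (φ : F →+* F)
    (x : Matrix (Fin n) (Fin n) F) (c : F) (hc : c ≠ 0)
    (hx : x ^ 2 = (c * c) • (1 : Matrix (Fin n) (Fin n) F)) : GoodU φ x := by
  have hxx : x * x = (c * c) • (1 : Matrix (Fin n) (Fin n) F) := by
    rw [← pow_two]
    exact hx
  have hy : (c⁻¹ • x) * (c⁻¹ • x) = 1 := by
    rw [Matrix.smul_mul, Matrix.mul_smul, smul_smul, hxx, smul_smul]
    have : c⁻¹ * c⁻¹ * (c * c) = 1 := by field_simp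
    rw [this, one_smul]
  obtain ⟨Q, M, hQ, hQy, hMM, hMT, hM⟩ := hInv F n (c⁻¹ • x) hy
  refine ⟨Q, M, c, hQ, hc, ?_, ?_⟩
  · have hadj : adj φ M = M := by
      ext i j
      rw [adj_apply]
      have h1 : M j i = M i j := congrFun (congrFun hMT i) j
      rcases hM j i with h | h | h
      · rw [← h1, h, map_zero]
      · rw [← h1, h, map_one]
      · rw [← h1, h, map_neg, map_one]
    rw [hadj, hMM]
  · rw [Matrix.mul_smul] at hQy
    rw [Matrix.smul_mul, ← hQy, smul_smul, mul_inv_cancel₀ hc, one_smul]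

theorem neg_one_ne_one (r : ℕ) [Fact r.Prime] (hr2 : r ≠ 2) : (-1 : ZMod r) ≠ 1 := by
  intro h
  have h2 : ((2 : ℕ) : ZMod r) = 0 := by
    push_cast
    linear_combination (-1 : ZMod r) * h
  have h3 := (ZMod.natCast_eq_zero_iff 2 r).mp h2
  exact hr2 ((Nat.prime_dvd_prime_iff_eq Fact.out Nat.prime_two).mp h3)

theorem two_le_of_card {F : Type u} [Field F] [Fintype F] (q₀ : ℕ)
    (hK : Fintype.card F = q₀ ^ 2) : 2 ≤ q₀ := by
  by_contra hlt
  have h1 : q₀ ^ 2 ≤ 1 := by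
    have : q₀ ≤ 1 := by omega
    nlinarith
  have h2 := Fintype.one_lt_card (α := F)
  omega

/-- [SUFU] sufficiency for `r = n ∈ {3, 5}`, `(q₀ - 1)_r = r`. -/
theorem sufU (hConj : ConjU.{u}) (hZ2 : ZOne2.{u}) (hRefl : Refl.{u}) (hNorm : NormSurj.{u})
    (hFrob : FrobMap.{u}) (hRstar : RstarInv.{u})
    {F : Type u} [Field F] [Fintype F] {p : ℕ} [Fact p.Prime] [CharP F p] (q₀ : ℕ)
    (hK : Fintype.card F = q₀ ^ 2) (φ : F →+* F) (hφ : ∀ x, φ x = x ^ q₀)
    (hφ2 : ∀ x, φ (φ x) = x) (hl : ∃ l : F, φ l ≠ l)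
    (r : ℕ) [Fact r.Prime] (hr2 : r ≠ 2) (hrp : r ≠ p) (hr35 : r = 3 ∨ r = 5)
    (hv : padicValNat r (q₀ - 1) = 1)
    (x : Matrix (Fin r) (Fin r) F) (hdet : x.det = 1) (z : F)
    (hz : x ^ r = z • (1 : Matrix (Fin r) (Fin r) F)) : GoodU φ x := by
  have hr : r.Prime := Fact.out
  have hq₀2 : 2 ≤ q₀ := two_le_of_card q₀ hK
  have hrq0 : r ∣ q₀ - 1 := dvd_of_one_le_padicValNat (by omega)
  have hrq0' : ¬ r ∣ q₀ + 1 := by
    intro h
    have h1 : r ∣ (q₀ + 1) - (q₀ - 1) := Nat.dvd_sub h hrq0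
    have h2 : (q₀ + 1) - (q₀ - 1) = 2 := by omega
    rw [h2] at h1
    exact hr2 ((Nat.prime_dvd_prime_iff_eq hr Nat.prime_two).mp h1)
  have hvq : padicValNat r (Fintype.card F - 1) = 1 := by
    rw [hK, sq_sub_one, padicValNat.mul (by omega) (by omega), hv,
      padicValNat.eq_zero_of_not_dvd hrq0']
  have hx1 := hZ2 F p r hr2 hrp hvq x hdet z hz
  have hrq : r ∣ Fintype.card F - 1 := by
    rw [hK, sq_sub_one]
    exact hrq0.mul_right _
  obtain ⟨ω, hω, hy⟩ := hRefl F r hr35 hrq x hdet hx1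
  have hω0 : ω ≠ 0 := by
    rintro rfl
    rw [zero_pow hr.ne_zero] at hω
    exact zero_ne_one hω
  have hωq : (ω⁻¹) ^ (q₀ - 1) = 1 := by
    obtain ⟨t, ht⟩ := hrq0
    rw [inv_pow, ht, pow_mul, hω, one_pow, inv_one]
  obtain ⟨c, hc0, hc⟩ := hNorm F q₀ hK ω⁻¹ hωq
  obtain ⟨y, hy'⟩ : ∃ y, y = x ^ (r - 1) := ⟨_, rfl⟩
  have hxy : x * y = 1 := by
    rw [hy', ← pow_succ', Nat.sub_add_cancel hr.one_le, hx1]
  have hyq : y ^ q₀ = y := by
    have hyr : y ^ r = 1 := by rw [hy', ← pow_mul, mul_comm, pow_mul, hx1, one_pow]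
    obtain ⟨t, ht⟩ := hrq0
    have h3 : q₀ = r * t + 1 := by omega
    rw [h3, pow_succ, pow_mul, hyr, one_pow, one_mul]
  have h1 := hy y hxy
  have hAB : (c • x) * (c⁻¹ • y) = 1 := by
    rw [Matrix.smul_mul, Matrix.mul_smul, smul_smul, hxy, mul_inv_cancel₀ hc0, one_smul]
  have hcq : (c⁻¹) ^ q₀ = c * ω := by
    have h2 : c ^ q₀ * c = ω⁻¹ := by
      rw [← pow_succ]
      exact hc
    rw [inv_pow]
    exact (eq_inv_of_mul_eq_one_right (by rw [← mul_assoc, h2, inv_mul_cancel₀ hω0])).symm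
  have hself : rstar φ (c • x).charpoly = (c • x).charpoly := by
    rw [hRstar F φ r (c • x) (c⁻¹ • y) hAB, ← hFrob F q₀ hK φ hφ r (c⁻¹ • y), smul_pow, hyq,
      hcq, mul_smul, Cfsg.Agent.Lib.Helper40.PGLPrime.charpoly_smul c hc0,
      Cfsg.Agent.Lib.Helper40.PGLPrime.charpoly_smul c hc0, h1]
  exact hConj F p φ hφ2 hl r hr.one_le r hr.pos
    (Cfsg.Agent.Lib.Helper40.PrimeFix.cast_ne_zero' (p := p) r hrp) x z
    (scalar_ne_zero r hr.one_le r x hdet z hz) hz c hc0 hself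

/-- [BADGENU] a diagonal element without symmetry is not `GoodU`. -/
theorem badGenU (hDiag : DiagBadU.{u}) {F : Type u} [Field F] [Fintype F] (q₀ : ℕ)
    (hK : Fintype.card F = q₀ ^ 2) (φ : F →+* F) (hφ : ∀ x, φ x = x ^ q₀) (n : ℕ)
    (r : ℕ) [Fact r.Prime] (lam : F)
    (hlam : orderOf lam = r) (d : F) (hd : d ≠ 0) (e : Fin n → ZMod r)
    (hdet : d ^ n * lam ^ (∑ j, (e j).val) = 1) (hnc : ∃ j j', e j ≠ e j')
    (hns : ¬ Sym e (-((q₀ : ℕ) : ZMod r))) :
    ∃ x : Matrix (Fin n) (Fin n) F, x.det = 1 ∧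
      (∃ z : F, x ^ r = z • (1 : Matrix (Fin n) (Fin n) F)) ∧
      (∀ z : F, x ≠ z • (1 : Matrix (Fin n) (Fin n) F)) ∧ ¬ GoodU φ x := by
  have hr : r.Prime := Fact.out
  have hlamr : lam ^ r = 1 := by
    rw [← hlam]
    exact pow_orderOf_eq_one lam
  refine ⟨d • Matrix.diagonal (fun j => lam ^ (e j).val), ?_, ⟨d ^ r, ?_⟩, ?_,
    fun h => hns (hDiag F q₀ hK φ hφ n r lam hlam d hd e h)⟩
  · rw [Matrix.det_smul, Matrix.det_diagonal, Finset.prod_pow_eq_pow_sum, Fintype.card_fin]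
    exact hdet
  · rw [smul_pow, Matrix.diagonal_pow]
    congr 1
    rw [← Matrix.diagonal_one]
    congr 1
    funext j
    show (lam ^ (e j).val) ^ r = 1
    rw [← pow_mul, mul_comm, pow_mul, hlamr, one_pow]
  · intro z hz
    obtain ⟨j, j', hjj⟩ := hnc
    have h1 := congrFun (congrFun hz j) j
    have h2 := congrFun (congrFun hz j') j'
    rw [Matrix.smul_apply, Matrix.diagonal_apply_eq, Matrix.smul_apply, Matrix.one_apply_eq]
      at h1 h2
    have h3 : lam ^ (e j).val = lam ^ (e j').val := mul_left_cancel₀ hd (h1.trans h2.symm)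
    have hprim : IsPrimitiveRoot lam r := by
      rw [← hlam]
      exact IsPrimitiveRoot.orderOf lam
    have h4 := hprim.pow_inj (ZMod.val_lt _) (ZMod.val_lt _) h3
    exact hjj (ZMod.val_injective r h4)

/-- [BADBLK] `r ∤ q - 1`, `(-q₀) ^ j = -1` mod `r`, `j ≤ n`: an element of order `r` which is
not `GoodU`. -/
theorem badBlk (hRed : BadURed.{u}) (hPoly : BadUPoly.{u}) (hArith : BadUArith)
    {F : Type u} [Field F] [Fintype F] {p : ℕ} [Fact p.Prime] [CharP F p]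
    (q₀ : ℕ) (hK : Fintype.card F = q₀ ^ 2) (φ : F →+* F) (hφ : ∀ x, φ x = x ^ q₀)
    (r : ℕ) [Fact r.Prime] (hr2 : r ≠ 2) (hrp : r ≠ p)
    (hrq : ¬ r ∣ Fintype.card F - 1) (n j : ℕ) (hn : 1 ≤ n) (hjn : j ≤ n)
    (hj : (-((q₀ : ℕ) : ZMod r)) ^ j = -1) :
    ∃ x : Matrix (Fin n) (Fin n) F, x.det = 1 ∧ x ^ r = 1 ∧
      (∀ z : F, x ≠ z • (1 : Matrix (Fin n) (Fin n) F)) ∧ ¬ GoodU φ x := by
  have hr : r.Prime := Fact.out
  obtain ⟨i, hi⟩ : ∃ i, i = orderOf ((Fintype.card F : ℕ) : ZMod r) := ⟨_, rfl⟩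
  have hj1' : ((Fintype.card F : ℕ) : ZMod r) ^ j = 1 := by
    have h1 : (((q₀ : ℕ) : ZMod r) ^ 2) ^ j = ((-((q₀ : ℕ) : ZMod r)) ^ j) ^ 2 := by
      rw [← pow_mul (-((q₀ : ℕ) : ZMod r)), mul_comm j 2, pow_mul (-((q₀ : ℕ) : ZMod r)), neg_sq]
    rw [hK, Nat.cast_pow, h1, hj]
    norm_num
  have hij : i ∣ j := by
    rw [hi]
    exact orderOf_dvd_of_pow_eq_one hj1'
  have hj0' : j ≠ 0 := by
    rintro rfl
    rw [pow_zero] at hj
    exact neg_one_ne_one r hr2 hj.symm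
  have hi1 : i ≠ 1 := by
    intro h
    rw [hi, orderOf_eq_one_iff] at h
    exact hrq ((dvd_sub_one_iff r _ Fintype.card_pos).mpr h)
  have hi0 : i ≠ 0 := by
    rintro rfl
    exact hj0' (Nat.eq_zero_of_zero_dvd hij)
  have hin : i ≤ n := (Nat.le_of_dvd (by omega) hij).trans hjn
  obtain ⟨x, hdet, hxr, hfix⟩ := Cfsg.Agent.Lib.Helper82.EluBLK.main F p r hrp
    (by rw [← hi]; omega) n 1 (by rw [← hi]; omega)
  rw [mul_one] at hfix
  have hroot : ∀ c : F, c ^ r = 1 → c = 1 := fun c hc =>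
    Cfsg.Agent.Lib.Helper40.PrimeElts.root_trivial r hr (by rw [← hi]; exact hi1) c hc
  refine ⟨x, hdet, hxr, ?_, ?_⟩
  · intro z hz
    have hzr : z ^ r = 1 := by
      have h1 := hxr
      rw [hz, smul_pow, one_pow] at h1
      have h2 := congrFun (congrFun h1 ⟨0, by omega⟩) ⟨0, by omega⟩
      simpa using h2
    rw [hz, hroot z hzr, one_smul] at hfix
    have h3 : LinearMap.ker (Matrix.toLin' (1 : Matrix (Fin n) (Fin n) F) - 1) = ⊤ := by
      rw [Matrix.toLin'_one]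
      show LinearMap.ker ((1 : Module.End F (Fin n → F)) - 1) = ⊤
      rw [sub_self]
      exact LinearMap.ker_zero
    rw [h3, finrank_top, Module.finrank_fintype_fun_eq_card, Fintype.card_fin, ← hi] at hfix
    omega
  · intro hgood
    have hself := hRed F q₀ hK φ hφ r hr hrq n hn x hxr hgood
    have h4 := hPoly F p q₀ hK φ hφ r hr2 hrp (by rw [← hi]; omega) n x hxr hfix hself
    exact hArith q₀ r j hr2 hj h4

theorem card_mod_four {F : Type u} [Field F] [Fintype F] {p : ℕ} [Fact p.Prime] [CharP F p]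
    (q₀ : ℕ) (hK : Fintype.card F = q₀ ^ 2) (hp2 : p ≠ 2) : Fintype.card F % 4 = 1 := by
  have hodd := FiniteField.odd_card_of_char_ne_two (F := F) (by rw [ringChar.eq F p]; exact hp2)
  have hq₀odd : q₀ % 2 = 1 := by
    rw [hK, pow_two] at hodd
    rcases Nat.mod_two_eq_zero_or_one q₀ with h | h
    · rw [Nat.mul_mod, h] at hodd
      simp at hodd
    · exact h
  obtain ⟨t, ht⟩ : ∃ t, q₀ = 2 * t + 1 := ⟨q₀ / 2, by omega⟩
  rw [hK, ht]
  have h1 : (2 * t + 1) ^ 2 = 4 * (t * (t + 1)) + 1 := by ring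
  rw [h1]
  omega

/-- The statement of S5982 from the pieces. -/
theorem main (hForm : Form.{u}) (hComm : CommDet.{u}) (hConj : ConjU.{u})
    (hRstar : RstarInv.{u}) (hFrob : FrobMap.{u}) (hNorm : NormSurj.{u}) (hInv : InvSym.{u})
    (hBad2 : Bad2.{u}) (hZ2 : ZOne2.{u}) (hIdx1 : IdxU1.{u}) (hIdx2 : IdxU2)
    (hDiag : DiagBadU.{u}) (hArith : BadUArith) (hPoly : BadUPoly.{u}) (hRed : BadURed.{u})
    (hRefl : Refl.{u}) (h3B1 : Comb3B1) (h3B2 : Comb3B2) (h3B3 : Comb3B3)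
    {F : Type u} [Field F] [Fintype F] {p : ℕ} [Fact p.Prime] [CharP F p] {q : ℕ}
    (hq : Fintype.card F = q) (q₀ : ℕ) (hq₀ : q = q₀ ^ 2) (n : ℕ) (hn : 3 ≤ n)
    (f : (Fin n → F) → (Fin n → F) → F) (hf : Cfsg.Geo.IsUnitaryFormPow q₀ f)
    (r : ℕ) [Fact r.Prime] (hr : r = 2 ∨ r ≠ p) (hgap : ¬ (n = 6 ∧ r = 3))
    (hΩ : r ∣ (Cfsg.Geo.similarityGroup f).relIndex (Cfsg.Geo.specialLinear (Fin n) F)) :
    (∀ x ∈ Cfsg.Geo.specialLinear (Fin n) F,
      (∃ z : F, ((x ^ r : GL (Fin n) F) : Matrix (Fin n) (Fin n) F) =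
        z • (1 : Matrix (Fin n) (Fin n) F)) →
      (∀ z : F, (x : Matrix (Fin n) (Fin n) F) ≠ z • (1 : Matrix (Fin n) (Fin n) F)) →
      ∃ g ∈ Cfsg.Geo.specialLinear (Fin n) F, g⁻¹ * x * g ∈ Cfsg.Geo.similarityGroup f) ↔
    ((r = 2 ∧ (p = 2 ∨ padicValNat 2 n ≤ padicValNat 2 (q - 1))) ∨
      ((r = 3 ∨ r = 5) ∧ n = r ∧ padicValNat r (q₀ - 1) = 1)) := by
  classical
  subst hq
  have hrP : r.Prime := Fact.out
  have hK : Fintype.card F = q₀ ^ 2 := hq₀
  obtain ⟨φ, hφ, hφ2, hl⟩ := Cfsg.Agent.Lib.Helper40.HermAdj.exists_phi hK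
  obtain ⟨Z, hZ, hΔ⟩ := hForm F q₀ hK φ hφ n f hf
  have hn1 : 1 ≤ n := by omega
  have hr' : r = 2 ∨ (r : F) ≠ 0 := by
    rcases hr with h | h
    · exact Or.inl h
    · exact Or.inr (Cfsg.Agent.Lib.Helper40.PrimeFix.cast_ne_zero' (p := p) r h)
  have hred : (∀ x ∈ Cfsg.Geo.specialLinear (Fin n) F,
      (∃ z : F, ((x ^ r : GL (Fin n) F) : Matrix (Fin n) (Fin n) F) =
        z • (1 : Matrix (Fin n) (Fin n) F)) →
      (∀ z : F, (x : Matrix (Fin n) (Fin n) F) ≠ z • (1 : Matrix (Fin n) (Fin n) F)) →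
      ∃ g ∈ Cfsg.Geo.specialLinear (Fin n) F, g⁻¹ * x * g ∈ Cfsg.Geo.similarityGroup f) ↔
      (∀ X : Matrix (Fin n) (Fin n) F, X.det = 1 →
        (∃ z : F, X ^ r = z • (1 : Matrix (Fin n) (Fin n) F)) →
        (∀ z : F, X ≠ z • (1 : Matrix (Fin n) (Fin n) F)) → GoodU φ X) := by
    constructor
    · intro hall X hdet hz hns
      obtain ⟨z, hz⟩ := hz
      obtain ⟨x, hx⟩ : ∃ x : GL (Fin n) F, (x : Matrix (Fin n) (Fin n) F) = X :=
        ⟨Matrix.nonsingInvUnit X (by rw [hdet]; exact isUnit_one), rfl⟩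
      have hxSL : x ∈ Cfsg.Geo.specialLinear (Fin n) F := by
        show x ∈ (Matrix.GeneralLinearGroup.det : GL (Fin n) F →* Fˣ).ker
        rw [MonoidHom.mem_ker]
        apply Units.ext
        show (x : Matrix (Fin n) (Fin n) F).det = 1
        rw [hx, hdet]
      have h1 := hall x hxSL ⟨z, by rw [Units.val_pow_eq_pow_val, hx]; exact hz⟩
        (by rw [hx]; exact hns)
      have h2 := (memU hComm hn1 φ _ Z hZ hΔ r hrP hr' x z
        (scalar_ne_zero n hn1 r X hdet z hz) (by rw [hx]; exact hz)).mp h1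
      rw [hx] at h2
      exact h2
    · intro hall x hxSL hz hns
      obtain ⟨z, hz⟩ := hz
      have hdet : (x : Matrix (Fin n) (Fin n) F).det = 1 :=
        congrArg Units.val (MonoidHom.mem_ker.mp hxSL)
      rw [Units.val_pow_eq_pow_val] at hz
      have h1 := hall (x : Matrix (Fin n) (Fin n) F) hdet ⟨z, hz⟩ hns
      exact (memU hComm hn1 φ _ Z hZ hΔ r hrP hr' x z
        (scalar_ne_zero n hn1 r _ hdet z hz) hz).mpr h1
  rw [hred]
  constructor
  · intro hall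
    by_contra hcon
    have hc1 : ¬ (r = 2 ∧ (p = 2 ∨ padicValNat 2 n ≤ padicValNat 2 (Fintype.card F - 1))) :=
      fun h => hcon (Or.inl h)
    have hc2 : ¬ ((r = 3 ∨ r = 5) ∧ n = r ∧ padicValNat r (q₀ - 1) = 1) :=
      fun h => hcon (Or.inr h)
    by_cases hr2 : r = 2
    · have hp2 : p ≠ 2 := fun h => hc1 ⟨hr2, Or.inl h⟩
      have hv : ¬ padicValNat 2 n ≤ padicValNat 2 (Fintype.card F - 1) :=
        fun h => hc1 ⟨hr2, Or.inr h⟩
      obtain ⟨x, hdet, hz, hns, hbad⟩ := hBad2 F p q₀ hK φ hφ hp2 n hn1 hv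
      exact hbad (hall x hdet (by rw [hr2]; exact hz) hns)
    · have hrp : r ≠ p := hr.resolve_left hr2
      have hq₀2 : 2 ≤ q₀ := two_le_of_card q₀ hK
      have hrq₀ : ¬ r ∣ q₀ := by
        intro h
        apply Cfsg.Agent.Lib.Helper40.PrimeFix.not_dvd_card (F := F) (p := p) r hrp
        rw [hK]
        exact h.trans (dvd_pow_self q₀ two_ne_zero)
      have hdiv := hIdx1 F q₀ hK n hn1 f hf
      rw [Cfsg.Agent.Lib.Helper45.GUCard.card_GU hK n, Matrix.card_GL_field, hK] at hdiv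
      obtain ⟨j, hj2, hjn, hj⟩ := hIdx2 n q₀ r (by omega) hq₀2 hrP hr2 hrq₀
        (dvd_trans (mul_dvd_mul_right hΩ _) hdiv)
      by_cases h1 : ((q₀ : ℕ) : ZMod r) = 1
      · have hrq01 : r ∣ q₀ - 1 := (dvd_sub_one_iff r q₀ (by omega)).mpr h1
        have hrq : r ∣ Fintype.card F - 1 := by
          rw [hK, sq_sub_one]
          exact hrq01.mul_right _
        obtain ⟨lam, hlam⟩ := exists_lam r hrq
        have hlam0 : lam ≠ 0 := by
          rintro rfl
          have h2 : (0 : F) ^ r = 1 := by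
            rw [← hlam]
            exact pow_orderOf_eq_one _
          rw [zero_pow hrP.ne_zero] at h2
          exact zero_ne_one h2
        have hum : -((q₀ : ℕ) : ZMod r) = -1 := by rw [h1]
        have hgen : ∀ e : Fin n → ZMod r, (∑ j, e j = 0) → (∃ j j', e j ≠ e j') →
            ¬ Sym e (-1) → False := by
          intro e hsum hnc hns
          have h2 : r ∣ ∑ j, (e j).val := by
            rw [← ZMod.natCast_eq_zero_iff, Nat.cast_sum]
            rw [← hsum]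
            apply Finset.sum_congr rfl
            intro j _
            exact ZMod.natCast_zmod_val (e j)
          have h3 : lam ^ (∑ j, (e j).val) = 1 := by
            apply orderOf_dvd_iff_pow_eq_one.mp
            rw [hlam]
            exact h2
          obtain ⟨x, hdet, hz, hnsc, hbad⟩ := badGenU hDiag q₀ hK φ hφ n r lam hlam 1
            one_ne_zero e (by rw [one_pow, one_mul, h3]) hnc (by rw [hum]; exact hns)
          exact hbad (hall x hdet hz hnsc)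
        have hB2 : r = n → padicValNat r (q₀ - 1) ≠ 1 → False := by
          intro hrn hv
          have h2 : 1 ≤ padicValNat r (q₀ - 1) := one_le_padicValNat_of_dvd (by omega) hrq01
          have h3 : r ^ 2 ∣ q₀ - 1 := (padicValNat_dvd_iff_le (by omega)).mpr (by omega)
          have h4 : r ^ 2 ∣ Fintype.card F - 1 := by
            rw [hK, sq_sub_one]
            exact h3.mul_right _
          obtain ⟨d, hd⟩ := rootD r h4 lam hlam
          have hd0 : d ≠ 0 := by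
            rintro rfl
            rw [zero_pow hrP.ne_zero] at hd
            exact inv_ne_zero hlam0 hd.symm
          obtain ⟨e, hsum, hnc, hns⟩ := h3B2 n r hn hr2
          obtain ⟨x, hdet, hz, hnsc, hbad⟩ := badGenU hDiag q₀ hK φ hφ n r lam hlam d hd0 e
            (by rw [hsum, pow_one, ← hrn, hd, inv_mul_cancel₀ hlam0]) hnc
            (by rw [hum]; exact hns)
          exact hbad (hall x hdet hz hnsc)
        by_cases hr3 : r = 3
        · by_cases hn3' : n = 3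
          · exact hB2 (by omega) (fun hv => hc2 ⟨Or.inl hr3, by omega, hv⟩)
          · have hn6 : n ≠ 6 := fun h => hgap ⟨h, hr3⟩
            obtain ⟨e, hsum, hnc, hns⟩ := h3B3 n r hr3 (by omega) hn6
            exact hgen e hsum hnc hns
        · by_cases h55 : n = 5 ∧ r = 5
          · exact hB2 (by omega) (fun hv => hc2 ⟨Or.inr h55.2, by omega, hv⟩)
          · obtain ⟨e, hsum, hnc, hns⟩ := h3B1 n r hn hr2 hr3 h55
            exact hgen e hsum hnc hns
      · have hrq : ¬ r ∣ Fintype.card F - 1 := by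
          intro h
          rw [dvd_sub_one_iff r _ Fintype.card_pos, hK, Nat.cast_pow, sq] at h
          rcases mul_self_eq_one_iff.mp h with h' | h'
          · exact h1 h'
          · rw [h', neg_neg, one_pow] at hj
            exact neg_one_ne_one r hr2 hj.symm
        obtain ⟨x, hdet, hxr, hnsc, hbad⟩ := badBlk hRed hPoly hArith q₀ hK φ hφ r hr2 hrp hrq
          n j hn1 hjn hj
        exact hbad (hall x hdet ⟨1, by rw [hxr, one_smul]⟩ hnsc)
  · rintro (⟨hr2, hp⟩ | ⟨hr35, hnr, hv⟩) X hdet hz hns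
    · obtain ⟨z, hz⟩ := hz
      subst hr2
      have hz0 := scalar_ne_zero n hn1 2 X hdet z hz
      obtain ⟨c, hc⟩ : ∃ c : F, c * c = z := by
        by_cases hp2 : p = 2
        · have hchar : ringChar F = 2 := by
            rw [← hp2]
            exact ringChar.eq F p
          obtain ⟨c, hc⟩ := FiniteField.isSquare_of_char_two hchar z
          exact ⟨c, hc.symm⟩
        · have hv : padicValNat 2 n ≤ padicValNat 2 (Fintype.card F - 1) :=
            hp.resolve_left hp2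
          by_contra hns'
          push Not at hns'
          have h20 : ((2 : ℕ) : F) ≠ 0 :=
            Cfsg.Agent.Lib.Helper40.PrimeFix.cast_ne_zero' (p := p) 2 (Ne.symm hp2)
          have h3 := Cfsg.Agent.Lib.Helper40.PrimeFix.nonpower_arith 2 h20 hn1 X hdet z
            (fun d hd => hns' d (by rw [← hd, pow_two])) hz
          exact h3 ⟨hv, fun _ _ => card_mod_four q₀ hK hp2⟩
      have hc0 : c ≠ 0 := by
        rintro rfl
        rw [mul_zero] at hc
        exact hz0 hc.symm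
      exact good2 hInv φ X c hc0 (by rw [hc]; exact hz)
    · obtain ⟨z, hz⟩ := hz
      subst hnr
      have hr2 : n ≠ 2 := by
        rcases hr35 with h | h <;> omega
      have hrp : n ≠ p := hr.resolve_left hr2
      exact sufU hConj hZ2 hRefl hNorm hFrob hRstar q₀ hK φ hφ hφ2 hl n hr2 hrp hr35 hv X hdet z hz

end Cfsg.Agent.Lib.Helper41.UnitAsm
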