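import Mathlib
import Cfsg.Agent.Lib.Helper41.UnitStmt

set_option autoImplicit false

namespace Cfsg.Agent.Lib.Helper41.UnitBADUARITH

open Cfsg.Agent.Lib.Helper41

theorem main : UnitStmt.BadUArith := by
  intro q₀ r j _ hr2 hj hmod
  have hr : r.Prime := Fact.out
  obtain ⟨v, hv⟩ : ∃ v : ZMod r, v = ((q₀ : ℕ) : ZMod r) := ⟨_, rfl⟩
  rw [← hv] at hj hmod
  have hne : (-1 : ZMod r) ≠ 1 := by
    intro h
    have h2 : ((2 : ℕ) : ZMod r) = 0 := by
      push_cast
      linear_combination (-1 : ZMod r) * h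
    have h3 := (ZMod.natCast_eq_zero_iff 2 r).mp h2
    exact hr2 ((Nat.prime_dvd_prime_iff_eq hr Nat.prime_two).mp h3)
  obtain ⟨s, hs⟩ : ∃ s, orderOf v = 2 * s := ⟨orderOf v / 2, by omega⟩
  have hsodd : s % 2 = 1 := by omega
  have hvs2 : (v ^ s) ^ 2 = 1 := by
    rw [← pow_mul, mul_comm, ← hs]
    exact pow_orderOf_eq_one v
  have hvs1 : v ^ s ≠ 1 := by
    intro h
    have h1 := orderOf_dvd_of_pow_eq_one h
    rw [hs] at h1
    have h2 : s ≠ 0 := by omega
    have h3 := Nat.le_of_dvd (by omega) h1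
    omega
  have hvs : v ^ s = -1 := by
    rw [sq] at hvs2
    rcases mul_self_eq_one_iff.mp hvs2 with h | h
    · exact absurd h hvs1
    · exact h
  have hnv : (-v) ^ s = 1 := by
    rw [neg_pow, hvs, Odd.neg_one_pow (Nat.odd_iff.mpr hsodd)]
    norm_num
  have h1 : ((-v) ^ j) ^ s = 1 := by
    rw [← pow_mul, mul_comm, pow_mul, hnv, one_pow]
  rw [hj, Odd.neg_one_pow (Nat.odd_iff.mpr hsodd)] at h1
  exact hne h1

end Cfsg.Agent.Lib.Helper41.UnitBADUARITH
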