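import Mathlib
import Cfsg.Agent.Lib.Helper41.UnitStmt

set_option autoImplicit false

namespace Cfsg.Agent.Lib.Helper41.UnitNORMSURJ

open Cfsg.Agent.Lib.Helper41

universe u

theorem main : UnitStmt.NormSurj.{u} := by
  intro F _ _ q₀ hcard a ha
  classical
  have hq0 : 2 ≤ q₀ := by
    by_contra h
    have h2 : 1 < Fintype.card F := Fintype.one_lt_card
    have : q₀ ^ 2 ≤ 1 := by
      have h1 : q₀ ≤ 1 := by omega
      interval_cases q₀ <;> norm_num
    omega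
  have ha0 : a ≠ 0 := by
    rintro rfl
    rw [zero_pow (by omega)] at ha
    exact zero_ne_one ha
  obtain ⟨g, hg⟩ := IsCyclic.exists_generator (α := Fˣ)
  have hord : orderOf g = q₀ ^ 2 - 1 := by
    rw [orderOf_eq_card_of_forall_mem_zpowers hg, Nat.card_eq_fintype_card, Fintype.card_units,
      hcard]
  obtain ⟨a', ha'⟩ : ∃ a' : Fˣ, (a' : F) = a := ⟨Units.mk0 a ha0, rfl⟩
  have hmem : a' ∈ Submonoid.powers g := by
    rw [mem_powers_iff_mem_zpowers]; exact hg a'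
  obtain ⟨t, ht⟩ := hmem
  have ht' : g ^ t = a' := ht
  have ha'1 : a' ^ (q₀ - 1) = 1 := by
    apply Units.ext
    rw [Units.val_pow_eq_pow_val, ha', ha, Units.val_one]
  have hdvd : q₀ ^ 2 - 1 ∣ t * (q₀ - 1) := by
    rw [← hord]; apply orderOf_dvd_of_pow_eq_one; rw [pow_mul, ht']; exact ha'1
  obtain ⟨s, rfl⟩ : ∃ s, q₀ = s + 1 := ⟨q₀ - 1, by omega⟩
  have hfac : (s + 1) ^ 2 - 1 = (s + 1 + 1) * s := by
    have : (s + 1) ^ 2 = (s + 1 + 1) * s + 1 := by ring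
    rw [this, Nat.add_sub_cancel]
  have hs : s + 1 - 1 = s := by omega
  rw [hfac, hs] at hdvd
  have hdvd' : s + 1 + 1 ∣ t := Nat.dvd_of_mul_dvd_mul_right (by omega) hdvd
  obtain ⟨m, hm⟩ := hdvd'
  refine ⟨((g ^ m : Fˣ) : F), Units.ne_zero _, ?_⟩
  have key : (g ^ m) ^ (s + 1 + 1) = a' := by
    rw [← ht', hm, ← pow_mul]
    congr 1
    ring
  have h3 := congrArg (Units.val) key
  rw [ha', Units.val_pow_eq_pow_val] at h3
  exact h3

end Cfsg.Agent.Lib.Helper41.UnitNORMSURJ
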